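import Cfsg.Prelude.Def_Classical
import Cfsg.Prelude.Def_KGroupFacts
import Cfsg.Agent.Lib.Minimal.ExtraspecialTwo

/-!
Fischer2: coordinates of extraspecial 2-groups and their outer automorphism groups.
-/

set_option autoImplicit false
set_option linter.style.haveILetI false

namespace CfsgLib.Fischer2.ExtraspecialOut

open Cfsg

universe u

theorem z2_eq_one : ∀ t : ZMod 2, t ≠ 0 → t = 1 := by decide

theorem z2_add_one : ∀ t : ZMod 2, t ≠ 0 → 1 + t = 0 := by decide

theorem z2_of_add : ∀ t : ZMod 2, 0 = 1 + t → t = 1 := by decide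

theorem z2_ext : ∀ s t : ZMod 2, (s = 0 ↔ t = 0) → s = t := by decide

theorem z2_cases : ∀ t : ZMod 2, t = 0 ∨ t = 1 := by decide

section Lift

variable {E : Type u} [Group E] {ι : Type}

/-- `π` gives coordinates of `E` modulo `{1, z}`, with squaring map `Q`. -/
structure IsCoord (z : E) (π : E → (ι → ZMod 2)) (Q : (ι → ZMod 2) → ZMod 2) : Prop where
  map_mul : ∀ x y, π (x * y) = π x + π y
  surj : Function.Surjective π
  ker : ∀ x, π x = 0 ↔ x = 1 ∨ x = z
  zne : z ≠ 1
  zsq : z * z = 1
  zcen : ∀ x, z * x = x * z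
  sq_mem : ∀ x, x * x = 1 ∨ x * x = z
  sq : ∀ x, x * x = 1 ↔ Q (π x) = 0

variable {z : E} {π π' : E → (ι → ZMod 2)} {Q : (ι → ZMod 2) → ZMod 2}

theorem IsCoord.map_one (h : IsCoord z π Q) : π 1 = 0 := (h.ker 1).2 (Or.inl rfl)

theorem IsCoord.map_inv (h : IsCoord z π Q) (x : E) : π x⁻¹ = -π x :=
  eq_neg_of_add_eq_zero_left (by rw [← h.map_mul, inv_mul_cancel, h.map_one])

theorem IsCoord.eq_or_eq (h : IsCoord z π Q) {x y : E} (hxy : π x = π y) :
    x = y ∨ x = z * y := by
  have : π (x * y⁻¹) = 0 := by rw [h.map_mul, h.map_inv, hxy, add_neg_cancel]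
  rcases (h.ker _).1 this with h' | h'
  · exact Or.inl (mul_inv_eq_one.1 h')
  · exact Or.inr (mul_inv_eq_iff_eq_mul.1 h')

theorem IsCoord.comp (h : IsCoord z π Q) (g : (ι → ZMod 2) ≃+ (ι → ZMod 2))
    (hg : ∀ v, Q (g v) = Q v) : IsCoord z (fun x => g (π x)) Q where
  map_mul x y := by simp [h.map_mul]
  surj := g.surjective.comp h.surj
  ker x := by simpa using h.ker x
  zne := h.zne
  zsq := h.zsq
  zcen := h.zcen
  sq_mem := h.sq_mem
  sq x := by rw [hg]; exact h.sq x

/-- The pairs with equal coordinates. -/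
def pairs (h : IsCoord z π Q) (h' : IsCoord z π' Q) : Subgroup (E × E) where
  carrier := {p | π' p.2 = π p.1}
  mul_mem' {p q} hp hq := by
    simp only [Set.mem_ofPred_eq] at hp hq ⊢
    rw [Prod.fst_mul, Prod.snd_mul, h.map_mul, h'.map_mul, hp, hq]
  one_mem' := by simp [Set.mem_ofPred_eq, h.map_one, h'.map_one]
  inv_mem' {p} hp := by
    simp only [Set.mem_ofPred_eq] at hp ⊢
    rw [Prod.fst_inv, Prod.snd_inv, h.map_inv, h'.map_inv, hp]

/-- Two coordinate maps with the same squaring map differ by an automorphism. -/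
theorem exists_lift [Finite E] (h : IsCoord z π Q) (h' : IsCoord z π' Q) :
    ∃ α : E ≃* E, ∀ x, π' (α x) = π x := by
  classical
  haveI : Fact (Nat.Prime 2) := ⟨Nat.prime_two⟩
  set P := pairs h h' with hP
  have hzP : ((z, z) : E × E) ∈ P := by
    show π' z = π z
    rw [(h'.ker z).2 (Or.inr rfl), (h.ker z).2 (Or.inr rfl)]
  have hcP : ((z, 1) : E × E) ∈ P := by
    show π' 1 = π z
    rw [h'.map_one, (h.ker z).2 (Or.inr rfl)]
  let N : Subgroup P := Subgroup.zpowers (⟨(z, z), hzP⟩ : P)
  have hNc : N ≤ Subgroup.center P := Subgroup.zpowers_le.2 <| Subgroup.mem_center_iff.2 fun p =>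
    Subtype.ext (Prod.ext (h.zcen _).symm (h.zcen _).symm)
  haveI : N.Normal :=
    ⟨fun n hn g => by rw [Subgroup.mem_center_iff.1 (hNc hn) g, mul_inv_cancel_right]; exact hn⟩
  have hNmem : ∀ p ∈ N, ((p : E × E) = 1 ∨ (p : E × E) = (z, z)) := by
    rintro _ ⟨k, rfl⟩
    have h2 : (⟨(z, z), hzP⟩ : P) ^ 2 = 1 :=
      Subtype.ext (by simp [pow_two, h.zsq, Prod.ext_iff])
    rcases Int.even_or_odd k with ⟨j, rfl⟩ | ⟨j, rfl⟩
    · left
      simp [← two_mul, zpow_mul, zpow_ofNat, h2]
    · right
      simp [zpow_add, zpow_mul, zpow_ofNat, h2]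
  have hexp : ∀ x : P ⧸ N, x * x = 1 := by
    intro x
    obtain ⟨p, rfl⟩ := QuotientGroup.mk'_surjective N x
    rw [← map_mul, QuotientGroup.mk'_apply, QuotientGroup.eq_one_iff]
    have hp : π' (p : E × E).2 = π (p : E × E).1 := p.2
    have hiff : (p : E × E).1 * (p : E × E).1 = 1 ↔ (p : E × E).2 * (p : E × E).2 = 1 := by
      rw [h.sq, h'.sq, hp]
    rcases h.sq_mem (p : E × E).1 with e | e
    · rw [show p * p = 1 from Subtype.ext (Prod.ext e (hiff.1 e))]
      exact N.one_mem
    · rcases h.sq_mem (p : E × E).2 with e' | e'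
      · exact absurd (e ▸ hiff.2 e') h.zne
      · rw [show p * p = ⟨(z, z), hzP⟩ from Subtype.ext (Prod.ext e e')]
        exact Subgroup.mem_zpowers _
  have hcomm : ∀ x y : P ⧸ N, x * y = y * x := fun x y => by
    have hi : ∀ w : P ⧸ N, w⁻¹ = w := fun w => inv_eq_of_mul_eq_one_right (hexp w)
    rw [← hi (x * y), mul_inv_rev, hi, hi]
  letI : CommGroup (P ⧸ N) := { (inferInstance : Group (P ⧸ N)) with mul_comm := hcomm }
  letI : Module (ZMod 2) (Additive (P ⧸ N)) :=
    AddCommGroup.zmodModule (fun x => by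
      rw [two_nsmul]; exact hexp x.toMul)
  let c : Additive (P ⧸ N) := Additive.ofMul (QuotientGroup.mk' N ⟨(z, 1), hcP⟩)
  have hc : c ≠ 0 := by
    intro hc
    rcases hNmem _ ((QuotientGroup.eq_one_iff _).1 (congrArg Additive.toMul hc)) with e | e
    · exact h.zne (congrArg Prod.fst e)
    · exact h.zne (congrArg Prod.snd e).symm
  obtain ⟨f, hf⟩ : ∃ f : Module.Dual (ZMod 2) (Additive (P ⧸ N)), f c ≠ 0 := by
    by_contra hcon
    push Not at hcon
    exact hc ((Module.forall_dual_apply_eq_zero_iff (ZMod 2) c).1 hcon)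
  let χ : P → ZMod 2 := fun p => f (Additive.ofMul (QuotientGroup.mk' N p))
  have χmul : ∀ p q : P, χ (p * q) = χ p + χ q := fun p q => by
    simp only [χ, map_mul, ofMul_mul, map_add]
  let H : Subgroup P :=
    { carrier := {p | χ p = 0}
      mul_mem' := fun {p q} hp hq => by
        simp only [Set.mem_ofPred_eq] at hp hq ⊢
        rw [χmul, hp, hq, add_zero]
      one_mem' := by simp [χ]
      inv_mem' := fun {p} hp => by
        simp only [Set.mem_ofPred_eq] at hp ⊢
        have := χmul p⁻¹ p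
        rw [inv_mul_cancel, hp, add_zero] at this
        rw [← this]; simp [χ] }
  have hN0 : ∀ p ∈ N, χ p = 0 := fun p hp => by
    simp [χ, (QuotientGroup.eq_one_iff p).2 hp]
  have hc1 : χ ⟨(z, 1), hcP⟩ = 1 := z2_eq_one _ hf
  let φ : H →* E := (MonoidHom.fst E E).comp (P.subtype.comp H.subtype)
  let ψ : H →* E := (MonoidHom.snd E E).comp (P.subtype.comp H.subtype)
  have hnot : (⟨(z, 1), hcP⟩ : P) ∉ H := fun hmem => by
    have : χ ⟨(z, 1), hcP⟩ = 0 := hmem
    rw [hc1] at this
    exact one_ne_zero this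
  have hzz : (⟨(z, z), hzP⟩ : P) ∈ H := hN0 _ (Subgroup.mem_zpowers _)
  have hφinj : Function.Injective φ := by
    refine (injective_iff_map_eq_one φ).2 fun p hp => ?_
    have hp' : π' (p : P).1.2 = π (p : P).1.1 := (p : P).2
    change (p : P).1.1 = 1 at hp
    rw [hp, h.map_one] at hp'
    rcases (h'.ker _).1 hp' with e | e
    · exact Subtype.ext (Subtype.ext (Prod.ext hp e))
    · exfalso
      apply hnot
      convert H.mul_mem p.2 hzz using 1
      exact Subtype.ext (Prod.ext (by simp [hp]) (by simp [e, h.zsq]))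
  have hψinj : Function.Injective ψ := by
    refine (injective_iff_map_eq_one ψ).2 fun p hp => ?_
    have hp' : π' (p : P).1.2 = π (p : P).1.1 := (p : P).2
    change (p : P).1.2 = 1 at hp
    rw [hp, h'.map_one] at hp'
    rcases (h.ker _).1 hp'.symm with e | e
    · exact Subtype.ext (Subtype.ext (Prod.ext e hp))
    · exfalso
      apply hnot
      convert p.2 using 1
      exact Subtype.ext (Prod.ext e.symm hp.symm)
  have hφsurj : Function.Surjective φ := by
    intro x
    obtain ⟨y, hy⟩ := h'.surj (π x)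
    by_cases hχ : χ ⟨(x, y), hy⟩ = 0
    · exact ⟨⟨⟨(x, y), hy⟩, hχ⟩, rfl⟩
    · have hy' : π' (z * y) = π x := by
        rw [h'.map_mul, (h'.ker z).2 (Or.inr rfl), zero_add, hy]
      have hz1 : ((1, z) : E × E) ∈ P := by
        show π' z = π 1
        rw [h.map_one, (h'.ker z).2 (Or.inr rfl)]
      have e1 : χ ⟨(1, z), hz1⟩ = 1 := by
        have := χmul ⟨(z, 1), hcP⟩ ⟨(1, z), hz1⟩
        have e : (⟨(z, 1), hcP⟩ : P) * ⟨(1, z), hz1⟩ = ⟨(z, z), hzP⟩ := Subtype.ext (by simp)
        rw [e, show χ ⟨(z, z), hzP⟩ = 0 from hzz, hc1] at this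
        exact z2_of_add _ this
      have hsum : χ ⟨(x, z * y), hy'⟩ = 0 := by
        have e : (⟨(x, z * y), hy'⟩ : P) = ⟨(1, z), hz1⟩ * ⟨(x, y), hy⟩ := Subtype.ext (by simp)
        rw [e, χmul, e1]
        exact z2_add_one _ hχ
      exact ⟨⟨⟨(x, z * y), hy'⟩, hsum⟩, rfl⟩
  let eH := MulEquiv.ofBijective φ ⟨hφinj, hφsurj⟩
  have hcard : Nat.card H = Nat.card E := Nat.card_congr eH.toEquiv
  let fH := MulEquiv.ofBijective ψ ((Nat.bijective_iff_injective_and_card ψ).2 ⟨hψinj, hcard⟩)
  refine ⟨eH.symm.trans fH, fun x => ?_⟩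
  have h1 : ((eH.symm x : H) : P).1.1 = x := eH.apply_symm_apply x
  have h2 := ((eH.symm x : H) : P).2
  change π' ((eH.symm x : H) : P).1.2 = π ((eH.symm x : H) : P).1.1 at h2
  rw [h1] at h2
  exact h2

end Lift

section Out

variable {E : Type u} [Group E] [Finite E] {ι : Type} [Fintype ι] [DecidableEq ι]
  {z : E} {π : E → (ι → ZMod 2)} {Q : (ι → ZMod 2) → ZMod 2}

theorem IsCoord.apply_z (h : IsCoord z π Q) (hZ : ∀ x, x ∈ Subgroup.center E ↔ x = 1 ∨ x = z)
    (α : MulAut E) : α z = z := by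
  have hc : α z ∈ Subgroup.center E := Subgroup.mem_center_iff.2 fun y => by
    obtain ⟨y, rfl⟩ := α.surjective y
    rw [← _root_.map_mul, ← _root_.map_mul, Subgroup.mem_center_iff.1 ((hZ z).2 (Or.inr rfl)) y]
  rcases (hZ _).1 hc with e | e
  · exact absurd (α.injective (e.trans (_root_.map_one α).symm)) h.zne
  · exact e

theorem IsCoord.map_eq_map (h : IsCoord z π Q)
    (hZ : ∀ x, x ∈ Subgroup.center E ↔ x = 1 ∨ x = z) (α : MulAut E) {x y : E} (hxy : π x = π y) :
    π (α x) = π (α y) := by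
  rcases h.eq_or_eq hxy with rfl | rfl
  · rfl
  · rw [_root_.map_mul, h.apply_z hZ, h.map_mul, (h.ker z).2 (Or.inr rfl), zero_add]

/-- **The outer automorphism group of a group with coordinates is the isometry group.** -/
theorem IsCoord.nonempty_out_equiv (h : IsCoord z π Q)
    (hZ : ∀ x, x ∈ Subgroup.center E ↔ x = 1 ∨ x = z) :
    Nonempty (Cfsg.Out E ≃* Cfsg.isometryGroup (ZMod 2) Q) := by
  classical
  let sec : (ι → ZMod 2) → E := Function.surjInv h.surj
  have hsec : ∀ v, π (sec v) = v := Function.surjInv_eq h.surj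
  let L : MulAut E → ((ι → ZMod 2) →ₗ[ZMod 2] (ι → ZMod 2)) := fun α =>
    AddMonoidHom.toZModLinearMap 2
      (AddMonoidHom.mk' (fun v => π (α (sec v))) fun v w => by
        rw [← h.map_mul, ← _root_.map_mul]
        exact h.map_eq_map hZ α (by rw [h.map_mul, hsec, hsec, hsec]))
  have hL : ∀ α x, L α (π x) = π (α x) := fun α x => h.map_eq_map hZ α (hsec _)
  let M : MulAut E →* Matrix ι ι (ZMod 2) :=
    { toFun := fun α => LinearMap.toMatrix' (L α)
      map_one' := by
        have e : L 1 = LinearMap.id := LinearMap.ext fun v => by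
          obtain ⟨x, rfl⟩ := h.surj v
          rw [hL]; rfl
        rw [e, LinearMap.toMatrix'_id]
      map_mul' := fun α β => by
        have e : L (α * β) = (L α).comp (L β) := LinearMap.ext fun v => by
          obtain ⟨x, rfl⟩ := h.surj v
          rw [LinearMap.comp_apply, hL, hL, hL]; rfl
        rw [e, LinearMap.toMatrix'_comp] }
  let Φ : MulAut E →* GL ι (ZMod 2) := M.toHomUnits
  have hΦ : ∀ α x, (Φ α : Matrix ι ι (ZMod 2)).mulVec (π x) = π (α x) := fun α x => by
    rw [← hL]
    exact LinearMap.toMatrix'_mulVec (L α) (π x)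
  have hmem : ∀ α, Φ α ∈ Cfsg.isometryGroup (ZMod 2) Q := by
    intro α u _
    obtain ⟨x, rfl⟩ := h.surj u
    show Q ((Φ α : Matrix ι ι (ZMod 2)).mulVec (π x)) = Q (π x)
    rw [hΦ]
    have hiff : (α x) * (α x) = 1 ↔ x * x = 1 := by
      rw [← _root_.map_mul, ← _root_.map_one α, α.injective.eq_iff, _root_.map_one]
    rw [h.sq, h.sq] at hiff
    exact z2_ext _ _ hiff
  let Ψ : MulAut E →* Cfsg.isometryGroup (ZMod 2) Q := Φ.codRestrict _ hmem
  have hsurj : Function.Surjective Ψ := by
    rintro ⟨g, hg⟩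
    let A : (ι → ZMod 2) ≃+ (ι → ZMod 2) :=
      { toFun := fun v => (g : Matrix ι ι (ZMod 2)).mulVec v
        invFun := fun v => ((g⁻¹ : GL ι (ZMod 2)) : Matrix ι ι (ZMod 2)).mulVec v
        left_inv := fun v => by
          dsimp only
          rw [Matrix.mulVec_mulVec, ← Units.val_mul, inv_mul_cancel, Units.val_one, Matrix.one_mulVec]
        right_inv := fun v => by
          dsimp only
          rw [Matrix.mulVec_mulVec, ← Units.val_mul, mul_inv_cancel, Units.val_one, Matrix.one_mulVec]
        map_add' := fun v w => Matrix.mulVec_add _ _ _ }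
    obtain ⟨α, hα⟩ := exists_lift (h.comp A fun v => hg v v) h
    refine ⟨α, Subtype.ext (Units.ext ?_)⟩
    refine Matrix.ext_of_mulVec_single fun i => ?_
    obtain ⟨x, hx⟩ := h.surj (Pi.single i 1)
    show (Φ α : Matrix ι ι (ZMod 2)).mulVec _ = _
    rw [← hx, hΦ]
    exact hα x
  have hfix : ∀ α, α ∈ Ψ.ker ↔ ∀ x, π (α x) = π x := by
    intro α
    rw [MonoidHom.mem_ker]
    constructor
    · intro e x
      rw [← hΦ, show Φ α = 1 from congrArg Subtype.val e]
      simp
    · intro e
      refine Subtype.ext (Units.ext (Matrix.ext_of_mulVec_single fun i => ?_))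
      obtain ⟨x, hx⟩ := h.surj (Pi.single i 1)
      show (Φ α : Matrix ι ι (ZMod 2)).mulVec _ = _
      rw [← hx, hΦ, e]
      simp
  have hle : Cfsg.Inn E ≤ Ψ.ker := by
    rintro _ ⟨g, rfl⟩
    rw [hfix]
    intro x
    show π (g * x * g⁻¹) = π x
    rw [h.map_mul, h.map_mul, h.map_inv]
    abel
  have hker : Ψ.ker = Cfsg.Inn E := by
    refine (Subgroup.eq_of_le_of_card_ge hle ?_).symm
    -- an element of the kernel is determined by its values on lifts of a basis
    let d : Ψ.ker → (ι → Bool) := fun α i =>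
      decide ((α : MulAut E) (sec (Pi.single i 1)) = sec (Pi.single i 1))
    have hdinj : Function.Injective d := by
      intro α β hab
      have hgen : ∀ i, (α : MulAut E) (sec (Pi.single i 1)) = (β : MulAut E) (sec (Pi.single i 1)) := by
        intro i
        have hd := congrFun hab i
        simp only [d, decide_eq_decide] at hd
        rcases h.eq_or_eq ((hfix _).1 α.2 (sec (Pi.single i 1))) with e | e <;>
          rcases h.eq_or_eq ((hfix _).1 β.2 (sec (Pi.single i 1))) with e' | e'
        · rw [e, e']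
        · exact e.trans (hd.1 e).symm
        · exact (hd.2 e').trans e'.symm
        · rw [e, e']
      let T : Subgroup E :=
        { carrier := {x | (α : MulAut E) x = (β : MulAut E) x}
          mul_mem' := fun {x y} hx hy => by
            simp only [Set.mem_ofPred_eq] at hx hy ⊢
            rw [_root_.map_mul, _root_.map_mul, hx, hy]
          one_mem' := by simp
          inv_mem' := fun {x} hx => by
            simp only [Set.mem_ofPred_eq] at hx ⊢
            rw [_root_.map_inv, _root_.map_inv, hx] }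
      have hzT : z ∈ T := by
        show (α : MulAut E) z = (β : MulAut E) z
        rw [h.apply_z hZ, h.apply_z hZ]
      have hall : ∀ v : ι → ZMod 2, ∃ x ∈ T, π x = v := by
        intro v
        rw [show v = ∑ i, Pi.single i (v i) from (Finset.univ_sum_single v).symm]
        refine Finset.sum_induction (M := ι → ZMod 2) _ (fun v => ∃ x ∈ T, π x = v) ?_ ?_ fun i _ => ?_
        · rintro _ _ ⟨x, hx, rfl⟩ ⟨y, hy, rfl⟩
          exact ⟨x * y, T.mul_mem hx hy, h.map_mul x y⟩
        · exact ⟨1, T.one_mem, h.map_one⟩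
        · rcases z2_cases (v i) with e | e
          · exact ⟨1, T.one_mem, by rw [h.map_one, e, Pi.single_zero]⟩
          · exact ⟨_, hgen i, by rw [hsec, e]⟩
      refine Subtype.ext (MulEquiv.ext fun x => ?_)
      obtain ⟨y, hy, hxy⟩ := hall (π x)
      rcases h.eq_or_eq hxy.symm with rfl | rfl
      · exact hy
      · exact T.mul_mem hzT hy
    refine (Nat.card_le_card_of_injective d hdinj).trans (le_of_eq ?_)
    let π₀ : E →* Multiplicative (ι → ZMod 2) :=
      MonoidHom.mk' (fun x => Multiplicative.ofAdd (π x)) fun x y =>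
        congrArg Multiplicative.ofAdd (h.map_mul x y)
    have hk : (MulAut.conj : E →* MulAut E).ker = π₀.ker := by
      ext g
      rw [MonoidHom.mem_ker, MonoidHom.mem_ker, show π₀ g = 1 ↔ π g = 0 from ofAdd_eq_one, h.ker, ← hZ,
        Subgroup.mem_center_iff]
      constructor
      · intro e x
        have := congrArg (fun f : MulAut E => f x) e
        simp only [MulAut.conj_apply, MulAut.one_apply, mul_inv_eq_iff_eq_mul] at this
        exact this.symm
      · intro e
        ext x
        simp [MulAut.conj_apply, ← e x]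
    have hpi : Function.Surjective π₀ := fun v => by
      obtain ⟨x, hx⟩ := h.surj (Multiplicative.toAdd v)
      exact ⟨x, congrArg Multiplicative.ofAdd hx⟩
    have := Subgroup.index_ker π₀
    rw [← hk, Subgroup.index_ker, MonoidHom.range_eq_top.2 hpi, Subgroup.card_top] at this
    rw [this]
    simp [Nat.card_eq_fintype_card]
  exact ⟨(QuotientGroup.quotientMulEquivOfEq hker.symm).trans
    (QuotientGroup.quotientKerEquivOfSurjective Ψ hsurj)⟩

end Out

section Existence

open CfsgLib.Minimal.ExtraspecialTwo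

/-- Coordinates in terms of the centre. -/
def HasCoord (E : Type u) [Group E] (ι : Type) (Q : (ι → ZMod 2) → ZMod 2) : Prop :=
  ∃ π : E → (ι → ZMod 2), (∀ x y, π (x * y) = π x + π y) ∧ Function.Surjective π ∧
    (∀ x, π x = 0 ↔ x ∈ Subgroup.center E) ∧ (∀ x, x * x = 1 ↔ Q (π x) = 0)

theorem HasCoord.nonempty_out_equiv {E : Type u} [Group E] [Finite E] (hE : IsExtraspecial 2 E)
    {ι : Type} [Fintype ι] [DecidableEq ι] {Q : (ι → ZMod 2) → ZMod 2} (h : HasCoord E ι Q) :
    Nonempty (Cfsg.Out E ≃* Cfsg.isometryGroup (ZMod 2) Q) := by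
  obtain ⟨π, h1, h2, h3, h4⟩ := h
  have hZ : ∀ x, x ∈ Subgroup.center E ↔ x = 1 ∨ x = zE hE := fun x =>
    ⟨zE_cases hE, by rintro (rfl | rfl); exacts [one_mem _, zE_mem hE]⟩
  exact (IsCoord.mk h1 h2 (fun x => (h3 x).trans (hZ x)) (zE_ne hE) (zE_sq hE) (zE_comm hE)
    (sq_cases hE) h4).nonempty_out_equiv hZ

variable {E : Type u} [Group E] [Finite E]

/-- The bit of a Boolean. -/
def bit (s : Bool) : ZMod 2 := if s then 1 else 0

theorem bit_xor (s t : Bool) : bit (xor s t) = bit s + bit t := by cases s <;> cases t <;> decide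

theorem bit_inj {s t : Bool} (h : bit s = bit t) : s = t := by
  revert h; cases s <;> cases t <;> decide

/-- Splitting off a noncommuting pair. -/
theorem coord_step (hE : IsExtraspecial 2 E) {a b : E} (hab : a * b ≠ b * a)
    {α β : pairCentralizer a b} (hα : a * a = (α : E)) (hβ : b * b = (β : E))
    {W : Type*} [AddCommGroup W] (πC : pairCentralizer a b → W)
    (hmul : ∀ c d, πC (c * d) = πC c + πC d)
    (hker : ∀ c, πC c = 0 ↔ c ∈ Subgroup.center (pairCentralizer a b))
    (hsurj : Function.Surjective πC) :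
    ∃ f : E → ZMod 2 × ZMod 2 × W, (∀ x y, f (x * y) = f x + f y) ∧ Function.Surjective f ∧
      (∀ x, f x = 0 ↔ x ∈ Subgroup.center E) ∧
      ∀ x, ∃ s t c, f x = (bit s, bit t, πC c) ∧
        x * x = (if s then a * a else 1) * (if t then b * b else 1) *
          (if t && s then zE hE else 1) * ((c : E) * c) := by
  classical
  have F := frame_of_pair hE hab hα hβ
  let ψ := Equiv.ofBijective (psi a b (pairCentralizer a b)) F.bij
  let f : E → ZMod 2 × ZMod 2 × W := fun x =>
    (bit (ψ.symm x).1.1, bit (ψ.symm x).1.2, πC (ψ.symm x).2)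
  have hcen : ∀ c : pairCentralizer a b, (c : E) ∈ Subgroup.center E → πC c = 0 := fun c hc =>
    (hker c).2 (Subgroup.mem_center_iff.2 fun d => Subtype.ext (Subgroup.mem_center_iff.1 hc d))
  have h0 : πC 1 = 0 := hcen 1 (one_mem _)
  have hsq : ∀ {g : E}, g * g ∈ Subgroup.center E := fun {g} => by
    rcases sq_cases hE g with e | e <;> rw [e]
    exacts [one_mem _, zE_mem hE]
  have hπα : ∀ s : Bool, πC (if s then α else 1) = 0 := by
    intro s; cases s
    · exact h0
    · exact hcen α (hα ▸ hsq)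
  have hπβ : ∀ s : Bool, πC (if s then β else 1) = 0 := by
    intro s; cases s
    · exact h0
    · exact hcen β (hβ ▸ hsq)
  have hπz : ∀ s : Bool, πC (if s then zC hE a b else 1) = 0 := by
    intro s; cases s
    · exact h0
    · exact hcen _ (zE_mem hE)
  refine ⟨f, fun x y => ?_, ?_, fun x => ?_, fun x => ?_⟩
  · obtain ⟨p, rfl⟩ := ψ.surjective x
    obtain ⟨q, rfl⟩ := ψ.surjective y
    have e : ψ.symm (ψ p * ψ q) = law α β (zC hE a b) p q :=
      ψ.symm_apply_eq.2 (F.psi_law p q).symm
    simp only [f, e, Equiv.symm_apply_apply, law, hmul, hπα, hπβ, hπz, bit_xor, zero_add,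
      Prod.mk_add_mk]
  · rintro ⟨s, t, w⟩
    obtain ⟨c, rfl⟩ := hsurj w
    have hb : ∀ s : ZMod 2, ∃ u, bit u = s := by decide
    obtain ⟨u, rfl⟩ := hb s
    obtain ⟨v, rfl⟩ := hb t
    exact ⟨ψ ((u, v), c), by simp [f]⟩
  · constructor
    · intro hx
      obtain ⟨⟨⟨s, t⟩, c⟩, rfl⟩ := ψ.surjective x
      simp only [f, Equiv.symm_apply_apply, Prod.mk_eq_zero] at hx
      obtain ⟨h1, h2, h3⟩ := hx
      rw [show s = false from bit_inj h1, show t = false from bit_inj h2]
      change psi a b _ ((false, false), c) ∈ _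
      simp only [psi, Bool.false_eq_true, if_false, one_mul]
      refine Subgroup.mem_center_iff.2 fun y => ?_
      obtain ⟨⟨⟨s', t'⟩, d⟩, rfl⟩ := F.bij.2 y
      obtain ⟨ha, hb⟩ := mem_pairCentralizer.1 c.2
      have hd : Commute (d : E) (c : E) :=
        congrArg Subtype.val (Subgroup.mem_center_iff.1 ((hker c).1 h3) d)
      refine (Commute.mul_left (Commute.mul_left ?_ ?_) hd).eq
      · cases s'
        · exact Commute.one_left _
        · exact ha.symm
      · cases t'
        · exact Commute.one_left _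
        · exact hb.symm
    · intro hx
      have hxC := center_le_pairCentralizer a b hx
      have e : ψ.symm x = ((false, false), ⟨x, hxC⟩) :=
        ψ.symm_apply_eq.2 (by
          show x = psi a b _ ((false, false), ⟨x, hxC⟩)
          simp [psi])
      simp [f, e, bit, hcen ⟨x, hxC⟩ hx]
  · obtain ⟨⟨⟨s, t⟩, c⟩, rfl⟩ := ψ.surjective x
    refine ⟨s, t, c, by simp [f], ?_⟩
    rw [hα, hβ]
    show psi a b _ ((s, t), c) * psi a b _ ((s, t), c) = _
    rw [← F.psi_law]
    cases s <;> cases t <;> simp [law, psi, zC, mul_assoc]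

/-- Adding a hyperbolic pair to the coordinates. -/
def consPlus {m : ℕ} (s t : ZMod 2) (v : Fin m ⊕ Fin m → ZMod 2) :
    Fin (m + 1) ⊕ Fin (m + 1) → ZMod 2 :=
  Sum.elim (Fin.cons s fun i => v (.inl i)) (Fin.cons t fun i => v (.inr i))

theorem quadFormPlus_cons {m : ℕ} (s t : ZMod 2) (v : Fin m ⊕ Fin m → ZMod 2) :
    Cfsg.quadFormPlus (m + 1) (ZMod 2) (consPlus s t v) =
      s * t + Cfsg.quadFormPlus m (ZMod 2) v := by
  simp [Cfsg.quadFormPlus, consPlus, Fin.sum_univ_succ]

theorem consPlus_add {m : ℕ} (s t s' t' : ZMod 2) (v v' : Fin m ⊕ Fin m → ZMod 2) :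
    consPlus (s + s') (t + t') (v + v') = consPlus s t v + consPlus s' t' v' := by
  ext (i | i) <;> refine Fin.cases ?_ (fun j => ?_) i <;> simp [consPlus]

theorem consPlus_surjective {m : ℕ} (w : Fin (m + 1) ⊕ Fin (m + 1) → ZMod 2) :
    ∃ s t v, consPlus (m := m) s t v = w :=
  ⟨w (.inl 0), w (.inr 0), Sum.elim (fun i => w (.inl i.succ)) (fun i => w (.inr i.succ)), by
    ext (i | i) <;> refine Fin.cases ?_ (fun j => ?_) i <;> simp [consPlus]⟩

theorem consPlus_eq_zero {m : ℕ} {s t : ZMod 2} {v : Fin m ⊕ Fin m → ZMod 2} :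
    consPlus s t v = 0 ↔ s = 0 ∧ t = 0 ∧ v = 0 := by
  constructor
  · intro h
    refine ⟨by simpa [consPlus] using congrFun h (.inl 0), by simpa [consPlus] using congrFun h (.inr 0),
      funext fun i => ?_⟩
    rcases i with i | i
    · simpa [consPlus] using congrFun h (.inl i.succ)
    · simpa [consPlus] using congrFun h (.inr i.succ)
  · rintro ⟨rfl, rfl, rfl⟩
    ext (i | i) <;> refine Fin.cases ?_ (fun j => ?_) i <;> simp [consPlus]

theorem step_hasCoord (hE : IsExtraspecial 2 E) {a b : E} (hab : a * b ≠ b * a)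
    (ha : a * a = 1) (hb : b * b = 1) {ι ι' : Type} {Q : (ι → ZMod 2) → ZMod 2}
    {Q' : (ι' → ZMod 2) → ZMod 2} (g : ZMod 2 → ZMod 2 → (ι → ZMod 2) → (ι' → ZMod 2))
    (gadd : ∀ s t s' t' v v', g (s + s') (t + t') (v + v') = g s t v + g s' t' v')
    (gsurj : ∀ w, ∃ s t v, g s t v = w)
    (gzero : ∀ {s t v}, g s t v = 0 ↔ s = 0 ∧ t = 0 ∧ v = 0)
    (gQ : ∀ s t v, Q' (g s t v) = s * t + Q v)
    (hC : HasCoord (pairCentralizer a b) ι Q) : HasCoord E ι' Q' := by
  obtain ⟨πC, h1, h2, h3, h4⟩ := hC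
  obtain ⟨f, f1, f2, f3, f4⟩ := coord_step hE hab (α := 1) (β := 1) (by simp [ha]) (by simp [hb])
    πC h1 h3 h2
  refine ⟨fun x => g (f x).1 (f x).2.1 (f x).2.2, fun x y => ?_, fun w => ?_, fun x => ?_, fun x => ?_⟩
  · simp [f1, gadd]
  · obtain ⟨s, t, v, rfl⟩ := gsurj w
    obtain ⟨x, hx⟩ := f2 (s, t, v)
    exact ⟨x, by simp [hx]⟩
  · rw [gzero, ← f3, Prod.ext_iff, Prod.ext_iff]
    rfl
  · obtain ⟨s, t, c, hf, hx⟩ := f4 x
    rw [ha, hb, ite_self, ite_self, one_mul, one_mul] at hx
    have hc4 := h4 c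
    have key : (t && s) = false ∧ (c : E) * c = 1 ∨ (t && s) = true ∧ (c : E) * c = zE hE ↔
        x * x = 1 := by
      rw [hx]
      rcases sq_cases hE (c : E) with e | e <;> rw [e] <;> cases (t && s) <;>
        simp [zE_ne hE, zE_sq hE, (zE_ne hE).symm]
    rw [gQ, hf, ← key]
    have hc : ((c : E) * c = 1) ↔ Q (πC c) = 0 := by rw [← hc4, Subtype.ext_iff]; rfl
    rcases sq_cases hE (c : E) with e | e
    · have := hc.1 e
      cases s <;> cases t <;> simp [bit, this, e, zE_ne hE, (zE_ne hE).symm]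
    · have : Q (πC c) = 1 := z2_eq_one _ fun u => zE_ne hE (e.symm.trans (hc.2 u))
      cases s <;> cases t <;> simp [bit, this, e, zE_ne hE, (zE_ne hE).symm] <;> decide

/-- Every extraspecial 2-group has hyperbolic or elliptic coordinates. -/
theorem exists_hasCoord (hE : IsExtraspecial 2 E) :
    ∃ m : ℕ, 1 ≤ m ∧ Nat.card E = 2 ^ (2 * m + 1) ∧
      ((HasCoord E (Fin m ⊕ Fin m) (Cfsg.quadFormPlus m (ZMod 2)) ∧
          numSq E = 2 ^ (2 * m) + 2 ^ m) ∨
        (HasCoord E ((Fin (m - 1) ⊕ Fin (m - 1)) ⊕ Fin 2)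
            (Cfsg.quadFormMinus (m - 1) (ZMod 2) 1 1) ∧
          numSq E + 2 ^ m = 2 ^ (2 * m))) := by
  induction hn : Nat.card E using Nat.strong_induction_on generalizing E with
  | _ n ih =>
  rcases normal_form hE with ⟨a, b, ha, hb, hab⟩ | ⟨h8, hall⟩
  · have h4 := card_eq_four_mul hE hab
    have hs := numSq_step hE hab ha hb
    by_cases h2 : 2 < Nat.card (pairCentralizer a b)
    · obtain ⟨m, hm1, hmc, hm⟩ := ih _ (by omega) (extraspecial_pairCentralizer hE hab h2) rfl
      have e1 : 2 ^ (2 * (m + 1) + 1) = 4 * 2 ^ (2 * m + 1) := by ring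
      have e2 : 2 ^ (2 * (m + 1)) = 4 * 2 ^ (2 * m) := by ring
      have e3 : 2 ^ (m + 1) = 2 * 2 ^ m := by ring
      have e4 : 2 ^ (2 * m + 1) = 2 * 2 ^ (2 * m) := by ring
      refine ⟨m + 1, by omega, by omega, ?_⟩
      rcases hm with ⟨hC, hq⟩ | ⟨hC, hq⟩
      · exact Or.inl ⟨step_hasCoord hE hab ha hb consPlus consPlus_add consPlus_surjective
          consPlus_eq_zero quadFormPlus_cons hC, by omega⟩
      · refine Or.inr ⟨?_, by omega⟩
        obtain ⟨k, rfl⟩ : ∃ k, m = k + 1 := ⟨m - 1, by omega⟩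
        refine step_hasCoord hE hab ha hb
          (fun s t v => Sum.elim (consPlus (m := k) s t fun i => v (.inl i)) fun i => v (.inr i))
          ?_ ?_ ?_ ?_ hC
        · intro s t s' t' v v'
          ext (i | i)
          · simp only [Sum.elim_inl, Pi.add_apply]
            exact congrFun (consPlus_add s t s' t' (fun j => v (.inl j)) fun j => v' (.inl j)) i
          · simp
        · intro w
          obtain ⟨s, t, v, hv⟩ := consPlus_surjective (m := k) fun i => w (.inl i)
          exact ⟨s, t, Sum.elim v fun i => w (.inr i), by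
            ext (i | i)
            · exact congrFun hv i
            · rfl⟩
        · intro s t v
          constructor
          · intro h
            have h' : consPlus s t (fun i => v (.inl i)) = 0 := funext fun i => congrFun h (.inl i)
            obtain ⟨hs', ht', hv⟩ := consPlus_eq_zero.1 h'
            refine ⟨hs', ht', funext fun i => ?_⟩
            rcases i with i | i
            · exact congrFun hv i
            · exact congrFun h (.inr i)
          · rintro ⟨rfl, rfl, rfl⟩
            ext (i | i)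
            · exact congrFun (consPlus_eq_zero.2 ⟨rfl, rfl, rfl⟩) i
            · rfl
        · intro s t v
          have := quadFormPlus_cons s t fun i => v (.inl i)
          simp only [Cfsg.quadFormPlus] at this
          simp only [Cfsg.quadFormMinus, Sum.elim_inl, Sum.elim_inr, Nat.add_sub_cancel] at this ⊢
          exact (congrArg (· + _) this).trans (add_assoc _ _ _)
    · have hle := Subgroup.card_le_of_le (center_le_pairCentralizer a b)
      rw [hE.2] at hle
      have hc : Nat.card (pairCentralizer a b) = 2 := by omega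
      rw [hc] at h4 hs
      rw [numSq_of_card_two hc] at hs
      refine ⟨1, le_rfl, by omega, Or.inl ⟨?_, by omega⟩⟩
      refine step_hasCoord hE hab ha hb (ι := Fin 0 ⊕ Fin 0) consPlus consPlus_add
        consPlus_surjective consPlus_eq_zero quadFormPlus_cons ⟨fun _ => 0, by simp, ?_, ?_, ?_⟩
      · exact fun w => ⟨1, Subsingleton.elim _ _⟩
      · intro c
        simp only [true_iff]
        haveI : Fact (Nat.Prime 2) := ⟨Nat.prime_two⟩
        haveI := isCyclic_of_prime_card hc
        exact Subgroup.mem_center_iff.2 fun d => IsCyclic.commGroup.mul_comm d c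
      · intro c
        simp only [Cfsg.quadFormPlus, Finset.univ_eq_empty, Finset.sum_empty, iff_true]
        rw [← pow_two, ← hc]
        exact pow_card_eq_one'
  · have hs := numSq_eight_minus hE hall
    refine ⟨1, le_rfl, by omega, Or.inr ⟨?_, by omega⟩⟩
    obtain ⟨a, b, hab⟩ := CfsgLib.PGroups.IsExtraspecial.exists_not_commute hE
    have han : a ∉ Subgroup.center E := fun h => hab (Subgroup.mem_center_iff.1 h b).symm
    have hbn : b ∉ Subgroup.center E := fun h => hab (Subgroup.mem_center_iff.1 h a)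
    have hc : Nat.card (pairCentralizer a b) = 2 := by
      have := card_eq_four_mul hE hab; omega
    have hcen : ∀ c : pairCentralizer a b, c ∈ Subgroup.center (pairCentralizer a b) := fun c => by
      haveI : Fact (Nat.Prime 2) := ⟨Nat.prime_two⟩
      haveI := isCyclic_of_prime_card hc
      exact Subgroup.mem_center_iff.2 fun d => IsCyclic.commGroup.mul_comm d c
    obtain ⟨f, f1, f2, f3, -⟩ := coord_step hE hab (α := zC hE a b) (β := zC hE a b)
      (hall a han) (hall b hbn) (W := Fin 0 → ZMod 2) (fun _ => 0) (by simp)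
      (fun c => by simp [hcen c]) fun w => ⟨1, Subsingleton.elim _ _⟩
    let g : E → (Fin 0 ⊕ Fin 0) ⊕ Fin 2 → ZMod 2 := fun x =>
      Sum.elim 0 ![(f x).1, (f x).2.1]
    have hg0 : ∀ x, g x = 0 ↔ x ∈ Subgroup.center E := by
      intro x
      rw [← f3]
      constructor
      · intro h
        exact Prod.ext (congrFun h (.inr 0)) (Prod.ext (congrFun h (.inr 1)) (Subsingleton.elim _ _))
      · intro h
        ext (i | i)
        · exact (i.elim Fin.elim0 Fin.elim0)
        · fin_cases i <;> simp [g, h]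
    refine ⟨g, fun x y => ?_, fun w => ?_, hg0, fun x => ?_⟩
    · ext (i | i)
      · exact (i.elim Fin.elim0 Fin.elim0)
      · fin_cases i <;> simp [g, f1]
    · obtain ⟨x, hx⟩ := f2 (w (.inr 0), w (.inr 1), 0)
      refine ⟨x, ?_⟩
      ext (i | i)
      · exact (i.elim Fin.elim0 Fin.elim0)
      · fin_cases i <;> simp [g, hx]
    · have hQ : ∀ u v : ZMod 2, u ^ 2 + 1 * u * v + 1 * v ^ 2 = 0 ↔ u = 0 ∧ v = 0 := by decide
      have hqg : Cfsg.quadFormMinus 0 (ZMod 2) 1 1 (g x) = 0 ↔ g x = 0 := by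
        simp only [Cfsg.quadFormMinus, Finset.univ_eq_empty, Finset.sum_empty, zero_add]
        rw [hQ]
        constructor
        · intro h
          ext (i | i)
          · exact (i.elim Fin.elim0 Fin.elim0)
          · fin_cases i
            exacts [h.1, h.2]
        · intro h; simp [h]
      rw [hqg, hg0]
      constructor
      · intro h1
        by_contra hn'
        exact zE_ne hE ((hall x hn').symm.trans h1)
      · intro hx
        rcases zE_cases hE hx with rfl | rfl
        exacts [mul_one 1, zE_sq hE]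

end Existence

end CfsgLib.Fischer2.ExtraspecialOut
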