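import Cfsg.Agent.Lib.Fischer2.LeechSingular
import Cfsg.Agent.Lib.Fischer2.LeechFrame

/-!
The standard form on the lattice modulo two, and uniqueness of the non-degenerate invariant form.
-/

set_option autoImplicit false

namespace CfsgLib.Fischer2

open Cfsg Finset CfsgLib.Leech

/-- Half the norm modulo two. -/
def qStd (v : leechLattice) : ZMod 2 := ((sqNorm (coordVec v) / 16 : ℤ) : ZMod 2)

/-- The inner product modulo two. -/
def betaStd (v w : leechLattice) : ZMod 2 := ((dotInt (coordVec v) (coordVec w) / 8 : ℤ) : ZMod 2)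

theorem betaStd_eq_zero_iff (v w : leechLattice) :
    betaStd v w = 0 ↔ (16 : ℤ) ∣ dotInt (coordVec v) (coordVec w) := by
  rw [betaStd, ZMod.intCast_zmod_eq_zero_iff_dvd]
  obtain ⟨k, hk⟩ : (8 : ℤ) ∣ dotInt (coordVec v) (coordVec w) := eight_dvd_dotInt v.2 w.2
  rw [hk]
  push_cast
  omega

theorem dotInt_comm' (x y : GolayPt → ℤ) : dotInt x y = dotInt y x :=
  Finset.sum_congr rfl fun _ _ => mul_comm _ _

theorem isInvariantForm_std : IsInvariantForm qStd betaStd := by
  refine ⟨fun v w => ?_, fun u v w => ?_, fun v w => ?_, fun v => ?_, fun v => ?_, fun g v => ?_⟩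
  · have h : sqNorm (coordVec (v + w)) =
        sqNorm (coordVec v) + 2 * dotInt (coordVec v) (coordVec w) + sqNorm (coordVec w) :=
      sqNorm_add _ _
    obtain ⟨a, ha⟩ : (16 : ℤ) ∣ sqNorm (coordVec v) := sixteen_dvd_sqNorm v.2
    obtain ⟨b, hb⟩ : (16 : ℤ) ∣ sqNorm (coordVec w) := sixteen_dvd_sqNorm w.2
    obtain ⟨c, hc⟩ : (8 : ℤ) ∣ dotInt (coordVec v) (coordVec w) := eight_dvd_dotInt v.2 w.2
    simp only [qStd, betaStd, h, ha, hb, hc]
    rw [show (16 * a + 2 * (8 * c) + 16 * b) / 16 = a + b + c by omega,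
      Int.mul_ediv_cancel_left _ (by norm_num : (16 : ℤ) ≠ 0),
      Int.mul_ediv_cancel_left _ (by norm_num : (16 : ℤ) ≠ 0),
      Int.mul_ediv_cancel_left _ (by norm_num : (8 : ℤ) ≠ 0)]
    push_cast
    ring
  · have h : dotInt (coordVec (u + v)) (coordVec w) =
        dotInt (coordVec u) (coordVec w) + dotInt (coordVec v) (coordVec w) :=
      show dotInt (coordVec u + coordVec v) (coordVec w) = _ by simp [dotInt, add_mul, Finset.sum_add_distrib]
    obtain ⟨c, hc⟩ : (8 : ℤ) ∣ dotInt (coordVec u) (coordVec w) := eight_dvd_dotInt u.2 w.2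
    simp only [betaStd, h, hc, Int.add_ediv_of_dvd_left (dvd_mul_right (8 : ℤ) c)]
    push_cast
    ring
  · simp only [betaStd, dotInt_comm']
  · rw [betaStd_eq_zero_iff]
    have : dotInt (coordVec v) (coordVec v) = sqNorm (coordVec v) :=
      Finset.sum_congr rfl fun _ _ => by ring
    rw [this]; exact sixteen_dvd_sqNorm v.2
  · have h : sqNorm (coordVec (v + v)) = 4 * sqNorm (coordVec v) := by
      simp only [sqNorm, Finset.mul_sum]
      exact Finset.sum_congr rfl fun i _ => by
        show (coordVec v i + coordVec v i) ^ 2 = _; ring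
    obtain ⟨a, ha⟩ : (16 : ℤ) ∣ sqNorm (coordVec v) := sixteen_dvd_sqNorm v.2
    rw [qStd, h, ha, show 4 * (16 * a) / 16 = 2 * (2 * a) by omega]
    push_cast
    rw [show (2 : ZMod 2) = 0 from rfl]; ring
  · simp only [qStd, coordVec, CfsgLib.Leech.sqNorm_smul]

/-- A four-divisible vector with code parity is twice a lattice vector or congruent to `(8, 0²³)`. -/
theorem congTwo_of_parity {f : leechLattice} (h4 : ∀ p, coordVec f p % 4 = 0)
    (hc : (fun p => ((coordVec f p / 4 : ℤ) : ZMod 2)) ∈ golayCode) :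
    (∃ w : leechLattice, f = w + w) ∨ CongTwo f vecA := by
  set ζ : GolayPt → ZMod 2 := fun p => ((coordVec f p / 4 : ℤ) : ZMod 2) with hζ
  have hb : ∀ p, (2 : ℤ) ∣ coordVec f p / 4 - bitVec ζ p := fun p => by
    apply (ZMod.intCast_zmod_eq_zero_iff_dvd _ 2).1
    push_cast
    have : (bitVec ζ p : ZMod 2) = ζ p := by
      rcases zmod2_cases (ζ p) with h | h <;> simp [bitVec, h]
    rw [this, hζ, sub_self]
  let z' : GolayPt → ℤ := fun p => (coordVec f p / 4 - bitVec ζ p) / 2
  rcases Int.emod_two_eq_zero_or_one (∑ p, z' p) with he | he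
  · left
    refine ⟨⟨mkVec 0 ζ z', mkVec_mem hc (by omega)⟩, Subtype.ext (funext fun p => ?_)⟩
    show coordVec f p = mkVec 0 ζ z' p + mkVec 0 ζ z' p
    have := hb p; have := h4 p
    simp only [mkVec, z']; omega
  · right
    refine ⟨⟨mkVec 0 ζ (fun p => z' p - if p = none then 1 else 0), mkVec_mem hc (by
      rw [Finset.sum_sub_distrib, Finset.sum_ite_eq', if_pos (Finset.mem_univ _)]; omega)⟩,
      Subtype.ext (funext fun p => ?_)⟩
    show coordVec f p = 4 * (if p = none then (2 : ℤ) else 0) +
      (mkVec 0 ζ (fun p => z' p - if p = none then 1 else 0) p +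
        mkVec 0 ζ (fun p => z' p - if p = none then 1 else 0) p)
    have := hb p; have := h4 p
    simp only [mkVec, z']
    split_ifs <;> omega

theorem dot_pairVec' (v : leechLattice) (i j : GolayPt) :
    dotInt (coordVec v) (coordVec (pairVec i j)) = 4 * (coordVec v i + coordVec v j) := by
  simp only [dotInt, coordVec_pairVec, mul_add, Finset.sum_add_distrib, mul_ite, mul_one, mul_zero,
    Finset.sum_ite_eq', Finset.mem_univ, if_true]
  ring

/-- The standard form is non-degenerate. -/
theorem betaStd_nondeg (v : leechLattice) (h : ∀ w, betaStd v w = 0) :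
    ∃ u : leechLattice, v = u + u := by
  have hpair : ∀ i j, (coordVec v i + coordVec v j) % 4 = 0 := fun i j => by
    have := (betaStd_eq_zero_iff _ _).1 (h (pairVec i j))
    rw [dot_pairVec'] at this
    omega
  have hA : ∀ f : leechLattice, CongTwo f vecA → ∃ w, betaStd f w ≠ 0 := fun f hf => by
    refine ⟨oddVec (some 0), fun h0 => ?_⟩
    obtain ⟨u, rfl⟩ := hf
    rw [isInvariantForm_std.add_left, isInvariantForm_std.add_left, zmod2_add_self, add_zero,
      betaStd_eq_zero_iff, dotInt_comm'] at h0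
    have : dotInt (coordVec (oddVec (some 0))) (coordVec vecA) = 8 * coordVec (oddVec (some 0)) none :=
      dot_axisVec _ none
    rw [this, coordVec_oddVec, if_neg (by simp)] at h0
    norm_num at h0
  -- reduce to a vector divisible by four
  obtain ⟨f, hvf, hf4⟩ : ∃ f : leechLattice, CongTwo v f ∧ ∀ p, coordVec f p % 4 = 0 := by
    have h2 : coordVec v none % 4 = 0 ∨ coordVec v none % 4 = 2 := by
      have := hpair none none; omega
    rcases h2 with h2 | h2
    · exact ⟨v, CongTwo.refl v, fun p => by have := hpair p none; omega⟩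
    · refine ⟨v + -(oddVec none + oddVec none), ⟨oddVec none, by abel⟩, fun p => ?_⟩
      show (coordVec v p + -(coordVec (oddVec none) p + coordVec (oddVec none) p)) % 4 = 0
      rw [coordVec_oddVec]
      have := hpair p none
      split_ifs <;> omega
  have hf0 : ∀ w, betaStd f w = 0 := fun w => by
    obtain ⟨u, hu⟩ := hvf.symm
    rw [hu, isInvariantForm_std.add_left, isInvariantForm_std.add_left, zmod2_add_self, add_zero, h w]
  have hcode : (fun p => ((coordVec f p / 4 : ℤ) : ZMod 2)) ∈ golayCode := by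
    refine mem_golayCode_of_orth fun d hd => ?_
    have h0 := (betaStd_eq_zero_iff _ _).1 (hf0 ⟨mkVec 0 d 0, mkVec_mem hd (by simp)⟩)
    have he : dotInt (coordVec f) (mkVec 0 d 0) = 8 * ∑ p, bitVec d p * (coordVec f p / 4) := by
      rw [Finset.mul_sum]
      refine Finset.sum_congr rfl fun p _ => ?_
      have := hf4 p
      simp only [mkVec, Pi.zero_apply, mul_zero, add_zero, zero_add]
      rcases bitVec_cases d p with e | e <;> rw [e] <;> omega
    change (16 : ℤ) ∣ dotInt (coordVec f) (mkVec 0 d 0) at h0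
    rw [he] at h0
    have h2 : (2 : ℤ) ∣ ∑ p, bitVec d p * (coordVec f p / 4) := by omega
    rw [show (∑ p, ((coordVec f p / 4 : ℤ) : ZMod 2) * d p) =
      ((∑ p, bitVec d p * (coordVec f p / 4) : ℤ) : ZMod 2) from ?_]
    · exact (ZMod.intCast_zmod_eq_zero_iff_dvd _ 2).2 h2
    · push_cast
      refine Finset.sum_congr rfl fun p _ => ?_
      rcases zmod2_cases (d p) with e | e <;> simp [bitVec, e]
  rcases congTwo_of_parity hf4 hcode with ⟨w, hw⟩ | hw
  · obtain ⟨u, hu⟩ := hvf
    exact ⟨w + u, by rw [hu, hw]; abel⟩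
  · obtain ⟨w, hw'⟩ := hA f hw
    exact absurd (hf0 w) hw'

variable {q : leechLattice → ZMod 2} {β : leechLattice → leechLattice → ZMod 2}

/-- A non-degenerate invariant form is the standard one. -/
theorem eq_qStd (h : IsInvariantForm q β) (hnd : ∀ v, (∀ w, β v w = 0) → ∃ u : leechLattice, v = u + u)
    (hcard : Nat.card LeechMod = 2 ^ 24) (v : leechLattice) : q v = qStd v := by
  have key : ∀ {q' : leechLattice → ZMod 2} {β' : leechLattice → leechLattice → ZMod 2},
      IsInvariantForm q' β' → ∀ w : leechLattice,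
      ((∃ u : leechLattice, w = u + u) ∨
        ∃ w' : leechLattice, (sqNorm (coordVec w') = 32 ∨ sqNorm (coordVec w') = 64) ∧ CongTwo w w') →
      q' w = 0 := by
    intro q' β' h' w hw
    rcases hw with ⟨u, rfl⟩ | ⟨w', hw', u, rfl⟩
    · exact h'.double u
    · rw [h'.add_double]
      rcases hw' with hn | hn
      · obtain ⟨g, hg⟩ := sameOrbit_norm32 hn (show some (0 : ZMod 23) ≠ none by simp)
        rw [← h'.inv g, hg, ← vecK_eq_pairVec, h'.q_vecK]
      · obtain ⟨g, u', hu'⟩ := isAxisClass_norm64 w' hn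
        rw [← h'.inv g, hu', h'.add_double, h'.q_vecA]
  rcases zmod2_cases (q v) with e | e <;> rcases zmod2_cases (qStd v) with e' | e'
  · rw [e, e']
  · rw [key isInvariantForm_std v (class_of_singular h hnd hcard e)] at e'
    exact absurd e' zero_ne_one
  · rw [key h v (class_of_singular isInvariantForm_std betaStd_nondeg hcard e')] at e
    exact absurd e zero_ne_one
  · rw [e, e']

theorem eq_betaStd (h : IsInvariantForm q β) (hnd : ∀ v, (∀ w, β v w = 0) → ∃ u : leechLattice, v = u + u)
    (hcard : Nat.card LeechMod = 2 ^ 24) (v w : leechLattice) : β v w = betaStd v w := by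
  have h1 := h.add v w
  rw [eq_qStd h hnd hcard, eq_qStd h hnd hcard, eq_qStd h hnd hcard, isInvariantForm_std.add] at h1
  exact (add_left_cancel h1).symm

end CfsgLib.Fischer2
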