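import Cfsg.Agent.Lib.Fischer2.MonsterShortMeet
import Cfsg.Agent.Lib.Fischer2.LeechCoTwo
import Cfsg.Agent.Lib.Fischer2.LeechStdForm
import Cfsg.Agent.Lib.Balance.Local
import Cfsg.Agent.Lib.PGroups.Frattini

/-!
In a group of Monster type the centraliser of an involution `t` of `Q` not conjugate to `z`, modulo
`⟨t⟩`, is of Baby Monster type.
-/

set_option autoImplicit false

namespace CfsgLib.Fischer2

open Cfsg CfsgLib.Leech

variable {G : Type*} [Group G] [Finite G] {z : G} {Q : Subgroup (Subgroup.centralizer ({z} : Set G))}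
  [Q.Normal] {e : (Subgroup.centralizer ({z} : Set G)) ⧸ Q ≃* Spor.Co1}
  {ψ : leechLattice → Q ⧸ Subgroup.center Q}

/-- The perpendicular lattice as an orthogonality condition. -/
theorem mem_leechPerpU_iff (v : leechLattice) : v ∈ leechPerpU ↔ betaStd v Spor.leechU = 0 :=
  (betaStd_eq_zero_iff v Spor.leechU).symm

theorem qVal_commute_iff (hQ : IsExtraspecial 2 Q) {v w : leechLattice} {a b : Q}
    (ha : ψ v = QuotientGroup.mk a) (hb : ψ w = QuotientGroup.mk b) :
    a * b = b * a ↔ commForm ψ v w = 0 := by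
  rw [← commForm_eq hQ v w a b ha hb, centerChar_eq_zero_iff, mul_inv_eq_one, mul_inv_eq_iff_eq_mul]

set_option maxHeartbeats 1600000 in
theorem baby_monster_type (hS : IsExtraspecialCentralizerSetting z Q 12) (hψ : IsLeechModTwoIso Q e ψ)
    (x : Q) (hu : ψ Spor.leechU = QuotientGroup.mk x) (t : G) (htx : qVal x = t) (ht2 : orderOf t = 2)
    (hnc : ¬ IsConj z t) [hn : ((Subgroup.zpowers t).subgroupOf (Subgroup.centralizer ({t} : Set G))).Normal] :
    IsOfBabyMonsterType
      (↥(Subgroup.centralizer ({t} : Set G)) ⧸ (Subgroup.zpowers t).subgroupOf (Subgroup.centralizer ({t} : Set G))) := by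
  classical
  have F := settingFacts hS
  have hQ := hS.2.2.1
  have hI := isInvariantForm hQ hψ
  have hnd := commForm_nondeg hQ hψ
  have hcard := card_leechMod F hQ hψ
  have hbeta := eq_betaStd hI hnd hcard
  set H := Subgroup.centralizer ({t} : Set G) with hHdef
  set K := (Subgroup.zpowers t).subgroupOf H with hKdef
  have ht1 : t ≠ 1 := fun h => by rw [h, orderOf_one] at ht2; omega
  have htz : t ≠ z := fun h => hnc (h ▸ IsConj.refl z)
  have htsq : t * t = 1 := by rw [← pow_two, ← ht2, pow_orderOf_eq_one]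
  have hx2 : x * x = 1 := qVal_injective (by show qVal x * qVal x = 1; rw [htx, htsq])
  have hxc : x ∉ Subgroup.center Q := fun h => by
    rcases (F.mem_center_iff x).1 h with h | h
    · exact ht1 (htx ▸ h)
    · exact htz (htx ▸ h)
  have hzt : z * t = t * z := by
    rw [← htx]; exact ((mem_centerImage_iff _ z).1 F.mem_center).2 _ (qVal_mem x)
  -- the product `zt`
  have hztnc : ¬ IsConj z (z * t) := by
    intro hc
    let zQ : Q := ⟨⟨z, Subgroup.mem_centralizer_singleton_iff.2 rfl⟩, by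
      obtain ⟨a, ha, hae⟩ := F.mem
      rwa [show (⟨z, Subgroup.mem_centralizer_singleton_iff.2 rfl⟩ : ↥(Subgroup.centralizer ({z} : Set G))) = a from Subtype.ext hae.symm]⟩
    have hzQ : zQ ∈ Subgroup.center Q := (F.mem_center_iff zQ).2 (Or.inr rfl)
    have hne : z * t ≠ z := fun h => ht1 (mul_eq_left.1 h)
    obtain ⟨v, hv, hvx⟩ := (conj_iff_class hS hψ (zQ * x)).1
      ⟨by show IsConj z (z * qVal x); rw [htx]; exact hc, by show z * qVal x ≠ z; rw [htx]; exact hne⟩
    rw [QuotientGroup.mk_mul, (QuotientGroup.eq_one_iff zQ).2 hzQ, one_mul, ← hu, psi_eq_iff hψ] at hvx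
    rcases congTwo_cases hvx (by rw [hv]) (by rw [sqNorm_leechU]; norm_num) with r | r | ⟨-, r, -⟩
    · rw [r, sqNorm_leechU] at hv; norm_num at hv
    · rw [r] at hv
      have : sqNorm (coordVec (-Spor.leechU)) = sqNorm (coordVec Spor.leechU) :=
        Finset.sum_congr rfl fun p _ => neg_sq _
      rw [this, sqNorm_leechU] at hv; norm_num at hv
    · rw [sqNorm_leechU] at r; norm_num at r
  -- the powers of `t`
  have hK : ∀ a : G, a ∈ Subgroup.zpowers t ↔ a = 1 ∨ a = t := by
    intro a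
    constructor
    · intro ha
      exact eq_one_or_eq_of_card_two (Nat.card_zpowers t ▸ ht2) (Subgroup.mem_zpowers t) ht1 ha
    · rintro (rfl | rfl)
      · exact Subgroup.one_mem _
      · exact Subgroup.mem_zpowers _
  have hzH : z ∈ H := Subgroup.mem_centralizer_singleton_iff.2 hzt
  set zH : H := ⟨z, hzH⟩ with hzHdef
  set zb : H ⧸ K := QuotientGroup.mk zH with hzbdef
  have hmkH : ∀ a b : H, (QuotientGroup.mk a : H ⧸ K) = QuotientGroup.mk b ↔
      (b : G) = a ∨ (b : G) = a * t := by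
    intro a b
    rw [QuotientGroup.eq]
    show ((a : G)⁻¹ * b) ∈ Subgroup.zpowers t ↔ _
    rw [hK, inv_mul_eq_one, inv_mul_eq_iff_eq_mul]
    exact or_congr_left eq_comm
  have hzb1 : zb ≠ 1 := by
    intro h
    rcases (QuotientGroup.eq_one_iff zH).1 h |> (hK z).1 with h | h
    · exact F.ne_one h
    · exact htz h.symm
  set D := Subgroup.centralizer ({zb} : Set (H ⧸ K)) with hDdef
  -- the common centraliser and its two images
  set B : Subgroup ↥(Subgroup.centralizer ({z} : Set G)) := H.subgroupOf (Subgroup.centralizer ({z} : Set G)) with hBdef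
  let j : B →* H := { toFun := fun b => ⟨((b : ↥(Subgroup.centralizer ({z} : Set G))) : G), b.2⟩, map_one' := rfl, map_mul' := fun _ _ => rfl }
  have hjD : ∀ b : B, (QuotientGroup.mk' K) (j b) ∈ D := fun b => by
    refine Subgroup.mem_centralizer_singleton_iff.2 ?_
    show (QuotientGroup.mk (j b) : H ⧸ K) * QuotientGroup.mk zH = QuotientGroup.mk zH * QuotientGroup.mk (j b)
    rw [← QuotientGroup.mk_mul, ← QuotientGroup.mk_mul]
    congr 1
    exact Subtype.ext (Subgroup.mem_centralizer_singleton_iff.1 (b : ↥(Subgroup.centralizer ({z} : Set G))).2)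
  set ρ : B →* D := ((QuotientGroup.mk' K).comp j).codRestrict D hjD with hρdef
  have hρker : ∀ b : B, ρ b = 1 ↔ ((b : ↥(Subgroup.centralizer ({z} : Set G))) : G) = 1 ∨ ((b : ↥(Subgroup.centralizer ({z} : Set G))) : G) = t := by
    intro b
    rw [Subtype.ext_iff]
    show (QuotientGroup.mk (j b) : H ⧸ K) = 1 ↔ _
    rw [QuotientGroup.eq_one_iff]
    exact hK _
  have hρsurj : Function.Surjective ρ := by
    rintro ⟨d, hd⟩
    obtain ⟨⟨h, hh⟩, rfl⟩ := QuotientGroup.mk_surjective d
    have h1 := Subgroup.mem_centralizer_singleton_iff.1 hd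
    rw [hzbdef, ← QuotientGroup.mk_mul, ← QuotientGroup.mk_mul, hmkH] at h1
    simp only [Subgroup.coe_mul] at h1
    change z * h = h * z ∨ z * h = h * z * t at h1
    have hht : h * t = t * h := Subgroup.mem_centralizer_singleton_iff.1 hh
    have hhz : h * z = z * h := by
      rcases h1 with h1 | h1
      · exact h1.symm
      · exfalso
        apply hztnc
        refine isConj_iff.2 ⟨h⁻¹, ?_⟩
        calc h⁻¹ * z * h⁻¹⁻¹ = h⁻¹ * (z * h) := by group
          _ = z * t := by rw [h1]; group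
    exact ⟨⟨⟨h, Subgroup.mem_centralizer_singleton_iff.2 hhz⟩, hh⟩, rfl⟩
  set φ0 : B →* Spor.Co1 := (e.toMonoidHom.comp (QuotientGroup.mk' Q)).comp B.subtype with hφ0
  have hφ0range : ∀ b : B, φ0 b ∈ coTwoToCoOne.range := by
    intro b
    obtain ⟨g, hg⟩ := QuotientGroup.mk_surjective (φ0 b)
    rw [← hg]
    refine mem_range_coTwoToCoOne (smul_eq_or_neg_of_congTwo sqNorm_leechU ?_)
    refine congTwo_of_mem_xImage hψ hu (a := QuotientGroup.mk' Q (b : ↥(Subgroup.centralizer ({z} : Set G)))) ⟨(b : ↥(Subgroup.centralizer ({z} : Set G))), ?_, rfl⟩ hg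
    exact Subgroup.mem_subgroupOf.2 ⟨(b : ↥(Subgroup.centralizer ({z} : Set G))).2, by rw [htx]; exact b.2⟩
  set ιe := MonoidHom.ofInjective coTwoToCoOne_injective with hιe
  set Φ : B →* Spor.Co2 := ιe.symm.toMonoidHom.comp (φ0.codRestrict coTwoToCoOne.range hφ0range) with hΦdef
  have hΦ : ∀ b, coTwoToCoOne (Φ b) = φ0 b := fun b =>
    congrArg Subtype.val (ιe.apply_symm_apply ⟨φ0 b, hφ0range b⟩)
  have hΦker : ∀ b : B, Φ b = 1 ↔ (b : ↥(Subgroup.centralizer ({z} : Set G))) ∈ Q := fun b => by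
    rw [← coTwoToCoOne_injective.eq_iff, hΦ, map_one]
    show e (QuotientGroup.mk (b : ↥(Subgroup.centralizer ({z} : Set G)))) = 1 ↔ _
    rw [MulEquiv.map_eq_one_iff, QuotientGroup.eq_one_iff]
  have hΦsurj : Function.Surjective Φ := by
    intro a
    have hfix : CongTwo (coTwoToCoZero a • Spor.leechU) Spor.leechU := by
      rw [coTwoToCoZero_fix]; exact CongTwo.refl _
    obtain ⟨c, hc, hce⟩ := mem_xImage_of_congTwo F hψ hxc hu hfix
    have hc2 := (Subgroup.mem_subgroupOf.1 hc).2
    rw [htx] at hc2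
    refine ⟨⟨c, hc2⟩, coTwoToCoOne_injective ((hΦ _).trans ?_)⟩
    show e (QuotientGroup.mk' Q c) = _
    rw [hce, e.apply_symm_apply]; rfl
  have hxC : ((x : ↥(Subgroup.centralizer ({z} : Set G))) : G) = t := htx
  have hle : ρ.ker ≤ Φ.ker := fun b hb => by
    refine (hΦker b).2 ?_
    rcases (hρker b).1 hb with h | h
    · rw [show (b : ↥(Subgroup.centralizer ({z} : Set G))) = 1 from Subtype.ext h]; exact Q.one_mem
    · rw [show (b : ↥(Subgroup.centralizer ({z} : Set G))) = x from Subtype.ext (h.trans hxC.symm)]; exact x.2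
  set Φb : D →* Spor.Co2 := MonoidHom.liftOfSurjective ρ hρsurj ⟨Φ, hle⟩ with hΦbdef
  have hΦb : ∀ b, Φb (ρ b) = Φ b := fun b => MonoidHom.liftOfRightInverse_comp_apply ρ _ _ ⟨Φ, hle⟩ b
  have hΦbsurj : Function.Surjective Φb := fun a => by
    obtain ⟨b, rfl⟩ := hΦsurj a; exact ⟨ρ b, hΦb b⟩
  set R := Φb.ker with hRdef
  -- the centraliser of `t` in `Q`
  set Qt : Subgroup Q := Subgroup.centralizer ({x} : Set Q) with hQt
  have hQtB : ∀ q : Qt, ((q : Q) : ↥(Subgroup.centralizer ({z} : Set G))) ∈ B := fun q =>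
    Subgroup.mem_subgroupOf.2 (Subgroup.mem_centralizer_singleton_iff.2 (by
      rw [← htx]; exact congrArg (fun a : Q => qVal a) (Subgroup.mem_centralizer_singleton_iff.1 q.2)))
  let lam0 : Qt →* B := { toFun := fun q => ⟨((q : Q) : ↥(Subgroup.centralizer ({z} : Set G))), hQtB q⟩, map_one' := rfl, map_mul' := fun _ _ => rfl }
  have hlamR : ∀ q : Qt, ρ (lam0 q) ∈ R := fun q => by
    show Φb _ = 1
    rw [hΦb, hΦker]; exact (q : Q).2
  set lam : Qt →* R := (ρ.comp lam0).codRestrict R hlamR with hlamdef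
  have hlamsurj : Function.Surjective lam := by
    rintro ⟨r, hr⟩
    obtain ⟨b, rfl⟩ := hρsurj r
    change Φb (ρ b) = 1 at hr
    rw [hΦb, hΦker] at hr
    have hq : (⟨(b : ↥(Subgroup.centralizer ({z} : Set G))), hr⟩ : Q) ∈ Qt := Subgroup.mem_centralizer_singleton_iff.2 (qVal_injective (by
      show ((b : ↥(Subgroup.centralizer ({z} : Set G))) : G) * qVal x = qVal x * ((b : ↥(Subgroup.centralizer ({z} : Set G))) : G)
      rw [htx]; exact Subgroup.mem_centralizer_singleton_iff.1 b.2))
    exact ⟨⟨_, hq⟩, rfl⟩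
  have hlamker : ∀ q : Qt, lam q = 1 ↔ qVal (q : Q) = 1 ∨ qVal (q : Q) = t := fun q => by
    rw [Subtype.ext_iff]
    exact hρker (lam0 q)
  -- lifts of vectors orthogonal to `u`
  have hmemQt : ∀ (v : leechLattice) (q : Q), ψ v = QuotientGroup.mk q → (q ∈ Qt ↔ v ∈ leechPerpU) := by
    intro v q hq
    rw [mem_leechPerpU_iff, ← hbeta, ← qVal_commute_iff hQ hq hu]
    exact Subgroup.mem_centralizer_singleton_iff
  have hu2 : ¬ ∃ w : leechLattice, Spor.leechU = w + w := fun h => by
    rw [← hψ.2.2.1, hu, QuotientGroup.eq_one_iff] at h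
    exact hxc h
  obtain ⟨w₀, hw₀⟩ : ∃ w₀, commForm ψ w₀ Spor.leechU = 1 := by
    by_contra hall
    push Not at hall
    exact hu2 (hnd _ fun w => by rw [hI.symm]; exact (zmod2_cases _).resolve_right (hall w))
  have hperp : ∀ v : leechLattice, (∀ w, commForm ψ w Spor.leechU = 0 → commForm ψ v w = 0) →
      (∃ w : leechLattice, v = w + w) ∨ CongTwo v Spor.leechU := by
    intro v hv
    have key : ∀ w, commForm ψ v w = commForm ψ w Spor.leechU * commForm ψ v w₀ := by
      intro w
      rcases zmod2_cases (commForm ψ w Spor.leechU) with h | h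
      · rw [h, hv w h, zero_mul]
      · have h1 := hv (w + w₀) (by rw [hI.add_left, h, hw₀]; rfl)
        rw [hI.add_right] at h1
        rw [h, one_mul]
        exact (eq_neg_of_add_eq_zero_left h1).trans (ZMod.neg_eq_self_mod_two _)
    rcases zmod2_cases (commForm ψ v w₀) with h | h
    · exact Or.inl (hnd v fun w => by rw [key, h, mul_zero])
    · obtain ⟨u, hu'⟩ := hnd (v + Spor.leechU) fun w => by
        rw [hI.add_left, key, h, mul_one, hI.symm Spor.leechU, zmod2_add_self]
      exact Or.inr ⟨u + -Spor.leechU, by rw [← add_right_cancel_iff (a := Spor.leechU), hu']; abel⟩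
  -- the element `z` of `Qt`
  obtain ⟨zQ, hzQ⟩ : ∃ a : Q, qVal a = z := by
    obtain ⟨a, ha, hae⟩ := F.mem
    exact ⟨⟨a, ha⟩, hae⟩
  have hzQc : zQ ∈ Subgroup.center Q := (F.mem_center_iff zQ).2 (Or.inr hzQ)
  set zt : Qt := ⟨zQ, Subgroup.mem_centralizer_singleton_iff.2 (Subgroup.mem_center_iff.1 hzQc x).symm⟩ with hzt'
  set zR : R := lam zt with hzR
  have hzRne : zR ≠ 1 := fun h => by
    rcases (hlamker zt).1 h with h | h
    · exact F.ne_one (hzQ.symm.trans h)
    · exact htz (hzQ.symm.trans h).symm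
  have hzRval : ((zR : D) : H ⧸ K) = zb := congrArg QuotientGroup.mk (show j (lam0 zt) = zH from Subtype.ext hzQ)
  have hlamCenter : ∀ q : Qt, (q : Q) ∈ Subgroup.center Q → lam q = 1 ∨ lam q = zR := by
    intro q hq
    rcases (F.mem_center_iff _).1 hq with h | h
    · exact Or.inl ((hlamker q).2 (Or.inl h))
    · exact Or.inr (congrArg lam (Subtype.ext (qVal_injective (h.trans hzQ.symm)) : q = zt))
  have hzRc : zR ∈ Subgroup.center R := Subgroup.mem_center_iff.2 fun r => by
    obtain ⟨q, rfl⟩ := hlamsurj r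
    rw [hzR, ← map_mul, ← map_mul]
    congr 1
    exact Subtype.ext (Subgroup.mem_center_iff.1 hzQc q)
  -- the centre of `R`
  have hcenter : ∀ r : R, r ∈ Subgroup.center R → r = 1 ∨ r = zR := by
    intro r hr
    obtain ⟨q, rfl⟩ := hlamsurj r
    have hcomm : ∀ w : Qt, (q : Q) * w = w * q := by
      intro w
      have h1 : lam (q * w * q⁻¹ * w⁻¹) = 1 := by
        rw [map_mul, map_mul, map_mul, map_inv, map_inv, ← Subgroup.mem_center_iff.1 hr (lam w)]
        group
      have h2 := (F.mem_center_iff _).1 (comm_mem_center hQ (q : Q) (w : Q))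
      rw [← mul_inv_eq_iff_eq_mul, ← mul_inv_eq_one]
      apply qVal_injective
      rcases h2 with h2 | h2
      · exact h2
      · exfalso
        rcases (hlamker _).1 h1 with h3 | h3
        · exact F.ne_one (h2.symm.trans h3)
        · exact htz (h2.symm.trans h3).symm
    obtain ⟨v, hv⟩ := hψ.2.1 (QuotientGroup.mk (q : Q))
    rcases hperp v (fun w hw => by
      have hwQ : liftVec ψ w ∈ Qt := (hmemQt w _ (mk_liftVec w).symm).2
        ((mem_leechPerpU_iff w).2 (by rw [← hbeta]; exact hw))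
      exact (qVal_commute_iff hQ hv (mk_liftVec w).symm).1 (hcomm ⟨_, hwQ⟩)) with hv2 | hv2
    · refine hlamCenter q ?_
      rw [← QuotientGroup.eq_one_iff, ← hv]; exact (hψ.2.2.1 v).2 hv2
    · rw [← psi_eq_iff hψ, hv, hu, QuotientGroup.eq] at hv2
      have hxQt : x ∈ Qt := Subgroup.mem_centralizer_singleton_iff.2 rfl
      have h1 : lam ⟨x, hxQt⟩ = 1 := (hlamker _).2 (Or.inr htx)
      have hq2 : lam q = lam (q⁻¹ * ⟨x, hxQt⟩)⁻¹ := by
        rw [map_inv, map_mul, h1, mul_one, map_inv, inv_inv]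
      rw [hq2, map_inv]
      rcases hlamCenter (q⁻¹ * ⟨x, hxQt⟩) hv2 with h | h
      · exact Or.inl (by rw [h, inv_one])
      · right
        rw [h, inv_eq_iff_mul_eq_one, hzR, ← map_mul]
        exact (hlamker _).2 (Or.inl (by
          show qVal zQ * qVal zQ = 1
          rw [hzQ]; exact F.sq))
  have hcR : Nat.card (Subgroup.center R) = 2 := by
    have hset : ((Subgroup.center R : Subgroup R) : Set R) = {1, zR} := by
      ext r
      exact ⟨fun h => hcenter r h, fun h => by
        rcases h with rfl | h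
        · exact Subgroup.one_mem _
        · rw [h]; exact hzRc⟩
    rw [← SetLike.coe_sort_coe, Nat.card_coe_set_eq, hset, Set.ncard_pair hzRne.symm]
  -- the order of `R`
  have hQcard : Nat.card Q = 2 ^ 25 := hS.2.2.2.1
  have hQt24 : Nat.card Qt = 2 ^ 24 := by
    let f : Q →* Multiplicative (ZMod 2) :=
      MonoidHom.mk' (fun y => Multiplicative.ofAdd (centerChar (y * x * y⁻¹ * x⁻¹))) fun a b => by
        rw [← ofAdd_add, ← centerChar_mul hQ.2 (comm_mem_center hQ a x) (comm_mem_center hQ b x)]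
        congr 2
        have hc := Subgroup.mem_center_iff.1 (comm_mem_center hQ b x) a
        calc a * b * x * (a * b)⁻¹ * x⁻¹
            = (a * (b * x * b⁻¹ * x⁻¹)) * (x * a⁻¹ * x⁻¹) := by group
          _ = ((b * x * b⁻¹ * x⁻¹) * a) * (x * a⁻¹ * x⁻¹) := by rw [hc]
          _ = (b * x * b⁻¹ * x⁻¹) * (a * x * a⁻¹ * x⁻¹) := by group
          _ = _ := (Subgroup.mem_center_iff.1 (comm_mem_center hQ b x) _).symm
    have hker : f.ker = Qt := by
      ext y
      rw [MonoidHom.mem_ker, Subgroup.mem_centralizer_singleton_iff]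
      show Multiplicative.ofAdd (centerChar (y * x * y⁻¹ * x⁻¹)) = 1 ↔ _
      rw [ofAdd_eq_one, centerChar_eq_zero_iff, mul_inv_eq_one, mul_inv_eq_iff_eq_mul]
    have hsurj : Function.Surjective f := fun a => by
      rcases zmod2_cases a.toAdd with h | h
      · exact ⟨1, by rw [map_one]; exact (toAdd_eq_zero.1 h).symm⟩
      · refine ⟨liftVec ψ w₀, ?_⟩
        show Multiplicative.ofAdd (centerChar _) = a
        rw [commForm_eq hQ w₀ Spor.leechU _ x (mk_liftVec w₀).symm hu, hw₀, ← h, ofAdd_toAdd]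
    have h1 := Subgroup.card_eq_card_quotient_mul_card_subgroup f.ker
    rw [Nat.card_congr (QuotientGroup.quotientKerEquivOfSurjective f hsurj).toEquiv, hker, hQcard,
      Nat.card_eq_fintype_card (α := Multiplicative (ZMod 2)), Fintype.card_multiplicative, ZMod.card] at h1
    omega
  have hR23 : Nat.card R = 2 ^ 23 := by
    have h1 := Subgroup.card_eq_card_quotient_mul_card_subgroup lam.ker
    rw [Nat.card_congr (QuotientGroup.quotientKerEquivOfSurjective lam hlamsurj).toEquiv, hQt24] at h1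
    have hxQt : x ∈ Qt := Subgroup.mem_centralizer_singleton_iff.2 rfl
    have hset : ((lam.ker : Subgroup Qt) : Set Qt) = {1, ⟨x, hxQt⟩} := by
      ext q
      rw [SetLike.mem_coe, MonoidHom.mem_ker, hlamker, Set.mem_insert_iff, Set.mem_singleton_iff]
      constructor
      · rintro (h | h)
        · exact Or.inl (Subtype.ext (qVal_injective h))
        · exact Or.inr (Subtype.ext (qVal_injective (h.trans htx.symm)))
      · rintro (rfl | rfl)
        · exact Or.inl rfl
        · exact Or.inr htx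
    have hne : (1 : Qt) ≠ ⟨x, hxQt⟩ := fun h => by
      have h' : (1 : Q) = x := congrArg Subtype.val h
      exact hxc (h' ▸ Subgroup.one_mem _)
    rw [show Nat.card lam.ker = 2 by
      rw [← SetLike.coe_sort_coe, Nat.card_coe_set_eq, hset, Set.ncard_pair hne]] at h1
    omega
  have : Fact (Nat.Prime 2) := ⟨Nat.prime_two⟩
  have hRp : IsPGroup 2 R := IsPGroup.of_card hR23
  -- extraspecial
  have hcle : commutator R ≤ Subgroup.center R := by
    rw [commutator_def, Subgroup.commutator_le]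
    intro a _ b _
    obtain ⟨p, rfl⟩ := hlamsurj a
    obtain ⟨q, rfl⟩ := hlamsurj b
    rw [commutatorElement_def, ← map_inv, ← map_inv, ← map_mul, ← map_mul, ← map_mul]
    rcases hlamCenter (p * q * p⁻¹ * q⁻¹) (comm_mem_center hQ (p : Q) (q : Q)) with h | h <;> rw [h]
    · exact Subgroup.one_mem _
    · exact hzRc
  have hsqR : ∀ r : R, r ^ 2 ∈ Subgroup.center R := fun r => by
    obtain ⟨q, rfl⟩ := hlamsurj r
    rw [← map_pow, pow_two]
    rcases hlamCenter (q * q) (sq_mem_center hQ (q : Q)) with h | h <;> rw [h]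
    · exact Subgroup.one_mem _
    · exact hzRc
  have hceq : commutator R = Subgroup.center R := by
    refine Subgroup.eq_of_le_of_card_ge hcle ?_
    by_contra hlt
    have h2 : Nat.card (commutator R) ∣ 2 := hcR ▸ Subgroup.card_dvd_of_le hcle
    rcases (Nat.dvd_prime Nat.prime_two).1 h2 with h | h
    · have htop : Subgroup.center R = ⊤ := eq_top_iff.2 fun a _ => Subgroup.mem_center_iff.2 fun b => by
        refine commutatorElement_eq_one_iff_mul_comm.1 ?_
        rw [← Subgroup.mem_bot, ← Subgroup.card_eq_one.1 h, commutator_def]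
        exact Subgroup.commutator_mem_commutator (Subgroup.mem_top _) (Subgroup.mem_top _)
      rw [htop, Subgroup.card_top, hR23] at hcR
      norm_num at hcR
    · exact hlt (by rw [h, hcR])
  have hRex : IsExtraspecial 2 R :=
    ⟨⟨hRp, le_antisymm (CfsgLib.PGroups.frattini_le_of hcle hsqR)
      (hceq ▸ CfsgLib.PGroups.commutator_le_frattini hRp), hceq⟩, hcR⟩
  -- the centraliser of `R`
  have hcent : Subgroup.centralizer (R : Set D) ≤ R := by
    intro d hd
    obtain ⟨b, rfl⟩ := hρsurj d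
    show Φb (ρ b) = 1
    rw [hΦb, hΦker]
    obtain ⟨g, hg⟩ := QuotientGroup.mk_surjective (φ0 b)
    suffices hgc : g ∈ Subgroup.center Co0 by
      refine (QuotientGroup.eq_one_iff (b : ↥(Subgroup.centralizer ({z} : Set G)))).1 ((MulEquiv.map_eq_one_iff e).1 ?_)
      show φ0 b = 1
      rw [← hg]; exact (QuotientGroup.eq_one_iff g).2 hgc
    have hbu : g • Spor.leechU = Spor.leechU ∨ g • Spor.leechU = -Spor.leechU :=
      smul_eq_or_neg_of_congTwo sqNorm_leechU (congTwo_of_mem_xImage hψ hu (a := QuotientGroup.mk' Q (b : ↥(Subgroup.centralizer ({z} : Set G))))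
        ⟨(b : ↥(Subgroup.centralizer ({z} : Set G))), Subgroup.mem_subgroupOf.2 ⟨(b : ↥(Subgroup.centralizer ({z} : Set G))).2, by rw [htx]; exact b.2⟩, rfl⟩ hg)
    refine mem_center_of_fix_short hbu fun v hv hvu => ?_
    have hvp : v ∈ leechPerpU := by
      show (16 : ℤ) ∣ dotInt (coordVec v) (coordVec Spor.leechU)
      rw [hvu]; exact dvd_zero _
    set q : Qt := ⟨liftVec ψ v, (hmemQt v _ (mk_liftVec v).symm).2 hvp⟩ with hq
    have h1 := Subgroup.mem_centralizer_iff.1 hd _ (lam q).2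
    have h2 := hψ.2.2.2 (b : ↥(Subgroup.centralizer ({z} : Set G))) g hg v (liftVec ψ v) (mk_liftVec v).symm
    change ρ (lam0 q) * ρ b = ρ b * ρ (lam0 q) at h1
    have h3 : ρ (b * lam0 q * b⁻¹ * (lam0 q)⁻¹) = 1 := by
      rw [map_mul, map_mul, map_mul, ← h1, map_inv, map_inv]; group
    set cq : Q := ⟨(b : ↥(Subgroup.centralizer ({z} : Set G))) * (liftVec ψ v : ↥(Subgroup.centralizer ({z} : Set G))) * (b : ↥(Subgroup.centralizer ({z} : Set G)))⁻¹, (inferInstance : Q.Normal).conj_mem _ (liftVec ψ v).2 _⟩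
    have h4 : cq * (liftVec ψ v)⁻¹ = 1 ∨ cq * (liftVec ψ v)⁻¹ = x := by
      rcases (hρker _).1 h3 with h | h
      · exact Or.inl (qVal_injective h)
      · exact Or.inr (qVal_injective (h.trans htx.symm))
    rcases h4 with h4 | h4
    · refine smul_eq_or_neg_of_congTwo hv ((psi_eq_iff hψ).1 ?_)
      rw [h2, ← mk_liftVec (ψ := ψ) v]
      exact congrArg QuotientGroup.mk (mul_inv_eq_one.1 h4)
    · exfalso
      have h5 : CongTwo (g • v) (Spor.leechU + v) := (psi_eq_iff hψ).1 (by
        rw [h2, hψ.1, hu, ← mk_liftVec (ψ := ψ) v, ← QuotientGroup.mk_mul]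
        exact congrArg QuotientGroup.mk (mul_inv_eq_iff_eq_mul.1 h4))
      have hn : sqNorm (coordVec (Spor.leechU + v)) = 64 := by
        have : sqNorm (coordVec (v + Spor.leechU)) = _ := sqNorm_add (coordVec v) (coordVec Spor.leechU)
        rw [add_comm, this, hv, sqNorm_leechU, hvu]; norm_num
      rcases congTwo_cases h5 (by rw [sqNorm_smul', hv]; norm_num) (by rw [hn]) with r | r | ⟨r, -, -⟩
      · have := congrArg (fun a => sqNorm (coordVec a)) r
        simp only [sqNorm_smul', hv, hn] at this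
        norm_num at this
      · have hneg : sqNorm (coordVec (-(Spor.leechU + v))) = sqNorm (coordVec (Spor.leechU + v)) :=
          Finset.sum_congr rfl fun p _ => neg_sq _
        have := congrArg (fun a => sqNorm (coordVec a)) r
        simp only [sqNorm_smul', hv, hneg, hn] at this
        norm_num at this
      · rw [sqNorm_smul', hv] at r; norm_num at r
  have hcore : pCore 2 D = R := by
    refine le_antisymm ?_ (CfsgLib.Cores.le_pCore hRp)
    have := Subgroup.Normal.map (inferInstance : (pCore 2 D).Normal) Φb hΦbsurj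
    intro d hd
    have h1 := coTwo_pGroup_normal_eq_bot ((CfsgLib.Cores.isPGroup_pCore 2 D).map Φb)
    exact Subgroup.mem_bot.1 (h1 ▸ ⟨d, hd, rfl⟩ : Φb d ∈ (⊥ : Subgroup Spor.Co2))
  have hFit : generalizedFittingSubgroup D = R := by
    have hcc : Subgroup.centralizer (pCore 2 D : Set D) ≤ pCore 2 D := by rw [hcore]; exact hcent
    have hlay : layer D = ⊥ := by
      have : Group.IsNilpotent R := hRp.isNilpotent
      have hl := CfsgLib.Cores.layer_le_centralizer_of_isSolvable (S := R)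
        (Subgroup.Normal.isSubnormal (H := R) inferInstance)
      exact CfsgLib.Cores.layer_eq_bot_iff.2 fun L hL => CfsgLib.Balance.not_isPGroup_of_isComponent
        (p := 2) hL (hRp.to_le (((CfsgLib.Cores.le_layer hL).trans hl).trans hcent))
    rw [CfsgLib.Balance.generalizedFittingSubgroup_eq_pCore
      (CfsgLib.Balance.pPrimeCore_eq_bot_of_centralizer_pCore_le hcc) hlay, hcore]
  -- a second conjugate
  obtain ⟨h, hht, y, hy, hyz⟩ := exists_fixing_moves hS hψ hx2 hxc (htx ▸ hnc)
  rw [htx] at hht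
  have hhH : h ∈ H := Subgroup.mem_centralizer_singleton_iff.2 (mul_inv_eq_iff_eq_mul.1 hht)
  have hyt : y ∈ Qt := by
    refine Subgroup.mem_centralizer_singleton_iff.2 (qVal_injective ?_)
    show qVal y * qVal x = qVal x * qVal y
    rw [htx, hy]
    calc h * z * h⁻¹ * t = h * z * h⁻¹ * (h * t * h⁻¹) := by rw [hht]
      _ = h * (z * t) * h⁻¹ := by group
      _ = h * (t * z) * h⁻¹ := by rw [hzt]
      _ = h * t * h⁻¹ * (h * z * h⁻¹) := by group
      _ = _ := by rw [hht]
  set gX : H ⧸ K := QuotientGroup.mk ⟨h, hhH⟩ with hgX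
  have hgz : gX * zb * gX⁻¹ = ((lam ⟨y, hyt⟩ : D) : H ⧸ K) := by
    show gX * zb * gX⁻¹ = QuotientGroup.mk (j (lam0 ⟨y, hyt⟩))
    rw [hgX, hzbdef, ← QuotientGroup.mk_inv, ← QuotientGroup.mk_mul, ← QuotientGroup.mk_mul]
    exact congrArg QuotientGroup.mk (Subtype.ext hy.symm)
  have hzb2 : orderOf zb = 2 := by
    refine orderOf_eq_prime ?_ hzb1
    rw [hzbdef, pow_two, ← QuotientGroup.mk_mul, show zH * zH = 1 from Subtype.ext F.sq, QuotientGroup.mk_one]
  -- the module map
  have hliftQt : ∀ v : leechPerpU, liftVec ψ (v : leechLattice) ∈ Qt := fun v =>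
    (hmemQt _ _ (mk_liftVec _).symm).2 v.2
  set ψ' : leechPerpU → R ⧸ Subgroup.center R := fun v => QuotientGroup.mk (lam ⟨_, hliftQt v⟩) with hψ'def
  have hψ'eq : ∀ (v : leechPerpU) (q : Qt), ψ (v : leechLattice) = QuotientGroup.mk (q : Q) →
      ψ' v = QuotientGroup.mk (lam q) := by
    intro v q hq
    rw [hψ'def]
    simp only
    rw [QuotientGroup.eq, ← map_inv, ← map_mul]
    rcases hlamCenter (⟨_, hliftQt v⟩⁻¹ * q) (QuotientGroup.eq.1 ((mk_liftVec _).trans hq)) with h | h <;> rw [h]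
    · exact Subgroup.one_mem _
    · exact hzRc
  refine ⟨zb, R, inferInstance, ⟨hzb2, hFit, hRex, by rw [hR23], gX, ⟨?_, ?_⟩, ?_⟩,
    QuotientGroup.quotientKerEquivOfSurjective Φb hΦbsurj, ψ', ?_, ?_, ?_, ?_⟩
  · rw [hgz]; exact (lam ⟨y, hyt⟩ : D).2
  · convert (lam ⟨y, hyt⟩).2
  · rw [hgz]
    intro he
    have h1 : (QuotientGroup.mk (j (lam0 ⟨y, hyt⟩)) : H ⧸ K) = QuotientGroup.mk zH := he
    rcases (hmkH _ _).1 h1 with h2 | h2
    · exact hyz h2.symm
    · change z = qVal y * t at h2
      refine hztnc (isConj_iff.2 ⟨h, ?_⟩)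
      calc h * z * h⁻¹ = qVal y := hy.symm
        _ = qVal y * t * t := by rw [mul_assoc, htsq, mul_one]
        _ = _ := by rw [← h2]
  · intro v w
    rw [hψ'eq (v + w) (⟨_, hliftQt v⟩ * ⟨_, hliftQt w⟩) ?_, map_mul, QuotientGroup.mk_mul]
    show ψ ((v : leechLattice) + w) = _
    rw [hψ.1, ← mk_liftVec (ψ := ψ) (v : leechLattice), ← mk_liftVec (ψ := ψ) (w : leechLattice)]
    rfl
  · intro r
    obtain ⟨r, rfl⟩ := QuotientGroup.mk_surjective r
    obtain ⟨q, rfl⟩ := hlamsurj r
    obtain ⟨v, hv⟩ := hψ.2.1 (QuotientGroup.mk (q : Q))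
    exact ⟨⟨v, (hmemQt v _ hv).1 q.2⟩, hψ'eq _ q hv⟩
  · intro v
    rw [hψ'def]
    simp only
    rw [QuotientGroup.eq_one_iff]
    set q : Qt := ⟨_, hliftQt v⟩ with hq
    have hxQt : x ∈ Qt := Subgroup.mem_centralizer_singleton_iff.2 rfl
    constructor
    · intro hc
      have hq1 : qVal (q : Q) = 1 ∨ qVal (q : Q) = t ∨ qVal (q : Q) = z ∨ qVal (q : Q) = z * t := by
        rcases hcenter _ hc with h | h
        · rcases (hlamker q).1 h with h | h
          · exact Or.inl h
          · exact Or.inr (Or.inl h)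
        · have h1 : lam (zt⁻¹ * q) = 1 := by rw [map_mul, map_inv, h, hzR, inv_mul_cancel]
          rcases (hlamker _).1 h1 with h2 | h2
          · change (qVal zQ)⁻¹ * qVal (q : Q) = 1 at h2
            rw [hzQ, inv_mul_eq_one] at h2
            exact Or.inr (Or.inr (Or.inl h2.symm))
          · change (qVal zQ)⁻¹ * qVal (q : Q) = t at h2
            rw [hzQ, inv_mul_eq_iff_eq_mul] at h2
            exact Or.inr (Or.inr (Or.inr h2))
      have hcase : (q : Q) ∈ Subgroup.center Q ∨ x⁻¹ * (q : Q) ∈ Subgroup.center Q := by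
        rcases hq1 with h | h | h | h
        · exact Or.inl ((F.mem_center_iff _).2 (Or.inl h))
        · refine Or.inr ((F.mem_center_iff _).2 (Or.inl ?_))
          show (qVal x)⁻¹ * qVal (q : Q) = 1
          rw [h, htx, inv_mul_cancel]
        · exact Or.inl ((F.mem_center_iff _).2 (Or.inr h))
        · refine Or.inr ((F.mem_center_iff _).2 (Or.inr ?_))
          show (qVal x)⁻¹ * qVal (q : Q) = z
          rw [h, htx, hzt, inv_mul_cancel_left]
      rcases hcase with h | h
      · left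
        refine (hψ.2.2.1 _).1 ?_
        rw [← mk_liftVec (ψ := ψ)]
        exact (QuotientGroup.eq_one_iff _).2 h
      · right
        refine (psi_eq_iff hψ).1 ?_
        rw [hu, ← mk_liftVec (ψ := ψ)]
        exact (QuotientGroup.eq.2 h).symm
    · intro hv
      have hgoal : lam q = 1 ∨ lam q = zR := by
        rcases hv with hv | hv
        · refine hlamCenter q ?_
          rw [← QuotientGroup.eq_one_iff]
          exact (mk_liftVec _).trans ((hψ.2.2.1 _).2 hv)
        · have h1 := (psi_eq_iff hψ).2 (show CongTwo (v : leechLattice) Spor.leechU from hv)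
          rw [hu, ← mk_liftVec (ψ := ψ), eq_comm, QuotientGroup.eq] at h1
          have h2 := hlamCenter (⟨x, hxQt⟩⁻¹ * q) h1
          rwa [map_mul, map_inv, (hlamker ⟨x, hxQt⟩).2 (Or.inr htx), inv_one, one_mul] at h2
      rcases hgoal with h | h <;> rw [h]
      · exact Subgroup.one_mem _
      · exact hzRc
  · intro d a hda v w hvw r hr
    obtain ⟨b, rfl⟩ := hρsurj d
    change Φb (ρ b) = a at hda
    rw [hΦb] at hda
    have hmk : (QuotientGroup.mk (coTwoToCoZero a) : Spor.Co1) = e (QuotientGroup.mk (b : ↥(Subgroup.centralizer ({z} : Set G)))) := by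
      rw [← hda]; exact hΦ b
    have h2 := hψ.2.2.2 (b : ↥(Subgroup.centralizer ({z} : Set G))) (coTwoToCoZero a) hmk (v : leechLattice) _ (mk_liftVec _).symm
    rw [coTwoToCoZero_smul, hvw] at h2
    set q : Qt := ⟨_, hliftQt v⟩ with hq
    have hbt : ((b : ↥(Subgroup.centralizer ({z} : Set G))) : G) * t = t * ((b : ↥(Subgroup.centralizer ({z} : Set G))) : G) := Subgroup.mem_centralizer_singleton_iff.1 b.2
    set cq : Q := ⟨(b : ↥(Subgroup.centralizer ({z} : Set G))) * (liftVec ψ (v : leechLattice) : ↥(Subgroup.centralizer ({z} : Set G))) * (b : ↥(Subgroup.centralizer ({z} : Set G)))⁻¹,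
      (inferInstance : Q.Normal).conj_mem _ (liftVec ψ (v : leechLattice)).2 _⟩ with hcq
    have hcqt : cq ∈ Qt := (hmemQt _ _ h2).2 w.2
    rw [hψ'eq w ⟨cq, hcqt⟩ h2]
    set rv : R := ⟨ρ b * (lam q : D) * (ρ b)⁻¹, (inferInstance : R.Normal).conj_mem _ (lam q).2 _⟩ with hrv
    have h3 : lam ⟨cq, hcqt⟩ = rv := by
      apply Subtype.ext
      show ρ (lam0 ⟨cq, hcqt⟩) = ρ b * ρ (lam0 q) * (ρ b)⁻¹
      rw [← map_inv, ← map_mul, ← map_mul]; rfl
    rw [h3, QuotientGroup.eq]
    have h4 : (lam q)⁻¹ * r ∈ Subgroup.center R := QuotientGroup.eq.1 hr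
    rcases hcenter _ h4 with h5 | h5
    · rw [inv_mul_eq_one] at h5
      subst h5
      rw [hrv]
      simp only [inv_mul_cancel]
      exact Subgroup.one_mem _
    · rw [inv_mul_eq_iff_eq_mul] at h5
      subst h5
      convert hzRc using 1
      apply Subtype.ext
      show (ρ b * (lam q : D) * (ρ b)⁻¹)⁻¹ * (ρ b * ((lam q : D) * (zR : D)) * (ρ b)⁻¹) = (zR : D)
      have hzD : ρ b * (zR : D) = (zR : D) * ρ b := Subtype.ext (by
        rw [Subgroup.coe_mul, Subgroup.coe_mul, hzRval]
        exact Subgroup.mem_centralizer_singleton_iff.1 (ρ b).2)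
      calc (ρ b * (lam q : D) * (ρ b)⁻¹)⁻¹ * (ρ b * ((lam q : D) * (zR : D)) * (ρ b)⁻¹)
          = (ρ b * (zR : D)) * (ρ b)⁻¹ := by group
        _ = _ := by rw [hzD, mul_inv_cancel_right]

end CfsgLib.Fischer2
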