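import Cfsg.Agent.Lib.Fischer2.LargeExtraspecial
import Cfsg.Agent.Lib.PGroups.Extraspecial
import Cfsg.Prelude.Def_Transfer

/-!
Fischer2: involution centralisers of shape `2^(1+2n) : GL_n(2)` give large extraspecial subgroups.
-/

set_option autoImplicit false
set_option linter.style.haveILetI false

namespace CfsgLib.Fischer2.Heisenberg

open Cfsg

/-- Binary vectors. -/
abbrev V (n : ℕ) := Fin n → ZMod 2

theorem z2_cases : ∀ t : ZMod 2, t = 0 ∨ t = 1 := by decide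

theorem z2_ne_one : ∀ t : ZMod 2, t ≠ 1 → t = 0 := by decide

theorem two_zero : (2 : ZMod 2) = 0 := by decide

theorem z2_vec_self {n : ℕ} (v : V n) : v + v = 0 := funext fun i => CharTwo.add_self_eq_zero (v i)

/-- Two non-zero binary vectors differ by a transvection. -/
theorem exists_gl_mulVec {n : ℕ} {v w : V n} (hv : v ≠ 0) (hw : w ≠ 0) :
    ∃ g : GL (Fin n) (ZMod 2), (g : Matrix (Fin n) (Fin n) (ZMod 2)).mulVec v = w := by
  by_cases hvw : v = w
  · exact ⟨1, by simp [hvw]⟩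
  obtain ⟨f, hfv, hfw⟩ : ∃ f : V n, f ⬝ᵥ v = 1 ∧ f ⬝ᵥ w = 1 := by
    have h1 : ∀ x : V n, x ≠ 0 → ∃ f : V n, f ⬝ᵥ x = 1 := fun x hx => by
      obtain ⟨i, hi⟩ := Function.ne_iff.1 hx
      exact ⟨Pi.single i 1, by simpa using (z2_cases (x i)).resolve_left hi⟩
    obtain ⟨f1, hf1⟩ := h1 v hv
    obtain ⟨f2, hf2⟩ := h1 w hw
    rcases z2_cases (f1 ⬝ᵥ w) with a1 | a1
    · rcases z2_cases (f2 ⬝ᵥ v) with a2 | a2
      · exact ⟨f1 + f2, by rw [add_dotProduct, hf1, a2, add_zero], by rw [add_dotProduct, a1, hf2, zero_add]⟩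
      · exact ⟨f2, a2, hf2⟩
    · exact ⟨f1, hf1, a1⟩
  let M : Matrix (Fin n) (Fin n) (ZMod 2) := 1 + Matrix.vecMulVec (v + w) f
  have hd : f ⬝ᵥ (v + w) = 0 := by rw [dotProduct_add, hfv, hfw]; decide
  have hM : ∀ x : V n, M.mulVec x = x + (f ⬝ᵥ x) • (v + w) := fun x => by
    simp only [M, Matrix.add_mulVec, Matrix.one_mulVec, Matrix.vecMulVec_mulVec, op_smul_eq_smul]
  have hMM : M * M = 1 := Matrix.ext_of_mulVec_single fun i => by
    rw [← Matrix.mulVec_mulVec, hM, hM, dotProduct_add, dotProduct_smul, hd, smul_zero, add_zero,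
      add_assoc, ← two_smul (ZMod 2), show (2 : ZMod 2) = 0 from by decide, zero_smul, add_zero,
      Matrix.one_mulVec]
  refine ⟨⟨M, M, hMM, hMM⟩, ?_⟩
  show M.mulVec v = w
  rw [hM, hfv, one_smul, ← add_assoc, z2_vec_self, zero_add]

/-- A normal 2-subgroup of `GL_n(2)` is trivial. -/
theorem gl_normal_two_eq_bot {n : ℕ} (P : Subgroup (GL (Fin n) (ZMod 2))) [P.Normal]
    (hP : IsPGroup 2 P) : P = ⊥ := by
  haveI : Fact (Nat.Prime 2) := ⟨Nat.prime_two⟩
  rw [Subgroup.eq_bot_iff_forall]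
  intro p hp
  by_cases hn : n = 0
  · subst hn
    exact Subsingleton.elim _ _
  letI : MulAction P (V n) := {
    smul := fun g v => ((g : GL (Fin n) (ZMod 2)) : Matrix (Fin n) (Fin n) (ZMod 2)).mulVec v
    one_smul := fun v => by
      show ((1 : GL (Fin n) (ZMod 2)) : Matrix (Fin n) (Fin n) (ZMod 2)).mulVec v = v
      rw [Units.val_one, Matrix.one_mulVec]
    mul_smul := fun g h v => by
      show ((g * h : GL (Fin n) (ZMod 2)) : Matrix (Fin n) (Fin n) (ZMod 2)).mulVec v = _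
      rw [Units.val_mul, ← Matrix.mulVec_mulVec]
      rfl }
  have h0 : (0 : V n) ∈ MulAction.fixedPoints P (V n) := fun g => Matrix.mulVec_zero _
  have hdvd : 2 ∣ Nat.card (V n) := by
    rw [Nat.card_fun, Nat.card_zmod, Nat.card_fin]
    exact dvd_pow_self 2 hn
  obtain ⟨v, hv, hv0⟩ := hP.exists_fixed_point_of_prime_dvd_card_of_fixed_point (V n) hdvd h0
  refine Units.ext (Matrix.ext_of_mulVec_single fun i => ?_)
  obtain ⟨g, hg⟩ := exists_gl_mulVec hv0.symm (show (Pi.single i 1 : V n) ≠ 0 from by simp)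
  have hfix : ((g⁻¹ * p * g : GL (Fin n) (ZMod 2)) : Matrix (Fin n) (Fin n) (ZMod 2)).mulVec v = v := by
    have hc : g⁻¹ * p * g ∈ P := by
      simpa using (inferInstance : P.Normal).conj_mem p hp g⁻¹
    exact hv ⟨_, hc⟩
  rw [← hg]
  have := congrArg ((g : Matrix (Fin n) (Fin n) (ZMod 2)).mulVec ·) hfix
  simp only [Matrix.mulVec_mulVec, ← Units.val_mul] at this
  rw [show g * (g⁻¹ * p * g) = p * g by group] at this
  rw [Matrix.mulVec_mulVec, ← Units.val_mul, this, Units.val_one, Matrix.one_mulVec]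

/-- Root elements of an involution centraliser of shape `2^(1+2n) : GL_n(2)`. -/
structure Data (G : Type*) [Group G] (n : ℕ) where
  z : G
  a : V n → G
  b : V n → G
  k : GL (Fin n) (ZMod 2) →* G
  σ : GL (Fin n) (ZMod 2) → V n → V n
  τ : GL (Fin n) (ZMod 2) → V n → V n
  zz : z * z = 1
  z_a : ∀ v, z * a v = a v * z
  z_b : ∀ w, z * b w = b w * z
  z_k : ∀ g, z * k g = k g * z
  a_add : ∀ v v', a (v + v') = a v * a v'
  b_add : ∀ w w', b (w + w') = b w * b w'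
  b_a : ∀ v w, b w * a v = (if v ⬝ᵥ w = 0 then 1 else z) * (a v * b w)
  conj_a : ∀ g v, k g * a v = a (σ g v) * k g
  conj_b : ∀ g w, k g * b w = b (τ g w) * k g
  faith : ∀ g, (∀ w, τ g w = w) → g = 1
  inj : ∀ (e : ZMod 2) (v w : V n) (g : GL (Fin n) (ZMod 2)),
    (if e = 0 then 1 else z) * a v * b w * k g = 1 → e = 0 ∧ v = 0 ∧ w = 0 ∧ g = 1
  surj : ∀ x : G, x * z = z * x → ∃ (e : ZMod 2) (v w : V n) (g : GL (Fin n) (ZMod 2)),
    x = (if e = 0 then 1 else z) * a v * b w * k g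
  norm : ∃ v₀ : V n, v₀ ≠ 0 ∧ ∀ x : G, x * a v₀ = a v₀ * x → ∀ (e : ZMod 2) (v : V n),
    ∃ (e' : ZMod 2) (v' : V n),
      x * ((if e = 0 then 1 else z) * a v) * x⁻¹ = (if e' = 0 then 1 else z) * a v'

namespace Data

variable {G : Type*} [Group G] {n : ℕ} (S : Data G n)

/-- The central elements. -/
def zp (e : ZMod 2) : G := if e = 0 then 1 else S.z

@[simp] theorem zp_zero : S.zp 0 = 1 := rfl

theorem zp_one : S.zp 1 = S.z := rfl

theorem zp_add (e f : ZMod 2) : S.zp (e + f) = S.zp e * S.zp f := by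
  rcases z2_cases e with rfl | rfl <;> rcases z2_cases f with rfl | rfl
  · simp
  · simp
  · simp
  · rw [show (1 : ZMod 2) + 1 = 0 from by decide, zp_zero, zp_one, S.zz]

theorem zp_comm {x : G} (hx : S.z * x = x * S.z) (e : ZMod 2) : S.zp e * x = x * S.zp e := by
  rcases z2_cases e with rfl | rfl
  · simp
  · simpa [zp_one] using hx

theorem a_zero : S.a 0 = 1 := by
  have := S.a_add 0 0
  rw [add_zero] at this
  exact left_eq_mul.1 this

theorem b_zero : S.b 0 = 1 := by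
  have := S.b_add 0 0
  rw [add_zero] at this
  exact left_eq_mul.1 this

/-- The normal form. -/
def phi (p : ZMod 2 × V n × V n) : G := S.zp p.1 * S.a p.2.1 * S.b p.2.2

theorem z_phi (p : ZMod 2 × V n × V n) : S.z * S.phi p = S.phi p * S.z :=
  (Commute.mul_right (Commute.mul_right ((S.zp_comm rfl p.1).symm) (S.z_a _)) (S.z_b _)).eq

theorem phi_mul (p q : ZMod 2 × V n × V n) :
    S.phi p * S.phi q =
      S.phi (p.1 + q.1 + q.2.1 ⬝ᵥ p.2.2, p.2.1 + q.2.1, p.2.2 + q.2.2) := by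
  obtain ⟨e, v, w⟩ := p
  obtain ⟨f, v', w'⟩ := q
  have c1 : ∀ x, S.b w * (S.zp f * x) = S.zp f * (S.b w * x) := fun x => by
    rw [← mul_assoc, ← S.zp_comm (S.z_b w), mul_assoc]
  have c2 : ∀ x, S.a v * (S.zp f * x) = S.zp f * (S.a v * x) := fun x => by
    rw [← mul_assoc, ← S.zp_comm (S.z_a v), mul_assoc]
  have c3 : ∀ x, S.a v * (S.zp (v' ⬝ᵥ w) * x) = S.zp (v' ⬝ᵥ w) * (S.a v * x) := fun x => by
    rw [← mul_assoc, ← S.zp_comm (S.z_a v), mul_assoc]
  have c4 : ∀ x, S.b w * (S.a v' * x) = S.zp (v' ⬝ᵥ w) * (S.a v' * (S.b w * x)) := fun x => by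
    rw [← mul_assoc, S.b_a v' w]; simp only [zp, mul_assoc]
  simp only [phi, zp_add, S.a_add, S.b_add, mul_assoc, c1, c2, c3, c4]

theorem phi_one : S.phi 0 = 1 := by simp [phi, a_zero, b_zero]

/-- The normal subgroup of the centraliser. -/
def Q : Subgroup G where
  carrier := Set.range S.phi
  mul_mem' := by rintro _ _ ⟨p, rfl⟩ ⟨q, rfl⟩; exact ⟨_, (S.phi_mul p q).symm⟩
  one_mem' := ⟨0, S.phi_one⟩
  inv_mem' := by
    rintro _ ⟨⟨e, v, w⟩, rfl⟩
    refine ⟨(e + v ⬝ᵥ w, v, w), eq_inv_of_mul_eq_one_left ?_⟩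
    rw [S.phi_mul]
    simp only [z2_vec_self]
    rw [show e + v ⬝ᵥ w + e + v ⬝ᵥ w = 0 by linear_combination (e + v ⬝ᵥ w) * two_zero]
    exact S.phi_one

theorem phi_inj : Function.Injective S.phi := by
  rintro ⟨e, v, w⟩ ⟨f, v', w'⟩ h
  have hinv : S.phi (f + v' ⬝ᵥ w', v', w') * S.phi (f, v', w') = 1 := by
    rw [S.phi_mul]
    simp only [z2_vec_self]
    rw [show f + v' ⬝ᵥ w' + f + v' ⬝ᵥ w' = 0 by
      linear_combination (f + v' ⬝ᵥ w') * two_zero]
    exact S.phi_one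
  rw [← h, S.phi_mul] at hinv
  obtain ⟨h1, h2, h3, -⟩ := S.inj _ _ _ 1 (show S.phi _ * S.k 1 = 1 by rw [map_one, mul_one]; exact hinv)
  have e2 : v = v' := by
    simp only at h2
    exact add_left_cancel ((z2_vec_self v').trans h2.symm) |>.symm
  have e3 : w = w' := by
    simp only at h3
    exact add_left_cancel ((z2_vec_self w').trans h3.symm) |>.symm
  subst e2 e3
  simp only at h1
  refine Prod.ext ?_ rfl
  show e = f
  linear_combination h1 + (-f - v ⬝ᵥ w) * two_zero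

theorem card_Q : Nat.card S.Q = 2 ^ (2 * n + 1) := by
  rw [show Nat.card S.Q = Nat.card (Set.range S.phi) from rfl,
    Nat.card_range_of_injective S.phi_inj, Nat.card_prod, Nat.card_prod, Nat.card_zmod, Nat.card_fun,
    Nat.card_zmod, Nat.card_fin]
  ring

theorem mem_center_iff (p : ZMod 2 × V n × V n) :
    (∀ q, S.phi p * S.phi q = S.phi q * S.phi p) ↔ p.2 = 0 := by
  constructor
  · intro h
    have key : ∀ v w, v ⬝ᵥ p.2.2 = p.2.1 ⬝ᵥ w := fun v w => by
      have := h (0, v, w)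
      rw [S.phi_mul, S.phi_mul, S.phi_inj.eq_iff, Prod.ext_iff] at this
      have h1 := this.1
      simp only [zero_add, add_zero] at h1
      exact add_left_cancel h1
    refine Prod.ext (funext fun i => ?_) (funext fun i => ?_)
    · simpa [dotProduct_single] using (key 0 (Pi.single i 1)).symm
    · simpa [single_dotProduct] using key (Pi.single i 1) 0
  · intro h q
    obtain ⟨e, v, w⟩ := p
    obtain ⟨rfl, rfl⟩ := Prod.ext_iff.1 h
    simp only at *
    rw [S.phi_mul, S.phi_mul]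
    refine congrArg S.phi (Prod.ext ?_ ?_)
    · simp [add_comm]
    · simp

theorem z_mem : S.z ∈ S.Q := ⟨(1, 0, 0), by simp [phi, zp_one, a_zero, b_zero]⟩

theorem z_ne : S.z ≠ 1 := by
  intro h
  have := S.inj 1 0 0 1 (by simp [h, a_zero, b_zero])
  exact one_ne_zero this.1

variable [Finite G]

theorem center_card : Nat.card (Subgroup.center S.Q) = 2 := by
  rw [← Nat.card_zmod 2]
  refine (Nat.card_congr (Equiv.ofBijective
    (fun e : ZMod 2 => (⟨⟨S.phi (e, 0), (e, 0), rfl⟩, Subgroup.mem_center_iff.2 ?_⟩ : Subgroup.center S.Q))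
    ⟨fun e f h => ?_, fun x => ?_⟩)).symm
  · rintro ⟨_, q, rfl⟩
    exact Subtype.ext ((S.mem_center_iff (e, 0)).2 rfl q).symm
  · exact (Prod.ext_iff.1 (S.phi_inj (congrArg (fun x : Subgroup.center S.Q => ((x : S.Q) : G)) h))).1
  · obtain ⟨⟨_, p, rfl⟩, hx⟩ := x
    have := (S.mem_center_iff p).1 fun q =>
      (congrArg Subtype.val (Subgroup.mem_center_iff.1 hx ⟨_, q, rfl⟩)).symm
    exact ⟨p.1, Subtype.ext (Subtype.ext (congrArg S.phi (Prod.ext rfl this.symm)))⟩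

theorem isExtraspecial (hn : 1 ≤ n) : Cfsg.IsExtraspecial 2 S.Q := by
  haveI : Fact (Nat.Prime 2) := ⟨Nat.prime_two⟩
  have hP : IsPGroup 2 S.Q := IsPGroup.of_card S.card_Q
  have hmem : ∀ (x : S.Q) (p : ZMod 2 × V n × V n), (x : G) = S.phi p → p.2 = 0 →
      x ∈ Subgroup.center S.Q := fun x p hx hp => Subgroup.mem_center_iff.2 fun y => by
    obtain ⟨_, q, rfl⟩ := y
    exact Subtype.ext (by rw [Subgroup.coe_mul, Subgroup.coe_mul, hx, (S.mem_center_iff p).2 hp q])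
  have hcc : commutator S.Q ≤ Subgroup.center S.Q := by
    rw [commutator_def, Subgroup.commutator_le]
    rintro ⟨_, ⟨e, v, w⟩, rfl⟩ - ⟨_, ⟨f, v', w'⟩, rfl⟩ -
    rw [commutatorElement_def]
    refine hmem _ (v' ⬝ᵥ w + v ⬝ᵥ w', 0) ?_ rfl
    simp only [Subgroup.coe_mul, InvMemClass.coe_inv]
    rw [mul_inv_eq_iff_eq_mul, mul_inv_eq_iff_eq_mul, mul_assoc, S.phi_mul, S.phi_mul, S.phi_mul]
    refine congrArg S.phi (Prod.ext ?_ ?_)
    · simp only [Prod.fst_zero, Prod.snd_zero, dotProduct_zero, add_zero]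
      linear_combination -(v ⬝ᵥ w') * two_zero
    · simp [add_comm]
  have hge : Subgroup.center S.Q ≤ commutator S.Q := by
    refine (Subgroup.eq_of_le_of_card_ge hcc ?_).ge
    rw [S.center_card]
    by_contra hlt
    have h1 : commutator S.Q = ⊥ := Subgroup.eq_bot_of_card_le _ (by omega)
    have h2 : Subgroup.center S.Q = ⊤ := (commutator_eq_bot_iff_center_eq_top _).1 h1
    have h3 := S.center_card
    rw [h2, Subgroup.card_top, S.card_Q] at h3
    have := Nat.pow_right_injective (le_refl 2) (h3.trans (pow_one 2).symm)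
    omega
  refine ⟨⟨hP, le_antisymm (CfsgLib.PGroups.frattini_le_of (p := 2) hcc fun x => ?_)
    (hge.trans (CfsgLib.PGroups.commutator_le_frattini hP)), le_antisymm hcc hge⟩, S.center_card⟩
  obtain ⟨_, ⟨e, v, w⟩, rfl⟩ := x
  refine hmem _ (e + e + v ⬝ᵥ w, 0) ?_ rfl
  rw [SubmonoidClass.coe_pow, pow_two, S.phi_mul]
  exact congrArg S.phi (Prod.ext rfl (by simp [z2_vec_self]))

theorem centerImage (hn : 1 ≤ n) :
    (Subgroup.center S.Q).map S.Q.subtype = Subgroup.zpowers S.z := by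
  have ho : orderOf S.z = 2 := orderOf_eq_prime_iff.2 ⟨by rw [pow_two, S.zz], S.z_ne⟩
  refine (Subgroup.eq_of_le_of_card_ge (Subgroup.zpowers_le.2 ?_) ?_).symm
  · refine (mem_centerImage_iff _ _).2 ⟨S.z_mem, ?_⟩
    rintro _ ⟨q, rfl⟩
    exact S.z_phi q
  · rw [IsExtraspecial.card_centerImage (S.isExtraspecial hn), Nat.card_zpowers, ho]

theorem centralizer_zpowers :
    Subgroup.centralizer ((Subgroup.zpowers S.z : Subgroup G) : Set G) =
      Subgroup.centralizer ({S.z} : Set G) := by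
  rw [Subgroup.zpowers_eq_closure, Subgroup.centralizer_closure]

theorem k_mem (g : GL (Fin n) (ZMod 2)) : S.k g ∈ Subgroup.centralizer ({S.z} : Set G) :=
  Subgroup.mem_centralizer_singleton_iff.2 (S.z_k g).symm

omit [Finite G] in
theorem k_phi (g : GL (Fin n) (ZMod 2)) (p : ZMod 2 × V n × V n) :
    S.k g * S.phi p = S.phi (p.1, S.σ g p.2.1, S.τ g p.2.2) * S.k g := by
  obtain ⟨e, v, w⟩ := p
  simp only [phi, mul_assoc]
  rw [← mul_assoc (S.k g) (S.zp e), ← S.zp_comm (S.z_k g), mul_assoc, ← mul_assoc (S.k g) (S.a v),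
    S.conj_a, mul_assoc, S.conj_b]

theorem le_normalizer : Subgroup.centralizer ({S.z} : Set G) ≤ Subgroup.normalizer (S.Q : Set G) := by
  intro x hx
  obtain ⟨e, v, w, g, rfl⟩ := S.surj x (Subgroup.mem_centralizer_singleton_iff.1 hx)
  refine Subgroup.mul_mem _ (Subgroup.le_normalizer ⟨(e, v, w), rfl⟩) ?_
  have key : ∀ g : GL (Fin n) (ZMod 2), ∀ y ∈ S.Q, S.k g * y * (S.k g)⁻¹ ∈ S.Q := by
    rintro g _ ⟨p, rfl⟩
    exact ⟨_, (mul_inv_eq_iff_eq_mul.2 (S.k_phi g p)).symm⟩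
  rw [Subgroup.mem_normalizer_iff]
  refine fun y => ⟨key g y, fun hy => ?_⟩
  have := key g⁻¹ _ hy
  rwa [map_inv, inv_inv, show (S.k g)⁻¹ * (S.k g * y * (S.k g)⁻¹) * S.k g = y by group] at this

theorem centralizer_Q :
    Subgroup.centralizer (S.Q : Set G) = (Subgroup.center S.Q).map S.Q.subtype := by
  refine le_antisymm (fun x hx => ?_) fun x hx => Subgroup.mem_centralizer_iff.2 fun q hq =>
    (((mem_centerImage_iff _ _).1 hx).2 q hq).symm
  have hxz := (Subgroup.mem_centralizer_iff.1 hx S.z S.z_mem).symm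
  obtain ⟨e, v, w, g, rfl⟩ := S.surj x hxz
  have hg : g = 1 := by
    refine S.faith g fun w' => ?_
    have h1 := Subgroup.mem_centralizer_iff.1 hx (S.phi (0, 0, w')) ⟨_, rfl⟩
    change S.phi (0, 0, w') * (S.phi (e, v, w) * S.k g) = S.phi (e, v, w) * S.k g * S.phi (0, 0, w') at h1
    rw [mul_assoc (S.phi (e, v, w)), S.k_phi, ← mul_assoc, ← mul_assoc] at h1
    have h2 := mul_right_cancel h1
    rw [S.phi_mul, S.phi_mul, S.phi_inj.eq_iff] at h2
    have h3 := congrArg (fun p => p.2.2) h2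
    simp only at h3
    rw [add_comm w] at h3
    exact (add_right_cancel h3).symm
  subst hg
  rw [map_one, mul_one] at hx ⊢
  exact (mem_centerImage_iff _ _).2 ⟨⟨(e, v, w), rfl⟩, fun q hq =>
    (Subgroup.mem_centralizer_iff.1 hx q hq).symm⟩

theorem isLarge (hn : 1 ≤ n) : Cfsg.IsLargeExtraspecial S.Q := by
  haveI : Fact (Nat.Prime 2) := ⟨Nat.prime_two⟩
  obtain ⟨v₀, hv0, hnorm⟩ := S.norm
  have hb : S.a v₀ = S.phi (0, v₀, 0) := by simp [phi, b_zero]
  have hbQ : S.a v₀ ∈ S.Q := ⟨_, hb.symm⟩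
  have hbb : S.a v₀ * S.a v₀ = 1 := by rw [← S.a_add, z2_vec_self, a_zero]
  have hbne : S.a v₀ ≠ 1 := fun h => hv0 (congrArg (fun p => p.2.1) (S.phi_inj ((hb.symm.trans h).trans S.phi_one.symm)))
  have hbZ : S.a v₀ ∉ (Subgroup.center S.Q).map S.Q.subtype := fun h => hv0 <|
    congrArg Prod.fst ((S.mem_center_iff (0, v₀, 0)).1 fun q => by
      rw [← hb]; exact ((mem_centerImage_iff _ _).1 h).2 _ ⟨q, rfl⟩)
  refine isLargeExtraspecial_of_involution (S.isExtraspecial hn) S.centralizer_Q ?_ hbQ hbZ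
    (orderOf_eq_prime_iff.2 ⟨by rw [pow_two, hbb], hbne⟩) ?_
  · rw [S.centerImage hn, centralizer_zpowers]
    exact S.le_normalizer
  · set C := Subgroup.centralizer ({S.a v₀} : Set G) with hC
    let A : Subgroup C :=
      { carrier := {x | ∃ e v, (x : G) = S.zp e * S.a v}
        mul_mem' := by
          rintro x y ⟨e, v, hx⟩ ⟨f, v', hy⟩
          refine ⟨e + f, v + v', ?_⟩
          rw [Subgroup.coe_mul, hx, hy, zp_add, S.a_add, mul_assoc, ← mul_assoc (S.a v),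
            ← S.zp_comm (S.z_a v)]
          simp only [mul_assoc]
        one_mem' := ⟨0, 0, by simp [a_zero]⟩
        inv_mem' := by
          rintro x ⟨e, v, hx⟩
          refine ⟨e, v, ?_⟩
          rw [InvMemClass.coe_inv, hx, inv_eq_iff_mul_eq_one, mul_assoc, ← mul_assoc (S.a v),
            ← S.zp_comm (S.z_a v), mul_assoc, ← S.a_add, z2_vec_self, a_zero, mul_one, ← S.zp_add,
            CharTwo.add_self_eq_zero, zp_zero] }
    haveI : A.Normal := ⟨fun x hx g => by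
      obtain ⟨e, v, hx⟩ := hx
      obtain ⟨e', v', h⟩ := hnorm g (Subgroup.mem_centralizer_singleton_iff.1 g.2) e v
      refine ⟨e', v', ?_⟩
      rw [Subgroup.coe_mul, Subgroup.coe_mul, InvMemClass.coe_inv, hx]
      exact h⟩
    have hA : IsPGroup 2 A := fun x => ⟨1, by
      obtain ⟨x, e, v, hx⟩ := x
      refine Subtype.ext (Subtype.ext ?_)
      rw [pow_one, SubmonoidClass.coe_pow, SubmonoidClass.coe_pow, hx, pow_two, mul_assoc,
        ← mul_assoc (S.a v), ← S.zp_comm (S.z_a v), mul_assoc, ← S.a_add, z2_vec_self, a_zero, mul_one,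
        ← S.zp_add, CharTwo.add_self_eq_zero]
      rfl⟩
    have hle : A ≤ Cfsg.pCore 2 C := le_sSup ⟨inferInstance, hA⟩
    rw [S.centerImage hn, Subgroup.zpowers_le]
    have hzC : S.z ∈ C := Subgroup.mem_centralizer_singleton_iff.2 (S.z_a v₀)
    exact ⟨⟨S.z, hzC⟩, hle ⟨1, 0, by simp [zp_one, a_zero]⟩, rfl⟩

theorem map_pCore :
    (Cfsg.pCore 2 ↥(Subgroup.centralizer ({S.z} : Set G))).map
      (Subgroup.centralizer ({S.z} : Set G)).subtype = S.Q := by
  haveI : Fact (Nat.Prime 2) := ⟨Nat.prime_two⟩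
  set C := Subgroup.centralizer ({S.z} : Set G) with hC
  have hQC : S.Q ≤ C := by
    rintro _ ⟨p, rfl⟩
    exact Subgroup.mem_centralizer_singleton_iff.2 (S.z_phi p).symm
  haveI : (S.Q.subgroupOf C).Normal :=
    (Subgroup.normal_subgroupOf_iff_le_normalizer hQC).2 S.le_normalizer
  have hQp : IsPGroup 2 (S.Q.subgroupOf C) :=
    (IsPGroup.of_card (p := 2) S.card_Q).of_equiv (Subgroup.subgroupOfEquivOfLe hQC).symm
  refine le_antisymm ?_ fun x hx => ⟨⟨x, hQC hx⟩, (le_sSup ⟨inferInstance, hQp⟩ :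
    S.Q.subgroupOf C ≤ Cfsg.pCore 2 C) hx, rfl⟩
  have hP : IsPGroup 2 (Cfsg.pCore 2 C) := Sylow.sSup_of_normal _ (fun N hN => hN.2) fun N hN => hN.1
  have hPn : (Cfsg.pCore 2 C).Normal := Subgroup.sSup_normal _ fun N hN => hN.1
  let kC : GL (Fin n) (ZMod 2) →* C := S.k.codRestrict C S.k_mem
  have hkinj : Function.Injective kC := (injective_iff_map_eq_one kC).2 fun g hg =>
    (S.inj 0 0 0 g (by
      have h1 : S.k g = 1 := congrArg Subtype.val hg
      simp [a_zero, b_zero, h1])).2.2.2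
  have hbot : (Cfsg.pCore 2 C).comap kC = ⊥ := by
    haveI := hPn
    exact gl_normal_two_eq_bot _ (hP.comap_of_injective kC hkinj)
  rintro _ ⟨x, hx, rfl⟩
  obtain ⟨e, v, w, g, hxe⟩ := S.surj x (Subgroup.mem_centralizer_singleton_iff.1 x.2)
  have hq : (⟨S.phi (e, v, w), hQC ⟨_, rfl⟩⟩ : C) ∈ Cfsg.pCore 2 C :=
    (le_sSup ⟨inferInstance, hQp⟩ : S.Q.subgroupOf C ≤ Cfsg.pCore 2 C) ⟨(e, v, w), rfl⟩
  have hk : kC g ∈ Cfsg.pCore 2 C := by
    have := (Cfsg.pCore 2 C).mul_mem ((Cfsg.pCore 2 C).inv_mem hq) hx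
    convert this using 1
    apply Subtype.ext
    rw [Subgroup.coe_mul, InvMemClass.coe_inv, hxe]
    exact (inv_mul_cancel_left _ _).symm
  have hg : g = 1 := by
    have : g ∈ (Cfsg.pCore 2 C).comap kC := hk
    rwa [hbot, Subgroup.mem_bot] at this
  refine ⟨(e, v, w), ?_⟩
  rw [hg, map_one, mul_one] at hxe
  exact hxe.symm

/-- The conclusion shared by the two families. -/
theorem conclusion (hn : 1 ≤ n) :
    IsExtraspecial 2 ↥S.Q ∧ Nat.card ↥S.Q = 2 ^ (2 * n + 1) ∧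
      (∃ E : Subgroup G, E ≤ S.Q ∧ IsElementaryAbelian 2 E ∧ Nat.card ↥E = 2 ^ (n + 1)) ∧
      IsLargeExtraspecial S.Q ∧
      ∃ K : Subgroup G, K ≤ Subgroup.centralizer ({S.z} : Set G) ∧ S.Q ⊓ K = ⊥ ∧
        S.Q ⊔ K = Subgroup.centralizer ({S.z} : Set G) ∧
        Nonempty (↥K ≃* GL (Fin n) (ZMod 2)) := by
  have hkinj : Function.Injective S.k := (injective_iff_map_eq_one S.k).2 fun g hg =>
    (S.inj 0 0 0 g (by simpa [a_zero, b_zero] using hg)).2.2.2
  refine ⟨S.isExtraspecial hn, S.card_Q, ?_, S.isLarge hn, S.k.range, ?_, ?_, ?_,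
    ⟨(MonoidHom.ofInjective hkinj).symm⟩⟩
  · let ψ : Multiplicative (ZMod 2 × V n) →* G :=
      MonoidHom.mk' (fun p => S.phi ((Multiplicative.toAdd p).1, (Multiplicative.toAdd p).2, 0)) fun p q => by
        rw [S.phi_mul]; simp
    have hψ : Function.Injective ψ := fun p q h => by
      have := S.phi_inj h
      simp only [Prod.mk.injEq, and_true] at this
      exact congrArg Multiplicative.ofAdd (Prod.ext this.1 this.2)
    refine ⟨ψ.range, ?_, ⟨⟨⟨?_⟩⟩, ?_⟩, ?_⟩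
    · rintro _ ⟨p, rfl⟩; exact ⟨_, rfl⟩
    · rintro ⟨_, p, rfl⟩ ⟨_, q, rfl⟩
      exact Subtype.ext (by simp only [Subgroup.coe_mul]; rw [← map_mul, ← map_mul, mul_comm])
    · rintro _ ⟨p, rfl⟩
      rw [← map_pow, pow_two, show p * p = 1 from congrArg Multiplicative.ofAdd
        (Prod.ext (CharTwo.add_self_eq_zero _) (z2_vec_self _)), map_one]
    · rw [← Nat.card_congr (MonoidHom.ofInjective hψ).toEquiv,
        Nat.card_congr Multiplicative.toAdd, Nat.card_prod, Nat.card_zmod, Nat.card_fun, Nat.card_zmod,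
        Nat.card_fin, pow_succ']
  · rintro _ ⟨g, rfl⟩; exact S.k_mem g
  · rw [Subgroup.eq_bot_iff_forall]
    rintro _ ⟨⟨⟨e, v, w⟩, hp⟩, g, rfl⟩
    have h1 : S.phi (e, v, w) * S.k g⁻¹ = 1 := by rw [hp, map_inv, mul_inv_cancel]
    rw [show g = 1 from inv_eq_one.1 (S.inj e v w g⁻¹ h1).2.2.2, map_one]
  · refine le_antisymm (sup_le ?_ ?_) fun x hx => ?_
    · rintro _ ⟨p, rfl⟩
      exact Subgroup.mem_centralizer_singleton_iff.2 (S.z_phi p).symm
    · rintro _ ⟨g, rfl⟩; exact S.k_mem g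
    · obtain ⟨e, v, w, g, rfl⟩ := S.surj x (Subgroup.mem_centralizer_singleton_iff.1 hx)
      exact Subgroup.mul_mem_sup ⟨(e, v, w), rfl⟩ ⟨g, rfl⟩

end Data

end CfsgLib.Fischer2.Heisenberg
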