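import Cfsg.Agent.Lib.Fischer2.ExtraspecialConjugate
import Cfsg.Agent.Lib.PGroups.Frattini

/-!
A criterion for the image of a 2-group in a quotient of a local subgroup to be a large extraspecial
2-subgroup, and centralisers in extraspecial groups.
-/

set_option autoImplicit false

namespace CfsgLib.Fischer2

open Cfsg Subgroup
open scoped commutatorElement

variable {G : Type*} [Group G] [Finite G]

/-- The centraliser of a non-central element of an extraspecial group has centraliser the group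
generated by it and the centre. -/
theorem mem_of_commute_centralizer {Q : Subgroup G} (hQ : IsExtraspecial 2 Q) {z u v : G}
    (hzZ : z ∈ (Subgroup.center Q).map Q.subtype) (hz1 : z ≠ 1) (hu : u ∈ Q)
    (huc : u ∉ (Subgroup.center Q).map Q.subtype) (hv : v ∈ Q)
    (h : ∀ b ∈ Q, b * u = u * b → v * b = b * v) :
    v = 1 ∨ v = z ∨ v = u⁻¹ ∨ v = z * u⁻¹ := by
  obtain ⟨hzQ, hzc⟩ := (mem_centerImage_iff Q z).1 hzZ
  obtain ⟨q, hq, hqu⟩ := IsExtraspecial.exists_conj_eq_mul hQ hzZ hz1 hu huc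
  have hfin : ∀ w ∈ Q, (∀ b ∈ Q, b * u = u * b → w * b = b * w) → w * q = q * w → w = 1 ∨ w = z := by
    intro w hw hwb hwq
    refine eq_one_or_eq_of_card_two (IsExtraspecial.card_centerImage hQ) hzZ hz1
      ((mem_centerImage_iff Q w).2 ⟨hw, fun y hy => ?_⟩)
    rcases IsExtraspecial.conj_eq_or hQ hzZ hz1 hu hy with e | e
    · exact hwb y hy (mul_inv_eq_iff_eq_mul.1 e)
    · have hb : q⁻¹ * y * u = u * (q⁻¹ * y) := by
        calc q⁻¹ * y * u = q⁻¹ * (y * u * y⁻¹) * y := by group
          _ = q⁻¹ * (q * u * q⁻¹) * y := by rw [e, hqu]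
          _ = _ := by group
      calc w * y = (w * q) * (q⁻¹ * y) := by group
        _ = (q * w) * (q⁻¹ * y) := by rw [hwq]
        _ = q * (w * (q⁻¹ * y)) := by group
        _ = q * ((q⁻¹ * y) * w) := by rw [hwb _ (mul_mem (inv_mem hq) hy) hb]
        _ = _ := by group
  rcases IsExtraspecial.conj_eq_or hQ hzZ hz1 hq hv with e | e
  · rcases hfin v hv h (mul_inv_eq_iff_eq_mul.1 e) with r | r
    · exact Or.inl r
    · exact Or.inr (Or.inl r)
  · have h1 : v * q = z * q * v := mul_inv_eq_iff_eq_mul.1 e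
    have h2 : q * u = z * u * q := mul_inv_eq_iff_eq_mul.1 hqu
    have hz2 : z * z = 1 := by
      rcases eq_one_or_eq_of_card_two (IsExtraspecial.card_centerImage hQ) hzZ hz1
        (mul_mem hzZ hzZ) with r | r
      · exact r
      · exact absurd (mul_eq_left.1 r) hz1
    have h3 : u * q = z * (q * u) := by
      rw [h2, ← mul_assoc, ← mul_assoc, hz2, one_mul]
    have h4 : v * u * q = q * (v * u) := by
      calc v * u * q = v * (u * q) := mul_assoc _ _ _
        _ = (v * z) * q * u := by rw [h3]; group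
        _ = (z * v) * q * u := by rw [hzc v hv]
        _ = z * (v * q) * u := by group
        _ = (z * z) * (q * (v * u)) := by rw [h1]; group
        _ = _ := by rw [hz2, one_mul]
    rcases hfin (v * u) (mul_mem hv hu) (fun b hb hbu => by
        rw [mul_assoc, ← hbu, ← mul_assoc, h b hb hbu, mul_assoc]) h4 with r | r
    · exact Or.inr (Or.inr (Or.inl (eq_inv_of_mul_eq_one_left r)))
    · exact Or.inr (Or.inr (Or.inr (eq_mul_inv_of_mul_eq r)))

/-- The criterion. -/
theorem isLargeExtraspecial_image {X : Type*} [Group X] {M P : Subgroup G} (π : M →* X)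
    (hπ : Function.Surjective π) (hPM : P ≤ M) (hP : IsPGroup 2 P) {z : G} (hzP : z ∈ P)
    (hz1 : π ⟨z, hPM hzP⟩ ≠ 1)
    (hcomm : ∀ x ∈ P, ∀ y ∈ P, x * y * x⁻¹ * y⁻¹ = 1 ∨ x * y * x⁻¹ * y⁻¹ = z)
    (hsq : ∀ x ∈ P, x * x = 1 ∨ x * x = z)
    (hcent : ∀ m : M, (∀ y : M, (y : G) ∈ P → π (m * y * m⁻¹ * y⁻¹) = 1) →
      π m = 1 ∨ π m = π ⟨z, hPM hzP⟩)
    (hnorm : ∀ m : M, π (m * ⟨z, hPM hzP⟩ * m⁻¹) = π ⟨z, hPM hzP⟩ →
      ∀ y ∈ P, (m : G) * y * (m : G)⁻¹ ∈ P)
    (hcard : 8 < Nat.card ((P.subgroupOf M).map π : Subgroup X))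
    {s : G} (hsP : s ∈ P) (hsz : π ⟨s, hPM hsP⟩ ≠ π ⟨z, hPM hzP⟩) {x : G} (hx : x ∈ M)
    (hxs : x * s * x⁻¹ = z) : IsLargeExtraspecial ((P.subgroupOf M).map π) := by
  have : Finite X := Finite.of_surjective π hπ
  have : Fact (Nat.Prime 2) := ⟨Nat.prime_two⟩
  set R : Subgroup X := (P.subgroupOf M).map π with hR
  set zM : M := ⟨z, hPM hzP⟩ with hzM
  have hmem : ∀ {y : M}, (y : G) ∈ P → π y ∈ R := fun hy => ⟨_, Subgroup.mem_subgroupOf.2 hy, rfl⟩
  have hex : ∀ r ∈ R, ∃ y : M, (y : G) ∈ P ∧ π y = r := by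
    rintro r ⟨y, hy, rfl⟩; exact ⟨y, Subgroup.mem_subgroupOf.1 hy, rfl⟩
  have hRp : IsPGroup 2 R := (hP.of_equiv (Subgroup.subgroupOfEquivOfLe hPM).symm).map π
  have hzR : π zM ∈ R := hmem hzP
  have hC : ∀ a : X, (∀ r ∈ R, a * r = r * a) ↔ a = 1 ∨ a = π zM := by
    intro a
    constructor
    · intro ha
      obtain ⟨m, rfl⟩ := hπ a
      refine hcent m fun y hy => ?_
      rw [map_mul, map_mul, map_mul, map_inv, map_inv, ha _ (hmem hy)]
      group
    · rintro (rfl | rfl) r hr
      · simp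
      · obtain ⟨y, hy, rfl⟩ := hex r hr
        rw [← map_mul, ← map_mul]
        congr 1
        apply Subtype.ext
        show z * (y : G) = y * z
        rcases hcomm _ hzP _ hy with e | e
        · exact mul_inv_eq_iff_eq_mul.1 (mul_inv_eq_one.1 e)
        · exfalso
          apply hz1
          have e2 : (zM * y * zM⁻¹ * y⁻¹ : M) = zM := Subtype.ext e
          have e3 : (y * zM⁻¹ * y⁻¹ : M) = 1 := by
            rw [← mul_right_inj zM, mul_one, ← mul_assoc, ← mul_assoc]; exact e2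
          rw [conj_eq_one_iff, inv_eq_one] at e3
          rw [e3, map_one]
  set zR : R := ⟨π zM, hzR⟩ with hzR'
  have hzRne : zR ≠ 1 := fun e => hz1 (congrArg Subtype.val e)
  have hcenterImage : ∀ a, a ∈ (Subgroup.center R).map R.subtype ↔ a = 1 ∨ a = π zM := by
    intro a
    rw [mem_centerImage_iff, ← hC]
    refine ⟨fun h => h.2, fun h => ⟨?_, h⟩⟩
    rcases (hC a).1 h with rfl | rfl
    · exact one_mem _
    · exact hzR
  have hcR : Nat.card (Subgroup.center R) = 2 := by
    have hset : ((Subgroup.center R : Subgroup R) : Set R) = {1, zR} := by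
      ext r
      constructor
      · intro hr
        rcases (hcenterImage r).1 ⟨r, hr, rfl⟩ with e | e
        · exact Or.inl (Subtype.ext e)
        · exact Or.inr (Subtype.ext e)
      · rintro (rfl | hr)
        · exact one_mem _
        · rw [show r = zR from hr]
          exact Subgroup.mem_center_iff.2 fun u => Subtype.ext (((hC (π zM)).2 (Or.inr rfl)) u u.2).symm
    rw [← SetLike.coe_sort_coe, Nat.card_coe_set_eq, hset, Set.ncard_pair hzRne.symm]
  have hzRc : zR ∈ Subgroup.center R :=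
    Subgroup.mem_center_iff.2 fun u => Subtype.ext (((hC (π zM)).2 (Or.inr rfl)) u u.2).symm
  have hcle : commutator R ≤ Subgroup.center R := by
    rw [commutator_def, Subgroup.commutator_le]
    intro a _ b _
    obtain ⟨p, hp, hpe⟩ := hex a a.2
    obtain ⟨q, hq, hqe⟩ := hex b b.2
    have h1 : ((⁅a, b⁆ : R) : X) = π (p * q * p⁻¹ * q⁻¹) := by
      rw [commutatorElement_def]
      simp only [Subgroup.coe_mul, InvMemClass.coe_inv, map_mul, map_inv, hpe, hqe]
    rcases hcomm _ hp _ hq with e | e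
    · rw [show ⁅a, b⁆ = 1 from Subtype.ext (by
        rw [h1, show (p * q * p⁻¹ * q⁻¹ : M) = 1 from Subtype.ext e, map_one]; rfl)]
      exact one_mem _
    · rw [show ⁅a, b⁆ = zR from Subtype.ext (by
        rw [h1, show (p * q * p⁻¹ * q⁻¹ : M) = zM from Subtype.ext e])]
      exact hzRc
  have hsqR : ∀ r : R, r ^ 2 ∈ Subgroup.center R := by
    intro r
    obtain ⟨p, hp, hpe⟩ := hex r r.2
    have h1 : ((r ^ 2 : R) : X) = π (p * p) := by rw [pow_two, Subgroup.coe_mul, map_mul, hpe]
    rcases hsq _ hp with e | e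
    · rw [show r ^ 2 = 1 from Subtype.ext (by
        rw [h1, show (p * p : M) = 1 from Subtype.ext e, map_one]; rfl)]
      exact one_mem _
    · rw [show r ^ 2 = zR from Subtype.ext (by
        rw [h1, show (p * p : M) = zM from Subtype.ext e])]
      exact hzRc
  have hceq : commutator R = Subgroup.center R := by
    refine Subgroup.eq_of_le_of_card_ge hcle ?_
    by_contra hlt
    have h2 : Nat.card (commutator R) ∣ 2 := hcR ▸ Subgroup.card_dvd_of_le hcle
    rcases (Nat.dvd_prime Nat.prime_two).1 h2 with h | h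
    · have htop : Subgroup.center R = ⊤ := eq_top_iff.2 fun a _ => Subgroup.mem_center_iff.2 fun b => by
        refine commutatorElement_eq_one_iff_mul_comm.1 ?_
        rw [← Subgroup.mem_bot, ← Subgroup.card_eq_one.1 h, commutator_def]
        exact Subgroup.commutator_mem_commutator (Subgroup.mem_top _) (Subgroup.mem_top _)
      rw [htop, Subgroup.card_top] at hcR
      omega
    · exact hlt (by rw [h, hcR])
  have hRex : IsExtraspecial 2 R :=
    ⟨⟨hRp, le_antisymm (CfsgLib.PGroups.frattini_le_of hcle hsqR)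
      (hceq ▸ CfsgLib.PGroups.commutator_le_frattini hRp), hceq⟩, hcR⟩
  have hzZ : π zM ∈ (Subgroup.center R).map R.subtype := (hcenterImage _).2 (Or.inr rfl)
  have hCR : Subgroup.centralizer (R : Set X) = (Subgroup.center R).map R.subtype := by
    ext a
    rw [hcenterImage, ← hC, Subgroup.mem_centralizer_iff]
    exact ⟨fun h r hr => (h r hr).symm, fun h r hr => (h r hr).symm⟩
  have hNR : Subgroup.centralizer (((Subgroup.center R).map R.subtype : Subgroup X) : Set X) ≤
      Subgroup.normalizer (R : Set X) := by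
    intro a ha
    have h1 : a * π zM = π zM * a := (Subgroup.mem_centralizer_iff.1 ha _ hzZ).symm
    have key : ∀ b : X, b * π zM = π zM * b → ∀ r ∈ R, b * r * b⁻¹ ∈ R := by
      intro b hb r hr
      obtain ⟨m, rfl⟩ := hπ b
      obtain ⟨y, hy, rfl⟩ := hex r hr
      rw [← map_inv, ← map_mul, ← map_mul]
      exact hmem (hnorm m (by rw [map_mul, map_mul, map_inv, hb, mul_inv_cancel_right]) y hy)
    rw [Subgroup.mem_normalizer_iff]
    refine fun r => ⟨key a h1 r, fun hr => ?_⟩
    have := key a⁻¹ (Commute.inv_left h1).eq _ hr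
    simpa [mul_assoc] using this
  have hconj : (π ⟨x, hx⟩)⁻¹ * π zM * ((π ⟨x, hx⟩)⁻¹)⁻¹ = π ⟨s, hPM hsP⟩ := by
    rw [inv_inv, ← map_inv, ← map_mul, ← map_mul]
    congr 1
    apply Subtype.ext
    show x⁻¹ * z * x = s
    rw [← hxs]; group
  exact isLargeExtraspecial_of_conj_mem hRex hCR hNR hcard hzZ hz1 (g := (π ⟨x, hx⟩)⁻¹)
    (by rw [hconj]; exact hmem hsP) (by rw [hconj]; exact hsz)

/-- The third involution: `p⁻¹ q` carries `s` to `z`. -/
theorem swap_product {G : Type*} [Group G] {z s q p : G} (_hz : z * z = 1) (hs : s * s = 1)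
    (hzs : z * s = s * z) (hq : q * s * q⁻¹ = z * s) (hp : p * z * p⁻¹ = s * z) (hps : p * s = s * p) :
    (p⁻¹ * q) * s * (p⁻¹ * q)⁻¹ = z := by
  have h1 : p * (z * s) * p⁻¹ = z := by
    calc p * (z * s) * p⁻¹ = (p * z * p⁻¹) * ((p * s) * p⁻¹) := by group
      _ = (s * z) * ((s * p) * p⁻¹) := by rw [hp, hps]
      _ = (z * s) * ((s * p) * p⁻¹) := by rw [← hzs]
      _ = z * (s * s) := by group
      _ = z := by rw [hs, mul_one]
  have h2 : p⁻¹ * z * p = z * s := by
    conv_lhs => rw [← h1]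
    group
  calc (p⁻¹ * q) * s * (p⁻¹ * q)⁻¹ = p⁻¹ * (q * s * q⁻¹) * p := by group
    _ = (p⁻¹ * z * p) * (p⁻¹ * (s * p)) := by rw [hq]; group
    _ = (p⁻¹ * z * p) * (p⁻¹ * (p * s)) := by rw [hps]
    _ = z * (s * s) := by rw [h2]; group
    _ = z := by rw [hs, mul_one]

end CfsgLib.Fischer2
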