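import Cfsg.Agent.Lib.Fischer2.ExtraspecialConjugate
import Cfsg.Agent.Lib.Fischer2.FittingSetting

/-!
Two conjugates `z`, `s = gzg⁻¹` of the central involution of a large extraspecial 2-subgroup `Q`
with `s ∈ Q`: the group generated by `Q` and `gQg⁻¹`.
-/

set_option autoImplicit false

namespace CfsgLib.Fischer2

open Cfsg Subgroup

variable {G : Type*} [Group G] [Finite G]

/-- The hypotheses on the pair. -/
structure LargePair (Q : Subgroup G) (z g : G) : Prop where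
  extra : IsExtraspecial 2 Q
  centralizer_eq : Subgroup.centralizer (Q : Set G) = (Subgroup.center Q).map Q.subtype
  normalizes : Subgroup.centralizer (((Subgroup.center Q).map Q.subtype : Subgroup G) : Set G) ≤
    Subgroup.normalizer (Q : Set G)
  center_eq : (Subgroup.center Q).map Q.subtype = Subgroup.zpowers z
  ord : orderOf z = 2
  card : 8 < Nat.card Q
  notMem : g ∉ Subgroup.centralizer ({z} : Set G)
  conj_mem : g * z * g⁻¹ ∈ Q

theorem LargePair.of_large {Q : Subgroup G} (hQ : IsLargeExtraspecial Q) {z : G}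
    (hz : (Subgroup.center Q).map Q.subtype = Subgroup.zpowers z) (hz2 : orderOf z = 2) {w : ℕ} (hw : 2 ≤ w)
    (hcard : Nat.card Q = 2 ^ (2 * w + 1)) {g : G} (hgH : g ∉ Subgroup.centralizer ({z} : Set G))
    (hgQ : g * z * g⁻¹ ∈ Q) : LargePair Q z g :=
  ⟨hQ.1, hQ.2.1, hQ.2.2.1, hz, hz2,
    by rw [hcard]; calc 8 < 2 ^ 5 := by norm_num
      _ ≤ _ := Nat.pow_le_pow_right (by norm_num) (by omega), hgH, hgQ⟩

variable {Q : Subgroup G} {z g : G}

/-- The conjugate `gQg⁻¹`. -/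
abbrev conjQ (Q : Subgroup G) (g : G) : Subgroup G := Q.map (MulAut.conj g).toMonoidHom

/-- `Q ∩ C(gzg⁻¹)`. -/
abbrev sideB (Q : Subgroup G) (z g : G) : Subgroup G := Q ⊓ Subgroup.centralizer ({g * z * g⁻¹} : Set G)

/-- `gQg⁻¹ ∩ C(z)`. -/
abbrev sideA (Q : Subgroup G) (z g : G) : Subgroup G := conjQ Q g ⊓ Subgroup.centralizer ({z} : Set G)

/-- The group `R`. -/
abbrev pairR (Q : Subgroup G) (z g : G) : Subgroup G := sideA Q z g ⊔ sideB Q z g

/-- The group `X`. -/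
abbrev pairX (Q : Subgroup G) (g : G) : Subgroup G := Q ⊔ conjQ Q g

/-- The common centraliser of the two involutions. -/
abbrev pairW (z g : G) : Subgroup G :=
  Subgroup.centralizer ({z} : Set G) ⊓ Subgroup.centralizer ({g * z * g⁻¹} : Set G)

namespace LargePair

theorem z_ne_one (h : LargePair Q z g) : z ≠ 1 := fun e => by
  have := h.ord; rw [e, orderOf_one] at this; omega

theorem z_sq (h : LargePair Q z g) : z * z = 1 := by rw [← pow_two, ← h.ord, pow_orderOf_eq_one]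

theorem z_center (h : LargePair Q z g) : z ∈ (Subgroup.center Q).map Q.subtype :=
  h.center_eq ▸ Subgroup.mem_zpowers z

theorem z_mem (h : LargePair Q z g) : z ∈ Q := centerImage_le Q h.z_center

theorem z_comm (h : LargePair Q z g) {x : G} (hx : x ∈ Q) : z * x = x * z :=
  ((mem_centerImage_iff Q z).1 h.z_center).2 x hx

theorem eq_or (h : LargePair Q z g) {x : G} (hx : x ∈ (Subgroup.center Q).map Q.subtype) : x = 1 ∨ x = z :=
  eq_one_or_eq_of_card_two (IsExtraspecial.card_centerImage h.extra) h.z_center h.z_ne_one hx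

theorem normalize (h : LargePair Q z g) {c x : G} (hc : c * z = z * c) (hx : x ∈ Q) : c * x * c⁻¹ ∈ Q := by
  refine ((Subgroup.mem_normalizer_iff.1 (h.normalizes ?_)) x).1 hx
  rw [Subgroup.mem_centralizer_iff]
  intro y hy
  rcases h.eq_or hy with rfl | rfl
  · simp
  · exact hc.symm

theorem commutator_cases (h : LargePair Q z g) {x y : G} (hx : x ∈ Q) (hy : y ∈ Q) :
    x * y * x⁻¹ * y⁻¹ = 1 ∨ x * y * x⁻¹ * y⁻¹ = z :=
  h.eq_or (IsExtraspecial.commutator_mem h.extra hx hy)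

theorem sq_cases (h : LargePair Q z g) {x : G} (hx : x ∈ Q) : x * x = 1 ∨ x * x = z := by
  rw [← pow_two]; exact h.eq_or (IsExtraspecial.sq_mem h.extra hx)

theorem s_ne (h : LargePair Q z g) : g * z * g⁻¹ ≠ z := fun e =>
  h.notMem (Subgroup.mem_centralizer_singleton_iff.2 (mul_inv_eq_iff_eq_mul.1 e))

theorem s_ne_one (h : LargePair Q z g) : g * z * g⁻¹ ≠ 1 := fun e => h.z_ne_one (conj_eq_one_iff.1 e)

theorem s_sq (h : LargePair Q z g) : g * z * g⁻¹ * (g * z * g⁻¹) = 1 := by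
  rw [show g * z * g⁻¹ * (g * z * g⁻¹) = g * (z * z) * g⁻¹ by group, h.z_sq]; group

theorem z_mem_conj (h : LargePair Q z g) : z ∈ conjQ Q g :=
  mem_conj_of_conj_mem h.extra h.centralizer_eq h.normalizes h.card h.z_center h.z_ne_one h.conj_mem h.s_ne

theorem s_mem_conj (h : LargePair Q z g) : g * z * g⁻¹ ∈ conjQ Q g := ⟨z, h.z_mem, rfl⟩

theorem zs_comm (h : LargePair Q z g) : z * (g * z * g⁻¹) = g * z * g⁻¹ * z := h.z_comm h.conj_mem

theorem s_comm_conj (h : LargePair Q z g) {x : G} (hx : x ∈ conjQ Q g) :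
    g * z * g⁻¹ * x = x * (g * z * g⁻¹) := by
  obtain ⟨a, ha, rfl⟩ := hx
  show g * z * g⁻¹ * (g * a * g⁻¹) = g * a * g⁻¹ * (g * z * g⁻¹)
  calc g * z * g⁻¹ * (g * a * g⁻¹) = g * (z * a) * g⁻¹ := by group
    _ = g * (a * z) * g⁻¹ := by rw [h.z_comm ha]
    _ = _ := by group

theorem normalize_conj (h : LargePair Q z g) {c x : G} (hc : c * (g * z * g⁻¹) = g * z * g⁻¹ * c)
    (hx : x ∈ conjQ Q g) : c * x * c⁻¹ ∈ conjQ Q g := by
  obtain ⟨a, ha, rfl⟩ := hx
  refine ⟨(g⁻¹ * c * g) * a * (g⁻¹ * c * g)⁻¹, h.normalize ?_ ha, ?_⟩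
  · calc g⁻¹ * c * g * z = g⁻¹ * (c * (g * z * g⁻¹)) * g := by group
      _ = g⁻¹ * (g * z * g⁻¹ * c) * g := by rw [hc]
      _ = _ := by group
  · simp only [MulEquiv.toMonoidHom_eq_coe, MonoidHom.coe_coe, MulAut.conj_apply]; group

theorem commutator_conj (h : LargePair Q z g) {x y : G} (hx : x ∈ conjQ Q g) (hy : y ∈ conjQ Q g) :
    x * y * x⁻¹ * y⁻¹ = 1 ∨ x * y * x⁻¹ * y⁻¹ = g * z * g⁻¹ := by
  obtain ⟨a, ha, rfl⟩ := hx
  obtain ⟨b, hb, rfl⟩ := hy
  simp only [MulEquiv.toMonoidHom_eq_coe, MonoidHom.coe_coe, MulAut.conj_apply]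
  rw [show g * a * g⁻¹ * (g * b * g⁻¹) * (g * a * g⁻¹)⁻¹ * (g * b * g⁻¹)⁻¹ =
    g * (a * b * a⁻¹ * b⁻¹) * g⁻¹ by group]
  rcases h.commutator_cases ha hb with e | e <;> rw [e]
  · left; group
  · right; rfl

theorem sq_conj (h : LargePair Q z g) {x : G} (hx : x ∈ conjQ Q g) :
    x * x = 1 ∨ x * x = g * z * g⁻¹ := by
  obtain ⟨a, ha, rfl⟩ := hx
  simp only [MulEquiv.toMonoidHom_eq_coe, MonoidHom.coe_coe, MulAut.conj_apply]
  rw [show g * a * g⁻¹ * (g * a * g⁻¹) = g * (a * a) * g⁻¹ by group]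
  rcases h.sq_cases ha with e | e <;> rw [e]
  · left; group
  · right; rfl

theorem mem_W {x : G} : x ∈ pairW z g ↔ x * z = z * x ∧ x * (g * z * g⁻¹) = g * z * g⁻¹ * x := by
  rw [Subgroup.mem_inf, Subgroup.mem_centralizer_singleton_iff, Subgroup.mem_centralizer_singleton_iff]

theorem mem_B {x : G} : x ∈ sideB Q z g ↔ x ∈ Q ∧ x * (g * z * g⁻¹) = g * z * g⁻¹ * x := by
  rw [Subgroup.mem_inf, Subgroup.mem_centralizer_singleton_iff]

theorem mem_A {x : G} : x ∈ sideA Q z g ↔ x ∈ conjQ Q g ∧ x * z = z * x := by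
  rw [Subgroup.mem_inf, Subgroup.mem_centralizer_singleton_iff]

theorem A_le_W (h : LargePair Q z g) : sideA Q z g ≤ pairW z g := fun _ hx =>
  mem_W.2 ⟨(mem_A.1 hx).2, (h.s_comm_conj (mem_A.1 hx).1).symm⟩

theorem B_le_W (h : LargePair Q z g) : sideB Q z g ≤ pairW z g := fun _ hx =>
  mem_W.2 ⟨(h.z_comm (mem_B.1 hx).1).symm, (mem_B.1 hx).2⟩

theorem R_le_W (h : LargePair Q z g) : pairR Q z g ≤ pairW z g := sup_le h.A_le_W h.B_le_W

theorem B_norm (h : LargePair Q z g) {c x : G} (hc : c ∈ pairW z g) (hx : x ∈ sideB Q z g) :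
    c * x * c⁻¹ ∈ sideB Q z g := by
  obtain ⟨hcz, -⟩ := mem_W.1 hc
  refine ⟨h.normalize hcz (mem_B.1 hx).1, ?_⟩
  exact mul_mem (mul_mem hc.2 hx.2) (Subgroup.inv_mem _ hc.2)

theorem A_norm (h : LargePair Q z g) {c x : G} (hc : c ∈ pairW z g) (hx : x ∈ sideA Q z g) :
    c * x * c⁻¹ ∈ sideA Q z g := by
  obtain ⟨-, hcs⟩ := mem_W.1 hc
  refine ⟨h.normalize_conj hcs (mem_A.1 hx).1, ?_⟩
  exact mul_mem (mul_mem hc.1 hx.2) (Subgroup.inv_mem _ hc.1)

theorem R_norm (h : LargePair Q z g) {c x : G} (hc : c ∈ pairW z g) (hx : x ∈ pairR Q z g) :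
    c * x * c⁻¹ ∈ pairR Q z g := by
  have hle : (pairR Q z g).map (MulAut.conj c).toMonoidHom ≤ pairR Q z g := by
    rw [Subgroup.map_sup]
    refine sup_le_sup ?_ ?_
    · rintro _ ⟨y, hy, rfl⟩; exact h.A_norm hc hy
    · rintro _ ⟨y, hy, rfl⟩; exact h.B_norm hc hy
  exact hle ⟨x, hx, rfl⟩

theorem A_le_normalizer_B (h : LargePair Q z g) :
    sideA Q z g ≤ Subgroup.normalizer (sideB Q z g : Set G) := by
  intro a ha
  rw [Subgroup.mem_normalizer_iff]
  refine fun x => ⟨fun hx => h.B_norm (h.A_le_W ha) hx, fun hx => ?_⟩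
  have := h.B_norm (inv_mem (h.A_le_W ha)) hx
  simpa [mul_assoc] using this

theorem mem_R_iff (h : LargePair Q z g) {x : G} :
    x ∈ pairR Q z g ↔ ∃ a ∈ sideA Q z g, ∃ b ∈ sideB Q z g, x = a * b := by
  constructor
  · intro hx
    rw [← SetLike.mem_coe, Subgroup.coe_mul_of_left_le_normalizer_right _ _ h.A_le_normalizer_B] at hx
    obtain ⟨a, ha, b, hb, rfl⟩ := hx
    exact ⟨a, ha, b, hb, rfl⟩
  · rintro ⟨a, ha, b, hb, rfl⟩
    exact mul_mem (Subgroup.mem_sup_left ha) (Subgroup.mem_sup_right hb)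

theorem exists_swap (h : LargePair Q z g) :
    ∃ q ∈ Q, q * (g * z * g⁻¹) * q⁻¹ = z * (g * z * g⁻¹) := by
  refine IsExtraspecial.exists_conj_eq_mul h.extra h.z_center h.z_ne_one h.conj_mem fun hc => ?_
  rcases h.eq_or hc with e | e
  · exact h.s_ne_one e
  · exact h.s_ne e

theorem exists_swap' (h : LargePair Q z g) :
    ∃ p ∈ conjQ Q g, p * z * p⁻¹ = g * z * g⁻¹ * z := by
  obtain ⟨a, ha, hae⟩ := h.z_mem_conj
  have hae' : g * a * g⁻¹ = z := hae
  obtain ⟨q, hq, hqe⟩ := IsExtraspecial.exists_conj_eq_mul h.extra h.z_center h.z_ne_one ha (fun hc => by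
    rcases h.eq_or hc with e | e
    · rw [e] at hae'; exact h.z_ne_one (by rw [← hae']; group)
    · rw [e] at hae'; exact h.s_ne hae')
  refine ⟨g * q * g⁻¹, ⟨q, hq, rfl⟩, ?_⟩
  conv_lhs => rw [← hae']
  rw [show g * q * g⁻¹ * (g * a * g⁻¹) * (g * q * g⁻¹)⁻¹ = g * (q * a * q⁻¹) * g⁻¹ by group, hqe]
  conv_rhs => arg 2; rw [← hae']
  group

/-- `Q = B ∪ qB` for a swapping element `q`. -/
theorem mem_B_or (h : LargePair Q z g) {q : G} (hq : q ∈ Q)
    (hqs : q * (g * z * g⁻¹) * q⁻¹ = z * (g * z * g⁻¹)) {x : G} (hx : x ∈ Q) :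
    x ∈ sideB Q z g ∨ q⁻¹ * x ∈ sideB Q z g := by
  rcases IsExtraspecial.conj_eq_or h.extra h.z_center h.z_ne_one h.conj_mem hx with e | e
  · exact Or.inl (mem_B.2 ⟨hx, mul_inv_eq_iff_eq_mul.1 e⟩)
  · right
    refine mem_B.2 ⟨mul_mem (inv_mem hq) hx, ?_⟩
    calc q⁻¹ * x * (g * z * g⁻¹) = q⁻¹ * (x * (g * z * g⁻¹) * x⁻¹) * x := by group
      _ = q⁻¹ * (q * (g * z * g⁻¹) * q⁻¹) * x := by rw [e, hqs]
      _ = _ := by group

/-- `gQg⁻¹ = A ∪ pA` for a swapping element `p`. -/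
theorem mem_A_or (h : LargePair Q z g) {p : G} (hp : p ∈ conjQ Q g)
    (hps : p * z * p⁻¹ = g * z * g⁻¹ * z) {x : G} (hx : x ∈ conjQ Q g) :
    x ∈ sideA Q z g ∨ p⁻¹ * x ∈ sideA Q z g := by
  rcases h.commutator_conj hx h.z_mem_conj with e | e
  · exact Or.inl (mem_A.2 ⟨hx, mul_inv_eq_iff_eq_mul.1 (mul_inv_eq_one.1 e)⟩)
  · right
    refine mem_A.2 ⟨mul_mem (inv_mem hp) hx, ?_⟩
    have e' : x * z * x⁻¹ = g * z * g⁻¹ * z := mul_inv_eq_iff_eq_mul.1 e
    calc p⁻¹ * x * z = p⁻¹ * (x * z * x⁻¹) * x := by group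
      _ = p⁻¹ * (p * z * p⁻¹) * x := by rw [e', hps]
      _ = _ := by group

theorem q_norm_W (h : LargePair Q z g) {q c : G} (hq : q ∈ Q)
    (hqs : q * (g * z * g⁻¹) * q⁻¹ = g * z * g⁻¹ ∨ q * (g * z * g⁻¹) * q⁻¹ = z * (g * z * g⁻¹))
    (hc : c ∈ pairW z g) : q * c * q⁻¹ ∈ pairW z g := by
  obtain ⟨hcz, hcs⟩ := mem_W.1 hc
  have hq2 : q⁻¹ * z * q = z := by rw [mul_assoc, h.z_comm hq]; group
  have hqs' : q⁻¹ * (g * z * g⁻¹) * q = g * z * g⁻¹ ∨ q⁻¹ * (g * z * g⁻¹) * q = z * (g * z * g⁻¹) := by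
    rcases hqs with e | e
    · left; conv_lhs => rw [← e]
      group
    · right
      have e2 : g * z * g⁻¹ = z * (q * (g * z * g⁻¹) * q⁻¹) := by rw [e, ← mul_assoc z z, h.z_sq, one_mul]
      conv_lhs => rw [e2]
      calc q⁻¹ * (z * (q * (g * z * g⁻¹) * q⁻¹)) * q = (q⁻¹ * z * q) * (g * z * g⁻¹) := by group
        _ = _ := by rw [hq2]
  have key : ∀ a : G, c * (q⁻¹ * a * q) = q⁻¹ * a * q * c → q * c * q⁻¹ * a = a * (q * c * q⁻¹) := by
    intro a ha
    calc q * c * q⁻¹ * a = q * (c * (q⁻¹ * a * q)) * q⁻¹ := by group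
      _ = q * (q⁻¹ * a * q * c) * q⁻¹ := by rw [ha]
      _ = _ := by group
  refine mem_W.2 ⟨key _ (by rw [hq2]; exact hcz), key _ ?_⟩
  rcases hqs' with e | e <;> rw [e]
  · exact hcs
  · rw [← mul_assoc c z, hcz, mul_assoc z c, hcs, ← mul_assoc z]

theorem Q_norm_R (h : LargePair Q z g) {q x : G} (hq : q ∈ Q) (hx : x ∈ pairR Q z g) :
    q * x * q⁻¹ ∈ pairR Q z g := by
  obtain ⟨a, ha, b, hb, rfl⟩ := h.mem_R_iff.1 hx
  obtain ⟨haQ, haz⟩ := mem_A.1 ha
  have hqs := IsExtraspecial.conj_eq_or h.extra h.z_center h.z_ne_one h.conj_mem hq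
  have h1 : q * a * q⁻¹ * a⁻¹ ∈ sideB Q z g := by
    refine ⟨?_, mul_mem (h.q_norm_W hq hqs (h.A_le_W ha)).2 (Subgroup.inv_mem _ (h.A_le_W ha).2)⟩
    rw [show q * a * q⁻¹ * a⁻¹ = q * (a * q⁻¹ * a⁻¹) by group]
    exact mul_mem hq (h.normalize haz (inv_mem hq))
  have h2 : q * b * q⁻¹ ∈ sideB Q z g :=
    ⟨mul_mem (mul_mem hq (mem_B.1 hb).1) (Subgroup.inv_mem _ hq), (h.q_norm_W hq hqs (h.B_le_W hb)).2⟩
  rw [show q * (a * b) * q⁻¹ = (q * a * q⁻¹ * a⁻¹) * a * (q * b * q⁻¹) by group]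
  exact mul_mem (mul_mem (Subgroup.mem_sup_right h1) (Subgroup.mem_sup_left ha)) (Subgroup.mem_sup_right h2)

/-- Exchanging the roles of the two conjugates. -/
theorem flip (h : LargePair Q z g) : LargePair (conjQ Q g) (g * z * g⁻¹) g⁻¹ := by
  have hcenter : (Subgroup.center (conjQ Q g)).map (conjQ Q g).subtype = Subgroup.zpowers (g * z * g⁻¹) := by
    have e : (MulAut.conj g).toMonoidHom z = g * z * g⁻¹ := rfl
    rw [← e, ← MonoidHom.map_zpowers, ← h.center_eq]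
    ext x
    rw [mem_centerImage_iff, Subgroup.mem_map]
    constructor
    · rintro ⟨⟨a, ha, rfl⟩, hc⟩
      refine ⟨a, (mem_centerImage_iff Q a).2 ⟨ha, fun y hy => ?_⟩, rfl⟩
      have := hc _ ⟨y, hy, rfl⟩
      rw [← map_mul, ← map_mul] at this
      exact (MulAut.conj g).injective this
    · rintro ⟨a, ha, rfl⟩
      obtain ⟨haQ, hac⟩ := (mem_centerImage_iff Q a).1 ha
      exact ⟨⟨a, haQ, rfl⟩, by rintro _ ⟨y, hy, rfl⟩; rw [← map_mul, ← map_mul, hac y hy]⟩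
  have he : ↥Q ≃* ↥(conjQ Q g) := Subgroup.equivMapOfInjective _ _ (MulAut.conj g).injective
  have hce : (Subgroup.center ↥Q).map he.toMonoidHom = Subgroup.center ↥(conjQ Q g) := map_center_equiv he
  refine ⟨⟨⟨h.extra.1.1.map _, ?_, ?_⟩, ?_⟩, ?_, ?_, hcenter, ?_, ?_, ?_, ?_⟩
  · have := congrArg (Subgroup.map he.toMonoidHom) h.extra.1.2.1
    rw [map_frattini_equiv, map_center_equiv] at this
    exact this
  · have := congrArg (Subgroup.map he.toMonoidHom) h.extra.1.2.2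
    rw [map_commutator_equiv, map_center_equiv] at this
    exact this
  · rw [← hce, Subgroup.card_map_of_injective he.injective]; exact h.extra.2
  · rw [hcenter]
    ext x
    rw [Subgroup.mem_centralizer_iff]
    constructor
    · intro hx
      have h1 : g⁻¹ * x * g ∈ Subgroup.centralizer (Q : Set G) := Subgroup.mem_centralizer_iff.2 fun y hy => by
        have := hx (g * y * g⁻¹) ⟨y, hy, rfl⟩
        calc y * (g⁻¹ * x * g) = g⁻¹ * (g * y * g⁻¹ * x) * g := by group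
          _ = g⁻¹ * (x * (g * y * g⁻¹)) * g := by rw [this]
          _ = _ := by group
      rw [h.centralizer_eq] at h1
      rw [show g * z * g⁻¹ = (MulAut.conj g).toMonoidHom z from rfl, ← MonoidHom.map_zpowers, ← h.center_eq]
      exact ⟨g⁻¹ * x * g, h1, by
        simp only [MulEquiv.toMonoidHom_eq_coe, MonoidHom.coe_coe, MulAut.conj_apply]; group⟩
    · intro hx y hy
      rw [← hcenter, mem_centerImage_iff] at hx
      exact (hx.2 y hy).symm
  · intro c hc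
    rw [hcenter, Subgroup.mem_centralizer_iff] at hc
    have hcs := (hc _ (Subgroup.mem_zpowers _)).symm
    rw [Subgroup.mem_normalizer_iff]
    refine fun x => ⟨fun hx => h.normalize_conj hcs hx, fun hx => ?_⟩
    have hcs' : c⁻¹ * (g * z * g⁻¹) = g * z * g⁻¹ * c⁻¹ := (Commute.inv_left hcs).eq
    have := h.normalize_conj hcs' hx
    simpa [mul_assoc] using this
  · rw [show g * z * g⁻¹ = (MulAut.conj g) z from rfl, MulEquiv.orderOf_eq]; exact h.ord
  · rw [Subgroup.card_map_of_injective (MulAut.conj g).injective]; exact h.card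
  · intro hm
    have := Subgroup.mem_centralizer_singleton_iff.1 hm
    apply h.s_ne
    calc g * z * g⁻¹ = g * z * g⁻¹ * g⁻¹ * g := by group
      _ = g⁻¹ * (g * z * g⁻¹) * g := by rw [this]
      _ = z := by group
  · rw [show g⁻¹ * (g * z * g⁻¹) * g⁻¹⁻¹ = z by group]; exact h.z_mem_conj

theorem conjQ_inv (Q : Subgroup G) (g : G) : conjQ (conjQ Q g) g⁻¹ = Q := by
  rw [conjQ, conjQ, Subgroup.map_map]
  convert Q.map_id using 2
  ext x
  simp only [MulEquiv.toMonoidHom_eq_coe, MonoidHom.coe_comp, MonoidHom.coe_coe, Function.comp,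
    MulAut.conj_apply, MonoidHom.id_apply]
  group

theorem flip_R (Q : Subgroup G) (z g : G) : pairR (conjQ Q g) (g * z * g⁻¹) g⁻¹ = pairR Q z g := by
  rw [pairR, pairR, sideA, sideB, conjQ_inv, show g⁻¹ * (g * z * g⁻¹) * g⁻¹⁻¹ = z by group, sup_comm]

theorem conj_norm_R (h : LargePair Q z g) {q x : G} (hq : q ∈ conjQ Q g) (hx : x ∈ pairR Q z g) :
    q * x * q⁻¹ ∈ pairR Q z g := by
  rw [← flip_R Q z g] at hx ⊢
  exact h.flip.Q_norm_R hq hx

theorem X_norm_R (h : LargePair Q z g) {q x : G} (hq : q ∈ pairX Q g) (hx : x ∈ pairR Q z g) :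
    q * x * q⁻¹ ∈ pairR Q z g := by
  have key : pairX Q g ≤ Subgroup.normalizer (pairR Q z g : Set G) := by
    refine sup_le (fun a ha => ?_) (fun a ha => ?_) <;> rw [Subgroup.mem_normalizer_iff] <;>
      refine fun y => ⟨fun hy => ?_, fun hy => ?_⟩
    · exact h.Q_norm_R ha hy
    · simpa [mul_assoc] using h.Q_norm_R (inv_mem ha) hy
    · exact h.conj_norm_R ha hy
    · simpa [mul_assoc] using h.conj_norm_R (inv_mem ha) hy
  exact ((Subgroup.mem_normalizer_iff.1 (key hq)) x).1 hx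

theorem R_le_X : pairR Q z g ≤ pairX Q g :=
  sup_le (inf_le_left.trans le_sup_right) (inf_le_left.trans le_sup_left)

/-- The braid relation modulo `R`. -/
theorem braid (h : LargePair Q z g) {q p : G} (hq : q ∈ Q)
    (hqs : q * (g * z * g⁻¹) * q⁻¹ = z * (g * z * g⁻¹)) (hp : p ∈ conjQ Q g)
    (hps : p * z * p⁻¹ = g * z * g⁻¹ * z) :
    (q * p * q⁻¹)⁻¹ * (p * q * p⁻¹) ∈ pairR Q z g := by
  -- both conjugates of the extraspecial groups coincide
  have hc : ((q * g)⁻¹ * p) * z = z * ((q * g)⁻¹ * p) := by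
    have e1 : p * z * p⁻¹ = (q * g) * z * (q * g)⁻¹ := by
      rw [hps, show q * g * z * (q * g)⁻¹ = q * (g * z * g⁻¹) * q⁻¹ by group, hqs, h.zs_comm]
    calc (q * g)⁻¹ * p * z = (q * g)⁻¹ * (p * z * p⁻¹) * p := by group
      _ = (q * g)⁻¹ * ((q * g) * z * (q * g)⁻¹) * p := by rw [e1]
      _ = _ := by group
  have h1 := h.normalize hc hq
  have hm : q⁻¹ * (p * q * p⁻¹) * q ∈ conjQ Q g :=
    ⟨_, h1, by simp only [MulEquiv.toMonoidHom_eq_coe, MonoidHom.coe_coe, MulAut.conj_apply]; group⟩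
  have hmem : p⁻¹ * (q⁻¹ * (p * q * p⁻¹) * q) ∈ sideA Q z g := by
    rcases h.mem_A_or hp hps hm with e | e
    · exfalso
      obtain ⟨-, e⟩ := mem_A.1 e
      have hz1 : q⁻¹ * z * q = z := by rw [mul_assoc, h.z_comm hq]; group
      have : (p * q * p⁻¹) * z = z * (p * q * p⁻¹) := by
        calc p * q * p⁻¹ * z = q * (q⁻¹ * (p * q * p⁻¹) * q * (q⁻¹ * z * q)) * q⁻¹ := by group
          _ = q * (z * (q⁻¹ * (p * q * p⁻¹) * q)) * q⁻¹ := by rw [hz1, e]
          _ = q * z * q⁻¹ * (p * q * p⁻¹) := by group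
          _ = _ := by rw [← h.z_comm hq, mul_inv_cancel_right]
      -- conjugating back by `p`
      have hpz : p⁻¹ * z * p = g * z * g⁻¹ * z := by
        have hpinv : g * z * g⁻¹ * p = p * (g * z * g⁻¹) := h.s_comm_conj hp
        have hps2 : z = g * z * g⁻¹ * (p * z * p⁻¹) := by rw [hps, ← mul_assoc, h.s_sq, one_mul]
        calc p⁻¹ * z * p = p⁻¹ * (g * z * g⁻¹ * (p * z * p⁻¹)) * p := by rw [← hps2]
          _ = p⁻¹ * (g * z * g⁻¹ * p) * z := by group
          _ = _ := by rw [hpinv]; group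
      have h2 : q * (g * z * g⁻¹ * z) * q⁻¹ = g * z * g⁻¹ * z := by
        calc q * (g * z * g⁻¹ * z) * q⁻¹ = p⁻¹ * (p * q * p⁻¹ * z) * (p * q⁻¹) := by rw [← hpz]; group
          _ = p⁻¹ * (z * (p * q * p⁻¹)) * (p * q⁻¹) := by rw [this]
          _ = p⁻¹ * z * p := by group
          _ = _ := hpz
      have h3 : q * (g * z * g⁻¹) * q⁻¹ = g * z * g⁻¹ := by
        rw [show q * (g * z * g⁻¹ * z) * q⁻¹ = q * (g * z * g⁻¹) * (z * q⁻¹) by group,
          h.z_comm (inv_mem hq), ← mul_assoc] at h2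
        exact mul_right_cancel h2
      rw [hqs] at h3
      exact h.z_ne_one (mul_eq_right.1 h3)
    · exact e
  have := h.Q_norm_R hq (Subgroup.mem_sup_left hmem : _ ∈ pairR Q z g)
  convert this using 1
  group

/-- `X` is the union of six cosets of `R`. -/
theorem exists_rep (h : LargePair Q z g) {q p : G} (hq : q ∈ Q)
    (hqs : q * (g * z * g⁻¹) * q⁻¹ = z * (g * z * g⁻¹)) (hp : p ∈ conjQ Q g)
    (hps : p * z * p⁻¹ = g * z * g⁻¹ * z) {x : G} (hx : x ∈ pairX Q g) :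
    ∃ r ∈ pairR Q z g, x = r ∨ x = r * q ∨ x = r * p ∨ x = r * (q * p) ∨ x = r * (p * q) ∨
      x = r * (q * p * q) := by
  set R := pairR Q z g with hR
  have hn : ∀ {a r : G}, a ∈ pairX Q g → r ∈ R → a * r * a⁻¹ ∈ R := fun ha hr => h.X_norm_R ha hr
  have hqX : q ∈ pairX Q g := Subgroup.mem_sup_left hq
  have hpX : p ∈ pairX Q g := Subgroup.mem_sup_right hp
  have hzR : z ∈ R := Subgroup.mem_sup_right (mem_B.2 ⟨h.z_mem, h.zs_comm⟩)
  have hsR : g * z * g⁻¹ ∈ R := Subgroup.mem_sup_left (mem_A.2 ⟨h.s_mem_conj, h.zs_comm.symm⟩)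
  have hqq : q * q ∈ R := by rcases h.sq_cases hq with e | e <;> rw [e]; exacts [one_mem _, hzR]
  have hpp : p * p ∈ R := by rcases h.sq_conj hp with e | e <;> rw [e]; exacts [one_mem _, hsR]
  have hb : q * p * q * (p * q * p)⁻¹ ∈ R := by
    have h1 := hn (mul_mem (mul_mem hqX hpX) (inv_mem hqX)) (h.braid hq hqs hp hps)
    have h2 : (p * q * p⁻¹) * (q * p * q⁻¹)⁻¹ ∈ R := by convert h1 using 1; group
    have h3 : q * p * q * (q * p * q⁻¹)⁻¹ ∈ R := by
      have := hn (mul_mem hqX hpX) hqq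
      convert this using 1; group
    have h4 : p * q * p⁻¹ * (p * q * p)⁻¹ ∈ R := by
      have := hn (mul_mem hpX hqX) (inv_mem hpp)
      convert this using 1; group
    have := mul_mem (mul_mem h3 (inv_mem h2)) h4
    convert this using 1; group
  let S : Set G := {x | ∃ r ∈ R, x = r ∨ x = r * q ∨ x = r * p ∨ x = r * (q * p) ∨ x = r * (p * q) ∨
    x = r * (q * p * q)}
  have hSR : ∀ r ∈ R, ∀ y ∈ S, r * y ∈ S := by
    rintro r hr y ⟨r', hr', e⟩
    refine ⟨r * r', mul_mem hr hr', ?_⟩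
    rcases e with e | e | e | e | e | e <;> simp [e, mul_assoc]
  have hSq : ∀ y ∈ S, y * q ∈ S := by
    rintro y ⟨r, hr, e⟩
    rcases e with e | e | e | e | e | e <;> subst y
    · exact ⟨r, hr, Or.inr (Or.inl rfl)⟩
    · exact ⟨r * (q * q), mul_mem hr hqq, Or.inl (by group)⟩
    · exact ⟨r, hr, Or.inr (Or.inr (Or.inr (Or.inr (Or.inl (by group)))))⟩
    · exact ⟨r, hr, Or.inr (Or.inr (Or.inr (Or.inr (Or.inr (by group)))))⟩
    · exact ⟨r * (p * (q * q) * p⁻¹), mul_mem hr (hn hpX hqq), Or.inr (Or.inr (Or.inl (by group)))⟩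
    · exact ⟨r * ((q * p) * (q * q) * (q * p)⁻¹), mul_mem hr (hn (mul_mem hqX hpX) hqq),
        Or.inr (Or.inr (Or.inr (Or.inl (by group))))⟩
  have hSp : ∀ y ∈ S, y * p ∈ S := by
    rintro y ⟨r, hr, e⟩
    rcases e with e | e | e | e | e | e <;> subst y
    · exact ⟨r, hr, Or.inr (Or.inr (Or.inl rfl))⟩
    · exact ⟨r, hr, Or.inr (Or.inr (Or.inr (Or.inl (by group))))⟩
    · exact ⟨r * (p * p), mul_mem hr hpp, Or.inl (by group)⟩
    · exact ⟨r * (q * (p * p) * q⁻¹), mul_mem hr (hn hqX hpp), Or.inr (Or.inl (by group))⟩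
    · exact ⟨r * (q * p * q * (p * q * p)⁻¹)⁻¹, mul_mem hr (inv_mem hb),
        Or.inr (Or.inr (Or.inr (Or.inr (Or.inr (by group)))))⟩
    · refine ⟨r * (q * p * q * (p * q * p)⁻¹) * ((p * q) * (p * p) * (p * q)⁻¹),
        mul_mem (mul_mem hr hb) (hn (mul_mem hpX hqX) hpp), Or.inr (Or.inr (Or.inr (Or.inr (Or.inl (by group)))))⟩
  have hSr : ∀ y ∈ S, ∀ r ∈ R, y * r ∈ S := by
    intro y hy r hr
    have hyX : y ∈ pairX Q g := by
      obtain ⟨r', hr', e⟩ := hy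
      have := R_le_X hr'
      rcases e with e | e | e | e | e | e <;> subst y
      · exact this
      · exact mul_mem this hqX
      · exact mul_mem this hpX
      · exact mul_mem this (mul_mem hqX hpX)
      · exact mul_mem this (mul_mem hpX hqX)
      · exact mul_mem this (mul_mem (mul_mem hqX hpX) hqX)
    rw [show y * r = (y * r * y⁻¹) * y by group]
    exact hSR _ (hn hyX hr) y hy
  have hgen : ∀ u : G, u ∈ Q ∨ u ∈ conjQ Q g → ∀ y ∈ S, y * u ∈ S := by
    rintro u (hu | hu) y hy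
    · rcases h.mem_B_or hq hqs hu with e | e
      · exact hSr y hy u (Subgroup.mem_sup_right e)
      · rw [show y * u = y * q * (q⁻¹ * u) by group]
        exact hSr _ (hSq y hy) _ (Subgroup.mem_sup_right e)
    · rcases h.mem_A_or hp hps hu with e | e
      · exact hSr y hy u (Subgroup.mem_sup_left e)
      · rw [show y * u = y * p * (p⁻¹ * u) by group]
        exact hSr _ (hSp y hy) _ (Subgroup.mem_sup_left e)
  rw [pairX, Subgroup.sup_eq_closure] at hx
  show x ∈ S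
  suffices ∀ y ∈ S, y * x ∈ S by simpa using this 1 ⟨1, one_mem _, Or.inl rfl⟩
  induction hx using Subgroup.closure_induction'' with
  | mem u hu => exact hgen u hu
  | inv_mem u hu => exact hgen u⁻¹ (hu.imp inv_mem inv_mem)
  | one => intro y hy; rwa [mul_one]
  | mul u v _ _ hu hv => intro y hy; rw [← mul_assoc]; exact hv _ (hu y hy)

end LargePair

end CfsgLib.Fischer2
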