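import Cfsg.Agent.Lib.Fischer2.LargePairQuotient

/-!
The centre of `R` is the four group `⟨z, gzg⁻¹⟩`.
-/

set_option autoImplicit false

namespace CfsgLib.Fischer2

open Cfsg Subgroup

variable {G : Type*} [Group G] [Finite G] {Q : Subgroup G} {z g : G}

/-- An element of `R` commuting with all of `R`. -/
def IsCentralR (Q : Subgroup G) (z g c : G) : Prop :=
  c ∈ pairR Q z g ∧ ∀ y ∈ pairR Q z g, c * y = y * c

namespace LargePair

theorem perp_B (h : LargePair Q z g) {u : G} (hu : u ∈ Q) (hc : ∀ b ∈ sideB Q z g, u * b = b * u) :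
    u ∈ pairV z g := by
  obtain ⟨q, hq, hqs⟩ := h.exists_swap
  have hzV : z ∈ pairV z g := Subgroup.subset_closure (Or.inl rfl)
  have hsV : g * z * g⁻¹ ∈ pairV z g := Subgroup.subset_closure (Or.inr rfl)
  have hfin : ∀ v ∈ Q, (∀ b ∈ sideB Q z g, v * b = b * v) → v * q = q * v → v ∈ pairV z g := by
    intro v hv hvb hvq
    have hcen : v ∈ (Subgroup.center Q).map Q.subtype := (mem_centerImage_iff Q v).2 ⟨hv, fun y hy => by
      rcases h.mem_B_or hq hqs hy with e | e
      · exact hvb y e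
      · calc v * y = (v * q) * (q⁻¹ * y) := by group
          _ = (q * v) * (q⁻¹ * y) := by rw [hvq]
          _ = q * (v * (q⁻¹ * y)) := by group
          _ = q * ((q⁻¹ * y) * v) := by rw [hvb _ e]
          _ = _ := by group⟩
    rcases h.eq_or hcen with e | e <;> rw [e]
    exacts [one_mem _, hzV]
  rcases h.commutator_cases hu hq with e | e
  · exact hfin u hu hc (mul_inv_eq_iff_eq_mul.1 (mul_inv_eq_one.1 e))
  · have hus : u * (g * z * g⁻¹) ∈ pairV z g := by
      refine hfin _ (mul_mem hu h.conj_mem) (fun b hb => ?_) ?_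
      · rw [mul_assoc, ← (mem_B.1 hb).2, ← mul_assoc, hc b hb, mul_assoc]
      · have h1 : u * q = z * (q * u) := by
          have := mul_inv_eq_iff_eq_mul.1 (mul_inv_eq_iff_eq_mul.1 e)
          rw [this, mul_assoc]
        have h2 : q * (g * z * g⁻¹) = z * (g * z * g⁻¹) * q := mul_inv_eq_iff_eq_mul.1 hqs
        have h3 : g * z * g⁻¹ * q = z * (q * (g * z * g⁻¹)) := by
          rw [h2, ← mul_assoc, ← mul_assoc, h.z_sq, one_mul]
        calc u * (g * z * g⁻¹) * q = u * (g * z * g⁻¹ * q) := mul_assoc _ _ _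
          _ = (u * z) * q * (g * z * g⁻¹) := by rw [h3]; group
          _ = (z * u) * q * (g * z * g⁻¹) := by rw [h.z_comm hu]
          _ = z * (u * q) * (g * z * g⁻¹) := by group
          _ = z * z * q * u * (g * z * g⁻¹) := by rw [h1]; group
          _ = _ := by rw [h.z_sq]; group
    have := mul_mem hus (inv_mem hsV)
    rwa [mul_inv_cancel_right] at this

theorem commutator_Q_central (h : LargePair Q z g) {c q : G} (hc : IsCentralR Q z g c) (hq : q ∈ Q) :
    q * c * q⁻¹ * c⁻¹ ∈ pairV z g := by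
  have hcz := (mem_W.1 (h.R_le_W hc.1)).1
  have hd : ∀ q' ∈ Q, c * q' * c⁻¹ * q'⁻¹ ∈ pairV z g := by
    intro q' hq'
    refine h.perp_B (mul_mem (h.normalize hcz hq') (inv_mem hq')) fun b hb => ?_
    have hm : q'⁻¹ * b * q' ∈ pairR Q z g := by
      simpa using h.Q_norm_R (inv_mem hq') (Subgroup.mem_sup_right hb : b ∈ pairR Q z g)
    have h1 := hc.2 _ hm
    have h2 : c⁻¹ * (q'⁻¹ * b * q') = q'⁻¹ * b * q' * c⁻¹ := (Commute.inv_left h1).eq
    have h3 := hc.2 b (Subgroup.mem_sup_right hb)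
    calc c * q' * c⁻¹ * q'⁻¹ * b = c * q' * (c⁻¹ * (q'⁻¹ * b * q')) * q'⁻¹ := by group
      _ = c * q' * (q'⁻¹ * b * q' * c⁻¹) * q'⁻¹ := by rw [h2]
      _ = (c * b) * (q' * c⁻¹ * q'⁻¹) := by group
      _ = (b * c) * (q' * c⁻¹ * q'⁻¹) := by rw [h3]
      _ = _ := by group
  have := h.V_norm_X (Subgroup.mem_sup_left hq) (hd q⁻¹ (inv_mem hq))
  convert this using 1; group

theorem isCentral_flip (c : G) : IsCentralR (conjQ Q g) (g * z * g⁻¹) g⁻¹ c ↔ IsCentralR Q z g c := by
  rw [IsCentralR, IsCentralR, flip_R]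

omit [Finite G] in
theorem flip_V (z g : G) : pairV (g * z * g⁻¹) g⁻¹ = pairV z g := by
  rw [pairV, pairV, show g⁻¹ * (g * z * g⁻¹) * g⁻¹⁻¹ = z by group, Set.pair_comm]

theorem commutator_X_central (h : LargePair Q z g) {c x : G} (hc : IsCentralR Q z g c) (hx : x ∈ pairX Q g) :
    x * c * x⁻¹ * c⁻¹ ∈ pairV z g := by
  have key : ∀ u, u ∈ Q ∨ u ∈ conjQ Q g → u * c * u⁻¹ * c⁻¹ ∈ pairV z g := by
    rintro u (hu | hu)
    · exact h.commutator_Q_central hc hu
    · rw [← flip_V]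
      exact h.flip.commutator_Q_central ((isCentral_flip c).2 hc) hu
  have hx' := hx
  rw [pairX, Subgroup.sup_eq_closure] at hx
  revert hx'
  induction hx using Subgroup.closure_induction'' with
  | mem u hu => exact fun _ => key u hu
  | inv_mem u hu => exact fun _ => key _ (hu.imp inv_mem inv_mem)
  | one => intro _; simp
  | mul u v hu' hv' hu hv =>
    intro _
    rw [← Subgroup.sup_eq_closure] at hu' hv'
    rw [show u * v * c * (u * v)⁻¹ * c⁻¹ = u * (v * c * v⁻¹ * c⁻¹) * u⁻¹ * (u * c * u⁻¹ * c⁻¹) by group]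
    exact mul_mem (h.V_norm_X hu' (hv hv')) (hu hu')

theorem conj_central (h : LargePair Q z g) {c x : G} (hc : IsCentralR Q z g c) (hx : x ∈ pairX Q g) :
    IsCentralR Q z g (x * c * x⁻¹) := by
  refine ⟨h.X_norm_R hx hc.1, fun y hy => ?_⟩
  have h1 : x⁻¹ * y * x ∈ pairR Q z g := by simpa using h.X_norm_R (inv_mem hx) hy
  calc x * c * x⁻¹ * y = x * (c * (x⁻¹ * y * x)) * x⁻¹ := by group
    _ = x * (x⁻¹ * y * x * c) * x⁻¹ := by rw [hc.2 _ h1]
    _ = _ := by group

theorem central_sq (h : LargePair Q z g) {c : G} (hc : IsCentralR Q z g c) : c * c = 1 := by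
  have key : ∀ x ∈ pairX Q g, x * (c * c) * x⁻¹ = c * c := by
    intro x hx
    have hv := h.commutator_X_central hc hx
    set v := x * c * x⁻¹ * c⁻¹ with hvdef
    have hvv : v * v = 1 := h.E_sq (h.V_le_E hv)
    have hvc := h.V_comm_R hc.1 hv
    calc x * (c * c) * x⁻¹ = (v * c) * (v * c) := by rw [hvdef]; group
      _ = (v * c) * (c * v) := by rw [hvc]
      _ = v * ((c * c) * v) := by group
      _ = v * (v * (c * c)) := by rw [h.V_comm_R (mul_mem hc.1 hc.1) hv]
      _ = c * c := by rw [← mul_assoc, hvv, one_mul]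
  have h1 : c * c ∈ Subgroup.centralizer (Q : Set G) :=
    Subgroup.mem_centralizer_iff.2 fun y hy => mul_inv_eq_iff_eq_mul.1 (key y (Subgroup.mem_sup_left hy))
  have h2 : c * c ∈ Subgroup.centralizer (conjQ Q g : Set G) :=
    Subgroup.mem_centralizer_iff.2 fun y hy => mul_inv_eq_iff_eq_mul.1 (key y (Subgroup.mem_sup_right hy))
  rw [h.centralizer_eq] at h1
  rw [h.flip.centralizer_eq] at h2
  rcases h.eq_or h1 with e | e
  · exact e
  · rcases h.flip.eq_or h2 with e' | e'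
    · exact e'
    · exact absurd (e'.symm.trans e) h.s_ne

theorem center_R (h : LargePair Q z g) {c : G} (hc : IsCentralR Q z g c) : c ∈ pairV z g := by
  obtain ⟨q, p, hq, hp, hqs, hps, eq, ep⟩ := h.exists_gens
  set θ : pairX Q g := q * p with hθ
  have hθX : (θ : G) ∈ pairX Q g := θ.2
  set c1 := (θ : G) * c * (θ : G)⁻¹ with hc1
  set c2 := (θ : G) * c1 * (θ : G)⁻¹ with hc2
  have hC1 := h.conj_central hc hθX
  have hC2 := h.conj_central hC1 hθX
  rw [← hc1] at hC1 hC2
  rw [← hc2] at hC2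
  set c0 := c * c1 * c2 with hc0
  have hC0 : IsCentralR Q z g c0 := ⟨mul_mem (mul_mem hc.1 hC1.1) hC2.1, fun y hy =>
    ((Commute.mul_left (Commute.mul_left (hc.2 y hy) (hC1.2 y hy)) (hC2.2 y hy))).eq⟩
  have hθ3 : (θ : G) * θ * θ ∈ pairR Q z g := by
    refine (h.actX_eq_one_iff (θ * θ * θ)).1 ?_
    rw [map_mul, map_mul, hθ, map_mul, eq, ep]; decide
  have hfix : (θ : G) * c0 * (θ : G)⁻¹ = c0 := by
    have h3 : (θ : G) * c2 * (θ : G)⁻¹ = c := by
      rw [hc2, hc1, show (θ : G) * ((θ : G) * ((θ : G) * c * (θ : G)⁻¹) * (θ : G)⁻¹) * (θ : G)⁻¹ =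
        ((θ : G) * θ * θ) * c * ((θ : G) * θ * θ)⁻¹ by group, ← hc.2 _ hθ3, mul_inv_cancel_right]
    calc (θ : G) * c0 * (θ : G)⁻¹ = ((θ : G) * c * (θ : G)⁻¹) * ((θ : G) * c1 * (θ : G)⁻¹) *
          ((θ : G) * c2 * (θ : G)⁻¹) := by rw [hc0]; group
      _ = c1 * c2 * c := by rw [h3]
      _ = c * (c1 * c2) := (hc.2 _ (mul_mem hC1.1 hC2.1)).symm
      _ = c0 := (mul_assoc c c1 c2).symm
  -- congruent to `c`
  have hcong : c0 * c⁻¹ ∈ pairV z g := by
    have hv1 := h.commutator_X_central hc hθX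
    rw [← hc1] at hv1
    have hv2 := h.commutator_X_central hC1 hθX
    rw [← hc2] at hv2
    have hcinv : c⁻¹ = c := inv_eq_of_mul_eq_one_right (h.central_sq hc)
    have hconj : ∀ v ∈ pairV z g, c * v * c⁻¹ ∈ pairV z g := fun v hv => by
      rw [← h.V_comm_R hc.1 hv, mul_inv_cancel_right]; exact hv
    have : c0 * c⁻¹ = (c * (c1 * c⁻¹) * c⁻¹) * (c * c) * (c2 * c1⁻¹) * (c1 * c⁻¹) := by
      rw [hc0]; group
    rw [this, h.central_sq hc, mul_one]
    exact mul_mem (mul_mem (hconj _ hv1) hv2) hv1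
  -- `c0` centralises `Q`
  have hc0Q : ∀ y ∈ Q, c0 * y = y * c0 := by
    have hqc : (q : G) * c0 * (q : G)⁻¹ = c0 := by
      set w := (q : G) * c0 * (q : G)⁻¹ * c0⁻¹ with hw
      have hwV : w ∈ pairV z g := h.commutator_X_central hC0 q.2
      have hr : (p : G) * q * ((q : G) * p) ∈ pairR Q z g := by
        refine (h.actX_eq_one_iff (p * q * (q * p))).1 ?_
        rw [map_mul, map_mul, map_mul, eq, ep]; decide
      have hpq : (p : G) * q * c0 * ((p : G) * q)⁻¹ = c0 := by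
        have h1 : (θ : G)⁻¹ * c0 * θ = c0 := by
          conv_lhs => rw [← hfix]
          group
        have e : (p : G) * q = (p : G) * q * ((q : G) * p) * (θ : G)⁻¹ := by
          rw [hθ]; push_cast; group
        rw [e]
        calc _ = ((p : G) * q * ((q : G) * p)) * ((θ : G)⁻¹ * c0 * θ) * ((p : G) * q * ((q : G) * p))⁻¹ := by group
          _ = _ := by rw [h1, ← hC0.2 _ hr, mul_inv_cancel_right]
      have hθw : (θ : G) * w * (θ : G)⁻¹ = w := by
        have hθq : (θ : G) * ((q : G) * c0 * (q : G)⁻¹) * (θ : G)⁻¹ = (q : G) * c0 * (q : G)⁻¹ := by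
          calc (θ : G) * ((q : G) * c0 * (q : G)⁻¹) * (θ : G)⁻¹
              = (q : G) * ((p : G) * q * c0 * ((p : G) * q)⁻¹) * (q : G)⁻¹ := by rw [hθ]; push_cast; group
            _ = _ := by rw [hpq]
        calc (θ : G) * w * (θ : G)⁻¹ = ((θ : G) * ((q : G) * c0 * (q : G)⁻¹) * (θ : G)⁻¹) *
              ((θ : G) * c0 * (θ : G)⁻¹)⁻¹ := by rw [hw]; group
          _ = w := by rw [hθq, hfix]
      rcases h.mem_V_iff.1 hwV with e | ⟨i, e⟩
      · exact mul_inv_eq_one.1 e
      · exfalso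
        have h1 := h.actHom_spec ⟨θ, h.X_le_normalizer hθX⟩ i
        rw [← h.actX_apply hθX] at h1
        rw [e] at hθw
        have h2 := h.pts_injective (h1.symm.trans hθw)
        change h.actX θ i = i at h2
        rw [hθ, map_mul, eq, ep] at h2
        exact (by decide : ∀ j : Fin 3, ((Equiv.swap (1 : Fin 3) 2 * Equiv.swap 0 2 : Equiv.Perm (Fin 3))) j ≠ j) i h2
    intro y hy
    rcases h.mem_B_or hq hqs hy with e | e
    · exact hC0.2 y (Subgroup.mem_sup_right e)
    · have hq' : (q : G) * c0 = c0 * q := mul_inv_eq_iff_eq_mul.1 hqc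
      calc c0 * y = (c0 * q) * ((q : G)⁻¹ * y) := by group
        _ = ((q : G) * c0) * ((q : G)⁻¹ * y) := by rw [hq']
        _ = (q : G) * (c0 * ((q : G)⁻¹ * y)) := by group
        _ = (q : G) * (((q : G)⁻¹ * y) * c0) := by rw [hC0.2 _ (Subgroup.mem_sup_right e)]
        _ = _ := by group
  have hc0V : c0 ∈ pairV z g := by
    have : c0 ∈ Subgroup.centralizer (Q : Set G) :=
      Subgroup.mem_centralizer_iff.2 fun y hy => (hc0Q y hy).symm
    rw [h.centralizer_eq] at this
    rcases h.eq_or this with e | e <;> rw [e]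
    exacts [one_mem _, Subgroup.subset_closure (Or.inl rfl)]
  have := mul_mem (inv_mem hcong) hc0V
  rwa [mul_inv_rev, inv_inv, inv_mul_cancel_right] at this

theorem centralR_of_mem_V (h : LargePair Q z g) {c : G} (hc : c ∈ pairV z g) : IsCentralR Q z g c :=
  ⟨h.V_le_R hc, fun _ hy => h.V_comm_R hy hc⟩

theorem centerImage_R (h : LargePair Q z g) :
    (Subgroup.center ↥(pairR Q z g)).map (pairR Q z g).subtype = pairV z g := by
  ext c
  rw [mem_centerImage_iff]
  exact ⟨fun hc => h.center_R hc, fun hc => h.centralR_of_mem_V hc⟩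

theorem E_le_Z2 (h : LargePair Q z g) {y : G} (hy : y ∈ Q ⊓ conjQ Q g) :
    ⟨y, h.E_le_R hy⟩ ∈ Subgroup.upperCentralSeries ↥(pairR Q z g) 2 := by
  rw [Subgroup.mem_upperCentralSeries_succ_iff]
  intro r
  rw [Subgroup.upperCentralSeries_one, Subgroup.mem_center_iff]
  intro u
  apply Subtype.ext
  have hv : y * r * y⁻¹ * (r : G)⁻¹ ∈ pairV z g := by
    have := inv_mem (h.commutator_X_E (R_le_X r.2) hy)
    convert this using 1; group
  exact (h.V_comm_R u.2 hv).symm

theorem upperCentral_three (h : LargePair Q z g) :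
    Subgroup.upperCentralSeries ↥(pairR Q z g) 3 = ⊤ := by
  refine eq_top_iff.2 fun x _ => ?_
  rw [Subgroup.mem_upperCentralSeries_succ_iff]
  intro y
  exact h.E_le_Z2 (h.R_mod_E x.2 y.2).1

end LargePair

end CfsgLib.Fischer2
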