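import Cfsg.Agent.Lib.Fischer2.LargePair
import Cfsg.Agent.Lib.Cores.PCore

/-!
The action of `N(⟨z, gzg⁻¹⟩)` on the three involutions, and the centre of `R`.
-/

set_option autoImplicit false

namespace CfsgLib.Fischer2

open Cfsg Subgroup

variable {G : Type*} [Group G] [Finite G] {Q : Subgroup G} {z g : G}

/-- The four group. -/
abbrev pairV (z g : G) : Subgroup G := Subgroup.closure ({z, g * z * g⁻¹} : Set G)

/-- Its three involutions. -/
def pts (z g : G) : Fin 3 → G := ![z, g * z * g⁻¹, z * (g * z * g⁻¹)]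

omit [Finite G] in
theorem pts_zero (z g : G) : pts z g 0 = z := rfl

omit [Finite G] in
theorem pts_one (z g : G) : pts z g 1 = g * z * g⁻¹ := rfl

omit [Finite G] in
theorem pts_two (z g : G) : pts z g 2 = z * (g * z * g⁻¹) := rfl

namespace LargePair

theorem pts_ne_one (h : LargePair Q z g) (i : Fin 3) : pts z g i ≠ 1 := by
  fin_cases i
  · exact h.z_ne_one
  · exact h.s_ne_one
  · intro e
    change z * (g * z * g⁻¹) = 1 at e
    exact h.s_ne ((mul_eq_one_iff_eq_inv'.1 e).trans (inv_eq_of_mul_eq_one_right h.z_sq))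

theorem pts_injective (h : LargePair Q z g) : Function.Injective (pts z g) := by
  have h01 : z ≠ g * z * g⁻¹ := h.s_ne.symm
  have h02 : z ≠ z * (g * z * g⁻¹) := fun e => h.s_ne_one (mul_eq_left.1 e.symm)
  have h12 : g * z * g⁻¹ ≠ z * (g * z * g⁻¹) := fun e => h.z_ne_one (mul_eq_right.1 e.symm)
  intro i j e
  fin_cases i <;> fin_cases j <;>
    first
      | rfl
      | exact absurd e h01
      | exact absurd e h01.symm
      | exact absurd e h02
      | exact absurd e h02.symm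
      | exact absurd e h12
      | exact absurd e h12.symm

theorem mem_V_iff (h : LargePair Q z g) {x : G} : x ∈ pairV z g ↔ x = 1 ∨ ∃ i, x = pts z g i := by
  have hc := h.zs_comm
  constructor
  · intro hx
    have key : ∀ a b : ℕ, a < 2 → b < 2 → z ^ a * (g * z * g⁻¹) ^ b = 1 ∨
        ∃ i, z ^ a * (g * z * g⁻¹) ^ b = pts z g i := by
      intro a b ha hb
      interval_cases a <;> interval_cases b
      · exact Or.inl (by simp)
      · exact Or.inr ⟨1, by rw [pts_one, pow_zero, one_mul, pow_one]⟩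
      · exact Or.inr ⟨0, by rw [pts_zero, pow_zero, mul_one, pow_one]⟩
      · exact Or.inr ⟨2, by rw [pts_two, pow_one, pow_one]⟩
    obtain ⟨a, b, rfl⟩ : ∃ a b : ℕ, x = z ^ a * (g * z * g⁻¹) ^ b := by
      induction hx using Subgroup.closure_induction'' with
      | mem u hu =>
        rcases hu with rfl | hu
        · exact ⟨1, 0, by simp⟩
        · exact ⟨0, 1, by rw [show u = _ from hu]; simp⟩
      | inv_mem u hu =>
        rcases hu with rfl | hu
        · exact ⟨1, 0, by rw [inv_eq_of_mul_eq_one_right h.z_sq]; simp⟩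
        · exact ⟨0, 1, by rw [show u = _ from hu, inv_eq_of_mul_eq_one_right h.s_sq]; simp⟩
      | one => exact ⟨0, 0, by simp⟩
      | mul u v _ _ hu hv =>
        obtain ⟨a, b, rfl⟩ := hu
        obtain ⟨a', b', rfl⟩ := hv
        refine ⟨a + a', b + b', ?_⟩
        rw [pow_add, pow_add, mul_assoc, ← mul_assoc ((g * z * g⁻¹) ^ b),
          (Commute.pow_pow (show Commute (g * z * g⁻¹) z from hc.symm) b a').eq]
        group
    have e1 : ∀ n : ℕ, z ^ n = z ^ (n % 2) := fun n => by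
      rw [← h.ord, pow_mod_orderOf]
    have e2 : ∀ n : ℕ, (g * z * g⁻¹) ^ n = (g * z * g⁻¹) ^ (n % 2) := fun n => by
      rw [conj_pow, conj_pow, ← e1]
    rw [e1, e2]
    exact key _ _ (Nat.mod_lt _ two_pos) (Nat.mod_lt _ two_pos)
  · rintro (rfl | ⟨i, rfl⟩)
    · exact one_mem _
    · have hz : z ∈ pairV z g := Subgroup.subset_closure (Or.inl rfl)
      have hs : g * z * g⁻¹ ∈ pairV z g := Subgroup.subset_closure (Or.inr rfl)
      fin_cases i
      · exact hz
      · exact hs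
      · exact mul_mem hz hs

theorem centralizer_V : Subgroup.centralizer (pairV z g : Set G) = pairW z g := by
  rw [Subgroup.centralizer_closure]
  ext x
  rw [mem_W, Subgroup.mem_centralizer_iff]
  constructor
  · exact fun hx => ⟨(hx z (Or.inl rfl)).symm, (hx _ (Or.inr rfl)).symm⟩
  · rintro ⟨h1, h2⟩ y (rfl | hy)
    · exact h1.symm
    · rw [show y = _ from hy]; exact h2.symm

theorem pts_mem (h : LargePair Q z g) (i : Fin 3) : pts z g i ∈ pairV z g := h.mem_V_iff.2 (Or.inr ⟨i, rfl⟩)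

theorem exists_perm (h : LargePair Q z g) (y : Subgroup.normalizer (pairV z g : Set G)) :
    ∃ σ : Equiv.Perm (Fin 3), ∀ i, (y : G) * pts z g i * (y : G)⁻¹ = pts z g (σ i) := by
  have hy : ∀ i, ∃ j, (y : G) * pts z g i * (y : G)⁻¹ = pts z g j := fun i => by
    rcases h.mem_V_iff.1 (((Subgroup.mem_normalizer_iff.1 y.2) _).1 (h.pts_mem i)) with e | e
    · exact absurd (conj_eq_one_iff.1 e) (h.pts_ne_one i)
    · exact e
  choose f hf using hy
  have hinj : Function.Injective f := fun i j e => by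
    apply h.pts_injective
    have := (hf i).trans ((congrArg (pts z g) e).trans (hf j).symm)
    exact mul_left_cancel (mul_right_cancel this)
  exact ⟨Equiv.ofBijective f (Finite.injective_iff_bijective.1 hinj), hf⟩

/-- The action on the three involutions. -/
noncomputable def actHom (h : LargePair Q z g) :
    Subgroup.normalizer (pairV z g : Set G) →* Equiv.Perm (Fin 3) :=
  MonoidHom.mk' (fun y => (h.exists_perm y).choose) fun a b => by
    refine Equiv.ext fun i => h.pts_injective ?_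
    rw [← (h.exists_perm (a * b)).choose_spec i, Equiv.Perm.mul_apply,
      ← (h.exists_perm a).choose_spec, ← (h.exists_perm b).choose_spec]
    simp [mul_assoc]

theorem actHom_spec (h : LargePair Q z g) (y : Subgroup.normalizer (pairV z g : Set G)) (i : Fin 3) :
    (y : G) * pts z g i * (y : G)⁻¹ = pts z g (h.actHom y i) := (h.exists_perm y).choose_spec i

theorem actHom_eq_one_iff (h : LargePair Q z g) (y : Subgroup.normalizer (pairV z g : Set G)) :
    h.actHom y = 1 ↔ (y : G) ∈ pairW z g := by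
  rw [mem_W]
  constructor
  · intro e
    have h0 := h.actHom_spec y 0
    have h1 := h.actHom_spec y 1
    rw [e, Equiv.Perm.one_apply, pts_zero] at h0
    rw [e, Equiv.Perm.one_apply, pts_one] at h1
    exact ⟨mul_inv_eq_iff_eq_mul.1 h0, mul_inv_eq_iff_eq_mul.1 h1⟩
  · rintro ⟨h0, h1⟩
    refine Equiv.ext fun i => h.pts_injective ?_
    rw [← h.actHom_spec, Equiv.Perm.one_apply, mul_inv_eq_iff_eq_mul]
    fin_cases i
    · exact h0
    · exact h1
    · show (y : G) * (z * (g * z * g⁻¹)) = z * (g * z * g⁻¹) * y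
      rw [← mul_assoc (y : G) z, h0, mul_assoc z (y : G), h1, ← mul_assoc z]

theorem le_normalizer_of (h : LargePair Q z g) {y : G}
    (h0 : ∃ i, y * z * y⁻¹ = pts z g i) (h1 : ∃ i, y * (g * z * g⁻¹) * y⁻¹ = pts z g i) :
    y ∈ Subgroup.normalizer (pairV z g : Set G) := by
  rw [Subgroup.mem_normalizer_iff]
  have hle : (pairV z g).map (MulAut.conj y).toMonoidHom ≤ pairV z g := by
    rw [Subgroup.map_le_iff_le_comap, Subgroup.closure_le]
    rintro x (rfl | hx)
    · obtain ⟨i, hi⟩ := h0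
      show (MulAut.conj y) x ∈ pairV x g
      rw [MulAut.conj_apply, hi]; exact h.pts_mem i
    · obtain ⟨i, hi⟩ := h1
      show (MulAut.conj y) x ∈ pairV z g
      rw [show x = _ from hx, MulAut.conj_apply, hi]; exact h.pts_mem i
  have heq : (pairV z g).map (MulAut.conj y).toMonoidHom = pairV z g :=
    Subgroup.eq_of_le_of_card_ge hle (le_of_eq (Subgroup.card_map_of_injective (MulAut.conj y).injective).symm)
  intro x
  constructor
  · exact fun hx => hle ⟨x, hx, rfl⟩
  · intro hx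
    rw [← heq] at hx
    obtain ⟨w, hw, hwe⟩ := hx
    rwa [← (MulAut.conj y).injective hwe]

theorem Q_le_normalizer (h : LargePair Q z g) : Q ≤ Subgroup.normalizer (pairV z g : Set G) := by
  refine fun y hy => h.le_normalizer_of ⟨0, by rw [← h.z_comm hy, mul_inv_cancel_right]; rfl⟩ ?_
  rcases IsExtraspecial.conj_eq_or h.extra h.z_center h.z_ne_one h.conj_mem hy with e | e
  · exact ⟨1, e⟩
  · exact ⟨2, e⟩

theorem conjQ_le_normalizer (h : LargePair Q z g) : conjQ Q g ≤ Subgroup.normalizer (pairV z g : Set G) := by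
  refine fun y hy => h.le_normalizer_of ?_ ⟨1, by rw [← h.s_comm_conj hy, mul_inv_cancel_right]; rfl⟩
  rcases h.commutator_conj hy h.z_mem_conj with e | e
  · exact ⟨0, mul_inv_eq_one.1 e⟩
  · exact ⟨2, by rw [mul_inv_eq_iff_eq_mul.1 e, pts_two, h.zs_comm]⟩

theorem X_le_normalizer (h : LargePair Q z g) : pairX Q g ≤ Subgroup.normalizer (pairV z g : Set G) :=
  sup_le h.Q_le_normalizer h.conjQ_le_normalizer

theorem W_le_normalizer : pairW z g ≤ Subgroup.normalizer (pairV z g : Set G) := by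
  rw [← centralizer_V]; exact Subgroup.centralizer_le_normalizer _

/-- The restriction of the action to `X`. -/
noncomputable def actX (h : LargePair Q z g) : pairX Q g →* Equiv.Perm (Fin 3) :=
  h.actHom.comp (Subgroup.inclusion h.X_le_normalizer)

theorem actX_apply (h : LargePair Q z g) {x : G} (hx : x ∈ pairX Q g) :
    h.actX ⟨x, hx⟩ = h.actHom ⟨x, h.X_le_normalizer hx⟩ := rfl

theorem exists_gens (h : LargePair Q z g) :
    ∃ q p : pairX Q g, (q : G) ∈ Q ∧ (p : G) ∈ conjQ Q g ∧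
      (q : G) * (g * z * g⁻¹) * (q : G)⁻¹ = z * (g * z * g⁻¹) ∧
      (p : G) * z * (p : G)⁻¹ = g * z * g⁻¹ * z ∧
      h.actX q = Equiv.swap 1 2 ∧ h.actX p = Equiv.swap 0 2 := by
  obtain ⟨q, hq, hqs⟩ := h.exists_swap
  obtain ⟨p, hp, hps⟩ := h.exists_swap'
  refine ⟨⟨q, Subgroup.mem_sup_left hq⟩, ⟨p, Subgroup.mem_sup_right hp⟩, hq, hp, hqs, hps, ?_, ?_⟩
  · refine Equiv.ext fun i => h.pts_injective ?_
    rw [h.actX_apply, ← h.actHom_spec]
    show q * pts z g i * q⁻¹ = _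
    have hz : q * z * q⁻¹ = z := by rw [← h.z_comm hq, mul_inv_cancel_right]
    fin_cases i
    · show q * z * q⁻¹ = pts z g ((Equiv.swap 1 2) 0)
      rw [hz, show (Equiv.swap (1 : Fin 3) 2) 0 = 0 by decide]; rfl
    · show q * (g * z * g⁻¹) * q⁻¹ = pts z g ((Equiv.swap 1 2) 1)
      rw [hqs, show (Equiv.swap (1 : Fin 3) 2) 1 = 2 by decide]; rfl
    · show q * (z * (g * z * g⁻¹)) * q⁻¹ = pts z g ((Equiv.swap 1 2) 2)
      rw [show q * (z * (g * z * g⁻¹)) * q⁻¹ = (q * z * q⁻¹) * (q * (g * z * g⁻¹) * q⁻¹) by group, hz, hqs,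
        ← mul_assoc, h.z_sq, one_mul, show (Equiv.swap (1 : Fin 3) 2) 2 = 1 by decide]; rfl
  · refine Equiv.ext fun i => h.pts_injective ?_
    rw [h.actX_apply, ← h.actHom_spec]
    show p * pts z g i * p⁻¹ = _
    have hs : p * (g * z * g⁻¹) * p⁻¹ = g * z * g⁻¹ := by rw [← h.s_comm_conj hp, mul_inv_cancel_right]
    fin_cases i
    · show p * z * p⁻¹ = pts z g ((Equiv.swap 0 2) 0)
      rw [hps, show (Equiv.swap (0 : Fin 3) 2) 0 = 2 by decide, pts_two, h.zs_comm]
    · show p * (g * z * g⁻¹) * p⁻¹ = pts z g ((Equiv.swap 0 2) 1)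
      rw [hs, show (Equiv.swap (0 : Fin 3) 2) 1 = 1 by decide]; rfl
    · show p * (z * (g * z * g⁻¹)) * p⁻¹ = pts z g ((Equiv.swap 0 2) 2)
      rw [show p * (z * (g * z * g⁻¹)) * p⁻¹ = (p * z * p⁻¹) * (p * (g * z * g⁻¹) * p⁻¹) by group, hps, hs,
        mul_assoc, h.zs_comm, ← mul_assoc, h.s_sq, one_mul, show (Equiv.swap (0 : Fin 3) 2) 2 = 0 by decide]; rfl

theorem perm_three_cases : ∀ σ : Equiv.Perm (Fin 3), σ = 1 ∨ σ = Equiv.swap 1 2 ∨ σ = Equiv.swap 0 2 ∨
    σ = Equiv.swap 1 2 * Equiv.swap 0 2 ∨ σ = Equiv.swap 0 2 * Equiv.swap 1 2 ∨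
    σ = Equiv.swap 1 2 * Equiv.swap 0 2 * Equiv.swap 1 2 := by decide

theorem actX_surjective (h : LargePair Q z g) : Function.Surjective h.actX := by
  obtain ⟨q, p, -, -, -, -, hq, hp⟩ := h.exists_gens
  intro σ
  rcases perm_three_cases σ with r | r | r | r | r | r <;> subst r
  · exact ⟨1, map_one _⟩
  · exact ⟨q, hq⟩
  · exact ⟨p, hp⟩
  · exact ⟨q * p, by rw [map_mul, hq, hp]⟩
  · exact ⟨p * q, by rw [map_mul, hq, hp]⟩
  · exact ⟨q * p * q, by rw [map_mul, map_mul, hq, hp]⟩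

theorem actX_eq_one_iff (h : LargePair Q z g) (x : pairX Q g) : h.actX x = 1 ↔ (x : G) ∈ pairR Q z g := by
  obtain ⟨x, hx⟩ := x
  constructor
  · intro e
    obtain ⟨q, p, hq, hp, hqs, hps, eq, ep⟩ := h.exists_gens
    obtain ⟨r, hr, hcase⟩ := h.exists_rep hq hqs hp hps hx
    have e0 : h.actX ⟨r, R_le_X hr⟩ = 1 := by
      rw [h.actX_apply, h.actHom_eq_one_iff]; exact h.R_le_W hr
    have key : ∀ u : pairX Q g, x = r * u → h.actX u ≠ 1 → False := fun u hu hne => by
      rw [show (⟨x, hx⟩ : pairX Q g) = ⟨r, R_le_X hr⟩ * u from Subtype.ext hu, map_mul, e0, one_mul] at e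
      exact hne e
    rcases hcase with c | c | c | c | c | c
    · show x ∈ _; rw [c]; exact hr
    · exact (key q c (by rw [eq]; decide)).elim
    · exact (key p c (by rw [ep]; decide)).elim
    · exact (key (q * p) c (by rw [map_mul, eq, ep]; decide)).elim
    · exact (key (p * q) c (by rw [map_mul, eq, ep]; decide)).elim
    · exact (key (q * p * q) c (by rw [map_mul, map_mul, eq, ep]; decide)).elim
  · intro hr
    rw [h.actX_apply, h.actHom_eq_one_iff]; exact h.R_le_W hr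

theorem X_inf_W (h : LargePair Q z g) : pairX Q g ⊓ pairW z g = pairR Q z g := by
  refine le_antisymm (fun x ⟨hx, hw⟩ => ?_) (le_inf R_le_X h.R_le_W)
  exact (h.actX_eq_one_iff ⟨x, hx⟩).1 (by rw [h.actX_apply, h.actHom_eq_one_iff]; exact hw)

theorem W_norm_X (h : LargePair Q z g) {c x : G} (hc : c ∈ pairW z g) (hx : x ∈ pairX Q g) :
    c * x * c⁻¹ ∈ pairX Q g := by
  obtain ⟨hcz, hcs⟩ := mem_W.1 hc
  have hle : (pairX Q g).map (MulAut.conj c).toMonoidHom ≤ pairX Q g := by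
    rw [Subgroup.map_sup]
    refine sup_le_sup ?_ ?_
    · rintro _ ⟨y, hy, rfl⟩; exact h.normalize hcz hy
    · rintro _ ⟨y, hy, rfl⟩; exact h.normalize_conj hcs hy
  exact hle ⟨x, hx, rfl⟩

theorem normalizer_V (h : LargePair Q z g) :
    Subgroup.normalizer (pairV z g : Set G) = pairX Q g ⊔ pairW z g := by
  refine le_antisymm (fun y hy => ?_) (sup_le h.X_le_normalizer W_le_normalizer)
  obtain ⟨x, hx⟩ := h.actX_surjective (h.actHom ⟨y, hy⟩)
  have h1 : h.actHom ((⟨(x : G), h.X_le_normalizer x.2⟩ : Subgroup.normalizer (pairV z g : Set G))⁻¹ * ⟨y, hy⟩) = 1 := by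
    rw [map_mul, map_inv, ← hx, h.actX_apply x.2, inv_mul_cancel]
  have h2 := (h.actHom_eq_one_iff _).1 h1
  rw [show y = (x : G) * ((x : G)⁻¹ * y) by group]
  exact mul_mem (Subgroup.mem_sup_left x.2) (Subgroup.mem_sup_right h2)

theorem normalizer_norm_X (h : LargePair Q z g) {y x : G} (hy : y ∈ Subgroup.normalizer (pairV z g : Set G))
    (hx : x ∈ pairX Q g) : y * x * y⁻¹ ∈ pairX Q g := by
  have hle : Subgroup.normalizer (pairV z g : Set G) ≤ Subgroup.normalizer (pairX Q g : Set G) := by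
    rw [h.normalizer_V]
    refine sup_le Subgroup.le_normalizer fun c hc => Subgroup.mem_normalizer_iff.2 fun u =>
      ⟨fun hu => h.W_norm_X hc hu, fun hu => ?_⟩
    simpa [mul_assoc] using h.W_norm_X (inv_mem hc) hu
  exact ((Subgroup.mem_normalizer_iff.1 (hle hy)) x).1 hx

theorem commutator_X_W (h : LargePair Q z g) {x c : G} (hx : x ∈ pairX Q g) (hc : c ∈ pairW z g) :
    x * c * x⁻¹ * c⁻¹ ∈ pairR Q z g := by
  rw [← h.X_inf_W]
  constructor
  · rw [show x * c * x⁻¹ * c⁻¹ = x * (c * x⁻¹ * c⁻¹) by group]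
    exact mul_mem hx (h.W_norm_X hc (inv_mem hx))
  · refine (h.actHom_eq_one_iff ((⟨x, h.X_le_normalizer hx⟩ : Subgroup.normalizer (pairV z g : Set G)) *
      ⟨c, W_le_normalizer hc⟩ * (⟨x, h.X_le_normalizer hx⟩)⁻¹ * (⟨c, W_le_normalizer hc⟩)⁻¹)).1 ?_
    rw [map_mul, map_mul, map_mul, map_inv, map_inv, (h.actHom_eq_one_iff ⟨c, W_le_normalizer hc⟩).2 hc,
      mul_one, mul_inv_cancel, inv_one, mul_one]

theorem isPGroup_R (h : LargePair Q z g) : IsPGroup 2 (pairR Q z g) :=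
  ((h.extra.1.1.map _).to_le inf_le_left).to_sup_of_normal_right' (h.extra.1.1.to_le inf_le_left)
    h.A_le_normalizer_B

theorem R_normal (h : LargePair Q z g) : ((pairR Q z g).subgroupOf (pairX Q g)).Normal :=
  ⟨fun r hr x => Subgroup.mem_subgroupOf.2 (h.X_norm_R x.2 (Subgroup.mem_subgroupOf.1 hr))⟩

theorem R_eq_pCore (h : LargePair Q z g) :
    pairR Q z g = (pCore 2 ↥(pairX Q g)).map (pairX Q g).subtype := by
  have : Fact (Nat.Prime 2) := ⟨Nat.prime_two⟩
  apply le_antisymm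
  · have := h.R_normal
    intro r hr
    exact ⟨⟨r, R_le_X hr⟩, CfsgLib.Cores.le_pCore (p := 2)
      (h.isPGroup_R.of_equiv (Subgroup.subgroupOfEquivOfLe R_le_X).symm) (Subgroup.mem_subgroupOf.2 hr), rfl⟩
  · rintro _ ⟨x, hx, rfl⟩
    refine (h.actX_eq_one_iff x).1 ?_
    have hM : IsPGroup 2 ((pCore 2 ↥(pairX Q g)).map h.actX) := (CfsgLib.Cores.isPGroup_pCore 2 _).map _
    have hMn : ((pCore 2 ↥(pairX Q g)).map h.actX).Normal :=
      Subgroup.Normal.map inferInstance _ h.actX_surjective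
    set M := (pCore 2 ↥(pairX Q g)).map h.actX with hMdef
    have h2 : Nat.card M ≤ 2 := by
      obtain ⟨k, hk⟩ := hM.exists_card_eq
      have hd : Nat.card M ∣ 6 := by
        have := Subgroup.card_subgroup_dvd_card M
        rwa [Nat.card_eq_fintype_card (α := Equiv.Perm (Fin 3)), Fintype.card_perm, Fintype.card_fin,
          show Nat.factorial 3 = 6 from rfl] at this
      rcases k with _ | _ | k
      · simp [hk]
      · simp [hk]
      · exfalso
        have : 4 ∣ 6 := Dvd.dvd.trans ⟨2 ^ k, by rw [hk]; ring⟩ hd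
        omega
    by_contra hne
    have hσ : h.actX x ∈ M := ⟨x, hx, rfl⟩
    have hcen : ∀ τ, τ * h.actX x = h.actX x * τ := by
      intro τ
      have hcard2 : Nat.card M = 2 := by
        have : Nat.card M ≠ 1 := fun e => hne (Subgroup.mem_bot.1 (Subgroup.card_eq_one.1 e ▸ hσ))
        have : 0 < Nat.card M := Nat.card_pos
        omega
      rcases eq_one_or_eq_of_card_two hcard2 hσ hne (hMn.conj_mem _ hσ τ) with e | e
      · exact absurd (conj_eq_one_iff.1 e) hne
      · exact mul_inv_eq_iff_eq_mul.1 e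
    exact hne ((by decide : ∀ σ : Equiv.Perm (Fin 3), (∀ τ, τ * σ = σ * τ) → σ = 1) _ hcen)

theorem quotient_iso (h : LargePair Q z g) :
    ∃ hn : ((pairR Q z g).subgroupOf (pairX Q g)).Normal,
      Nonempty (↥(pairX Q g) ⧸ (pairR Q z g).subgroupOf (pairX Q g) ≃* Equiv.Perm (Fin 3)) := by
  have hk : h.actX.ker = (pairR Q z g).subgroupOf (pairX Q g) := by
    ext x
    rw [MonoidHom.mem_ker, h.actX_eq_one_iff, Subgroup.mem_subgroupOf]
  refine ⟨h.R_normal, ⟨?_⟩⟩
  have := h.R_normal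
  exact (QuotientGroup.quotientMulEquivOfEq hk.symm).trans
    (QuotientGroup.quotientKerEquivOfSurjective h.actX h.actX_surjective)

/-- `E = A ∩ B`. -/
theorem A_inf_B (h : LargePair Q z g) : sideA Q z g ⊓ sideB Q z g = Q ⊓ conjQ Q g := by
  ext x
  constructor
  · rintro ⟨ha, hb⟩; exact ⟨hb.1, ha.1⟩
  · rintro ⟨hQ, hQ'⟩
    exact ⟨mem_A.2 ⟨hQ', (h.z_comm hQ).symm⟩, mem_B.2 ⟨hQ, (h.s_comm_conj hQ').symm⟩⟩

theorem E_comm (h : LargePair Q z g) {x y : G} (hx : x ∈ Q ⊓ conjQ Q g) (hy : y ∈ Q ⊓ conjQ Q g) :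
    x * y = y * x := by
  rcases h.commutator_cases hx.1 hy.1 with e | e
  · exact mul_inv_eq_iff_eq_mul.1 (mul_inv_eq_one.1 e)
  · rcases h.commutator_conj hx.2 hy.2 with e' | e'
    · exact mul_inv_eq_iff_eq_mul.1 (mul_inv_eq_one.1 e')
    · exact absurd (e'.symm.trans e) h.s_ne

theorem E_sq (h : LargePair Q z g) {x : G} (hx : x ∈ Q ⊓ conjQ Q g) : x * x = 1 := by
  rcases h.sq_cases hx.1 with e | e
  · exact e
  · rcases h.sq_conj hx.2 with e' | e'
    · exact e'
    · exact absurd (e'.symm.trans e) h.s_ne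

theorem V_le_E (h : LargePair Q z g) : pairV z g ≤ Q ⊓ conjQ Q g := by
  rw [Subgroup.closure_le]
  rintro x (rfl | hx)
  · exact ⟨h.z_mem, h.z_mem_conj⟩
  · rw [show x = _ from hx]; exact ⟨h.conj_mem, h.s_mem_conj⟩

theorem E_le_R (h : LargePair Q z g) : Q ⊓ conjQ Q g ≤ pairR Q z g := by
  rw [← h.A_inf_B]; exact inf_le_left.trans le_sup_left

theorem V_le_R (h : LargePair Q z g) : pairV z g ≤ pairR Q z g := h.V_le_E.trans h.E_le_R

theorem V_norm_X (h : LargePair Q z g) {x v : G} (hx : x ∈ pairX Q g) (hv : v ∈ pairV z g) :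
    x * v * x⁻¹ ∈ pairV z g := ((Subgroup.mem_normalizer_iff.1 (h.X_le_normalizer hx)) v).1 hv

theorem V_comm_R (h : LargePair Q z g) {x v : G} (hx : x ∈ pairR Q z g) (hv : v ∈ pairV z g) :
    v * x = x * v := by
  have := h.R_le_W hx
  rw [← centralizer_V] at this
  exact Subgroup.mem_centralizer_iff.1 this v hv

theorem commutator_X_E (h : LargePair Q z g) {x y : G} (hx : x ∈ pairX Q g) (hy : y ∈ Q ⊓ conjQ Q g) :
    x * y * x⁻¹ * y⁻¹ ∈ pairV z g := by
  have key : ∀ u, u ∈ Q ∨ u ∈ conjQ Q g → u * y * u⁻¹ * y⁻¹ ∈ pairV z g := by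
    rintro u (hu | hu)
    · rcases h.commutator_cases hu hy.1 with e | e <;> rw [e]
      exacts [one_mem _, Subgroup.subset_closure (Or.inl rfl)]
    · rcases h.commutator_conj hu hy.2 with e | e <;> rw [e]
      exacts [one_mem _, Subgroup.subset_closure (Or.inr rfl)]
  have hx' := hx
  rw [pairX, Subgroup.sup_eq_closure] at hx
  revert hx'
  induction hx using Subgroup.closure_induction'' with
  | mem u hu => exact fun _ => key u hu
  | inv_mem u hu => exact fun _ => key _ (hu.imp inv_mem inv_mem)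
  | one => intro _; simp
  | mul u v hu' hv' hu hv =>
    intro _
    rw [← Subgroup.sup_eq_closure] at hu' hv'
    rw [show u * v * y * (u * v)⁻¹ * y⁻¹ = u * (v * y * v⁻¹ * y⁻¹) * u⁻¹ * (u * y * u⁻¹ * y⁻¹) by group]
    exact mul_mem (h.V_norm_X hu' (hv hv')) (hu hu')

theorem commutator_A_B (h : LargePair Q z g) {a b : G} (ha : a ∈ sideA Q z g) (hb : b ∈ sideB Q z g) :
    a * b * a⁻¹ * b⁻¹ ∈ Q ⊓ conjQ Q g := by
  rw [← h.A_inf_B]
  constructor
  · rw [show a * b * a⁻¹ * b⁻¹ = a * (b * a⁻¹ * b⁻¹) by group]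
    exact mul_mem ha (h.A_norm (h.B_le_W hb) (inv_mem ha))
  · exact mul_mem (h.B_norm (h.A_le_W ha) hb) (Subgroup.inv_mem _ hb)

theorem E_norm (h : LargePair Q z g) {c e : G} (hc : c ∈ pairW z g) (he : e ∈ Q ⊓ conjQ Q g) :
    c * e * c⁻¹ ∈ Q ⊓ conjQ Q g :=
  ⟨h.normalize (mem_W.1 hc).1 he.1, h.normalize_conj (mem_W.1 hc).2 he.2⟩

theorem R_mod_E (h : LargePair Q z g) {x y : G} (hx : x ∈ pairR Q z g) (hy : y ∈ pairR Q z g) :
    x * y * x⁻¹ * y⁻¹ ∈ Q ⊓ conjQ Q g ∧ x * x ∈ Q ⊓ conjQ Q g := by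
  set E := Q ⊓ conjQ Q g with hE
  set R := pairR Q z g with hR
  have hn : (E.subgroupOf R).Normal :=
    ⟨fun e he r => Subgroup.mem_subgroupOf.2 (h.E_norm (h.R_le_W r.2) (Subgroup.mem_subgroupOf.1 he))⟩
  set π := QuotientGroup.mk' (E.subgroupOf R) with hπ
  have hone : ∀ {u : R}, (u : G) ∈ E → π u = 1 := fun hu =>
    (QuotientGroup.eq_one_iff _).2 (Subgroup.mem_subgroupOf.2 hu)
  have hzE : z ∈ E := ⟨h.z_mem, h.z_mem_conj⟩
  have hsE : g * z * g⁻¹ ∈ E := ⟨h.conj_mem, h.s_mem_conj⟩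
  let side : Set R := {u | (u : G) ∈ sideA Q z g ∨ (u : G) ∈ sideB Q z g}
  have hcomm : ∀ u ∈ side, ∀ v ∈ side, π u * π v = π v * π u := by
    intro u hu v hv
    suffices (u : G) * v * (u : G)⁻¹ * (v : G)⁻¹ ∈ E by
      have := hone (u := u * v * u⁻¹ * v⁻¹) this
      rwa [map_mul, map_mul, map_mul, map_inv, map_inv, mul_inv_eq_one, mul_inv_eq_iff_eq_mul] at this
    rcases hu with hu | hu <;> rcases hv with hv | hv
    · rcases h.commutator_conj hu.1 hv.1 with e | e <;> rw [e]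
      exacts [one_mem _, hsE]
    · exact h.commutator_A_B hu hv
    · have := inv_mem (h.commutator_A_B hv hu)
      convert this using 1; group
    · rcases h.commutator_cases hu.1 hv.1 with e | e <;> rw [e]
      exacts [one_mem _, hzE]
  have hsq : ∀ u ∈ side, π u * π u = 1 := by
    intro u hu
    rw [← map_mul]
    apply hone
    show (u : G) * u ∈ E
    rcases hu with hu | hu
    · rcases h.sq_conj hu.1 with e | e <;> rw [e]
      exacts [one_mem _, hsE]
    · rcases h.sq_cases hu.1 with e | e <;> rw [e]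
      exacts [one_mem _, hzE]
  have key : ∀ u : R, ∃ a ∈ side, ∃ b ∈ side, u = a * b := by
    rintro ⟨u, hu⟩
    obtain ⟨a, ha, b, hb, rfl⟩ := h.mem_R_iff.1 hu
    exact ⟨⟨a, Subgroup.mem_sup_left ha⟩, Or.inl ha, ⟨b, Subgroup.mem_sup_right hb⟩, Or.inr hb, rfl⟩
  have hcc : ∀ u v : R, π u * π v = π v * π u := by
    intro u v
    obtain ⟨a, ha, b, hb, rfl⟩ := key u
    obtain ⟨a', ha', b', hb', rfl⟩ := key v
    rw [map_mul, map_mul]
    exact ((Commute.mul_left (hcomm _ ha _ ha') (hcomm _ hb _ ha')).mul_right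
      (Commute.mul_left (hcomm _ ha _ hb') (hcomm _ hb _ hb'))).eq
  constructor
  · have h1 : π (⟨x, hx⟩ * ⟨y, hy⟩ * (⟨x, hx⟩ : R)⁻¹ * (⟨y, hy⟩ : R)⁻¹) = 1 := by
      rw [map_mul, map_mul, map_mul, map_inv, map_inv, hcc, mul_inv_cancel_right, mul_inv_cancel]
    exact Subgroup.mem_subgroupOf.1 ((QuotientGroup.eq_one_iff _).1 h1)
  · have h1 : π (⟨x, hx⟩ * ⟨x, hx⟩ : R) = 1 := by
      obtain ⟨a, ha, b, hb, e⟩ := key ⟨x, hx⟩
      rw [e, map_mul, map_mul, mul_assoc, ← mul_assoc (π b), hcomm _ hb _ ha, mul_assoc, ← mul_assoc (π a),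
        hsq _ ha, one_mul, hsq _ hb]
    exact Subgroup.mem_subgroupOf.1 ((QuotientGroup.eq_one_iff _).1 h1)

end LargePair

end CfsgLib.Fischer2
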