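import Cfsg.Agent.Lib.Fischer2.FittingSetting
import Cfsg.Agent.Lib.Fixity.Derangements
import Cfsg.Agent.Lib.Cores.GenFitting
import Cfsg.Agent.Lib.Cores.Quasisimple
import Cfsg.Agent.Lib.Balance.Local
import Cfsg.Agent.Lib.PGroups.Frattini
import Cfsg.Agent.Lib.Alperin.SubgroupSystem
import Cfsg.Agent.Lib.Involutions.ThompsonTransfer

/-!
Fischer2: the minimal normal subgroup of a group with a large extraspecial 2-subgroup.
-/

set_option autoImplicit false
set_option linter.style.haveILetI false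
set_option linter.unusedSectionVars false

namespace CfsgLib.Fischer2.LargeStructure

open Cfsg Subgroup CfsgLib.Fixity CfsgLib.Fischer2

variable {G : Type*} [Group G] [Finite G]

section Proj

variable {N : Subgroup G} [hN : N.Normal]
  (hmin : ∀ M : Subgroup G, M.Normal → M ≤ N → M = ⊥ ∨ M = N) (hna : ¬ IsMulCommutative N)

open Classical in
/-- The component of an element of `N` in a simple factor. -/
noncomputable def proj {S : Subgroup G} (hS : IsFactor N S) (n : G) : G :=
  if h : n ∈ N then (hS.decomp hmin n h).choose else 1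

theorem proj_mem {S : Subgroup G} (hS : IsFactor N S) (n : G) : proj hmin hS n ∈ S := by
  unfold proj
  by_cases h : n ∈ N
  · rw [dif_pos h]; exact (hS.decomp hmin n h).choose_spec.1
  · rw [dif_neg h]; exact one_mem _

theorem proj_spec {S : Subgroup G} (hS : IsFactor N S) {n : G} (hn : n ∈ N) :
    ∃ c ∈ centralizer (S : Set G) ⊓ N, n = proj hmin hS n * c := by
  unfold proj
  rw [dif_pos hn]
  exact (hS.decomp hmin n hn).choose_spec.2

include hmin hna

theorem proj_eq {S : Subgroup G} (hS : IsFactor N S) {s c : G} (hs : s ∈ S)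
    (hc : c ∈ centralizer (S : Set G) ⊓ N) : proj hmin hS (s * c) = s := by
  obtain ⟨d, hd, he⟩ := proj_spec hmin hS (mul_mem (hS.le hs) hc.2)
  set p := proj hmin hS (s * c) with hp
  have h1 : p⁻¹ * s ∈ S ⊓ centralizer (S : Set G) := by
    refine ⟨S.mul_mem (S.inv_mem (proj_mem hmin hS _)) hs, ?_⟩
    rw [show p⁻¹ * s = d * c⁻¹ by rw [eq_mul_inv_iff_mul_eq, mul_assoc, he, inv_mul_cancel_left]]
    exact (centralizer (S : Set G)).mul_mem hd.1 ((centralizer (S : Set G)).inv_mem hc.1)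
  rw [hS.inf_centralizer hmin hna, Subgroup.mem_bot, inv_mul_eq_one] at h1
  exact h1

theorem proj_mul {S : Subgroup G} (hS : IsFactor N S) {m n : G} (hm : m ∈ N) (hn : n ∈ N) :
    proj hmin hS (m * n) = proj hmin hS m * proj hmin hS n := by
  obtain ⟨c, hc, hce⟩ := proj_spec hmin hS hm
  obtain ⟨d, hd, hde⟩ := proj_spec hmin hS hn
  have h : m * n = (proj hmin hS m * proj hmin hS n) * (c * d) := by
    have h1 : proj hmin hS n * c = c * proj hmin hS n := hc.1 _ (proj_mem hmin hS n)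
    calc m * n = proj hmin hS m * c * (proj hmin hS n * d) := by rw [← hce, ← hde]
      _ = proj hmin hS m * (c * proj hmin hS n) * d := by group
      _ = proj hmin hS m * (proj hmin hS n * c) * d := by rw [h1]
      _ = _ := by group
  rw [h, proj_eq hmin hna hS (mul_mem (proj_mem hmin hS m) (proj_mem hmin hS n)) (mul_mem hc hd)]

theorem proj_self {S : Subgroup G} (hS : IsFactor N S) {s : G} (hs : s ∈ S) :
    proj hmin hS s = s := by
  simpa using proj_eq hmin hna hS hs (one_mem (centralizer (S : Set G) ⊓ N))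

theorem proj_other {S T : Subgroup G} (hS : IsFactor N S) (hT : IsFactor N T) (hne : T ≠ S) {t : G}
    (ht : t ∈ T) : proj hmin hS t = 1 := by
  have h := (hS.eq_or_disjoint hT).resolve_left (Ne.symm hne)
  simpa using proj_eq hmin hna hS (one_mem S) (show t ∈ centralizer (S : Set G) ⊓ N from ⟨h.2 ht, hT.le ht⟩)

/-- The projection as a homomorphism onto the factor. -/
noncomputable def projHom {S : Subgroup G} (hS : IsFactor N S) : N →* S :=
  MonoidHom.mk' (fun n => ⟨proj hmin hS n, proj_mem hmin hS n⟩)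
    fun m n => Subtype.ext (proj_mul hmin hna hS m.2 n.2)

theorem projHom_surjective {S : Subgroup G} (hS : IsFactor N S) :
    Function.Surjective (projHom hmin hna hS) := fun s =>
  ⟨⟨s, hS.le s.2⟩, Subtype.ext (proj_self hmin hna hS s.2)⟩

theorem proj_pow {S : Subgroup G} (hS : IsFactor N S) {m : G} (hm : m ∈ N) (k : ℕ) :
    proj hmin hS (m ^ k) = proj hmin hS m ^ k := by
  have := congrArg Subtype.val (map_pow (projHom hmin hna hS) ⟨m, hm⟩ k)
  simpa [projHom] using this

theorem proj_commute {S : Subgroup G} (hS : IsFactor N S) {m n : G} (hm : m ∈ N) (hn : n ∈ N)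
    (h : m * n = n * m) :
    proj hmin hS m * proj hmin hS n = proj hmin hS n * proj hmin hS m := by
  rw [← proj_mul hmin hna hS hm hn, ← proj_mul hmin hna hS hn hm, h]

theorem proj_conj {S S' : Subgroup G} (hS : IsFactor N S) (hS' : IsFactor N S') (g : G)
    (he : cj g S = S') {n : G} (hn : n ∈ N) :
    proj hmin hS' (g * n * g⁻¹) = g * proj hmin hS n * g⁻¹ := by
  subst he
  obtain ⟨c, hc, hce⟩ := proj_spec hmin hS hn
  rw [show g * n * g⁻¹ = (g * proj hmin hS n * g⁻¹) * (g * c * g⁻¹) by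
    conv_lhs => rw [hce]
    group]
  refine proj_eq hmin hna hS' (conj_mem_cj (proj_mem hmin hS n)) ⟨?_, hN.conj_mem c hc.2 g⟩
  rintro _ ⟨y, hy, rfl⟩
  have h2 : g * (y * c) * g⁻¹ = g * (c * y) * g⁻¹ := by rw [hc.1 y hy]
  simpa [mul_assoc] using h2

theorem eq_one_of_proj {n : G} (hn : n ∈ N)
    (h : ∀ (S : Subgroup G) (hS : IsFactor N S), proj hmin hS n = 1) : n = 1 := by
  have hb : N ≠ ⊥ := fun h => hna (by subst h; infer_instance)
  have hall : ∀ g : G, ∀ (S : Subgroup G), IsFactor N S → ∀ y ∈ cj g S, y * n = n * y := by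
    intro g S hS y hy
    obtain ⟨c, hc, hce⟩ := proj_spec hmin (hS.map g) hn
    rw [h _ (hS.map g), one_mul] at hce
    exact hce ▸ hc.1 y hy
  obtain ⟨S, hS⟩ := exists_factor N hb
  have hcen : n ∈ centralizer (N : Set G) := by
    rw [← iSup_cj_eq hmin hS]
    refine Subgroup.mem_centralizer_iff.2 fun y hy => ?_
    have : (⨆ g : G, cj g S) ≤ centralizer ({n} : Set G) := iSup_le fun g y hy =>
      mem_centralizer_singleton_iff.2 (hall g S hS y hy)
    exact mem_centralizer_singleton_iff.1 (this hy)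
  haveI := centralizer_normal_of_normal N
  rcases hmin (centralizer (N : Set G) ⊓ N) inferInstance inf_le_right with h' | h'
  · rw [← Subgroup.mem_bot, ← h']; exact ⟨hcen, hn⟩
  · exact absurd (le_centralizer_iff_isMulCommutative.1 (inf_eq_right.1 h')) hna

theorem not_commutative_factor {S : Subgroup G} (hS : IsFactor N S) : ¬ IsMulCommutative S :=
  fun h => hS.ne_bot (by
    have h1 : S ≤ centralizer (S : Set G) := le_centralizer_iff_isMulCommutative.2 h
    rw [← hS.inf_centralizer hmin hna, inf_eq_left.2 h1])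

theorem not_pGroup_factor {S : Subgroup G} (hS : IsFactor N S) : ¬ IsPGroup 2 S := by
  intro h
  haveI : Fact (Nat.Prime 2) := ⟨Nat.prime_two⟩
  haveI := hS.isSimpleGroup hmin
  haveI := h.isNilpotent
  exact CfsgLib.Cores.not_isSolvable_of_isQuasisimple
    (CfsgLib.Cores.isQuasisimple_of_isSimpleGroup (not_commutative_factor hmin hna hS)) inferInstance

end Proj

section Main

variable {Q : Subgroup G} (hQ : IsLargeExtraspecial Q) {z : G}
  (hzZ : z ∈ (Subgroup.center Q).map Q.subtype) (hz1 : z ≠ 1)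
include hQ hzZ hz1

theorem center_cases {x : G} (hx : x ∈ (Subgroup.center Q).map Q.subtype) : x = 1 ∨ x = z :=
  eq_one_or_eq_of_card_two (IsExtraspecial.card_centerImage hQ.1) hzZ hz1 hx

theorem z_mem : z ∈ Q := centerImage_le Q hzZ

theorem z_comm {q : G} (hq : q ∈ Q) : z * q = q * z := ((mem_centerImage_iff Q z).1 hzZ).2 q hq

theorem mem_centralizer_center {x : G} (hx : x * z = z * x) :
    x ∈ centralizer (((Subgroup.center Q).map Q.subtype : Subgroup G) : Set G) := by
  rw [mem_centralizer_iff]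
  intro y hy
  rcases center_cases hQ hzZ hz1 hy with rfl | rfl
  · simp
  · exact hx.symm

theorem normalizes {x : G} (hx : x * z = z * x) {q : G} (hq : q ∈ Q) : x * q * x⁻¹ ∈ Q :=
  ((mem_normalizer_iff.1 (hQ.2.2.1 (mem_centralizer_center hQ hzZ hz1 hx))) q).1 hq

theorem z_sq : z * z = 1 := by
  rcases center_cases hQ hzZ hz1 (mul_mem hzZ hzZ) with h | h
  · exact h
  · exact absurd (mul_eq_left.1 h) hz1

variable {N : Subgroup G} [hN : N.Normal]
  (hmin : ∀ M : Subgroup G, M.Normal → M ≤ N → M = ⊥ ∨ M = N) (hna : ¬ IsMulCommutative N)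
  (hzN : z ∈ N)
include hmin hna hzN

/-- If `Q` fixes a factor avoiding `z`, that factor meets `C(z)` trivially. -/
theorem eq_one_of_fixed {S : Subgroup G} (hS : IsFactor N S) (hzS : z ∉ S)
    (hfix : ∀ q ∈ Q, cj q S = S) {x : G} (hx : x ∈ S) (hxz : x * z = z * x) : x = 1 := by
  have hQS : ∀ y ∈ Q, y ∈ S → y = 1 := by
    intro y hy hyS
    by_contra hy1
    by_cases hyc : y ∈ (Subgroup.center Q).map Q.subtype
    · rcases center_cases hQ hzZ hz1 hyc with rfl | rfl
      · exact hy1 rfl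
      · exact hzS hyS
    · obtain ⟨q, hq, he⟩ := IsExtraspecial.exists_conj_eq_mul hQ.1 hzZ hz1 hy hyc
      have h1 : q * y * q⁻¹ ∈ S := by rw [← hfix q hq]; exact conj_mem_cj hyS
      rw [he] at h1
      exact hzS (by simpa using mul_mem h1 (inv_mem hyS))
  have hc : x ∈ centralizer (Q : Set G) := by
    rw [mem_centralizer_iff]
    intro q hq
    have h1 : q * x⁻¹ * q⁻¹ ∈ S := by rw [← hfix q hq]; exact conj_mem_cj (inv_mem hx)
    have h2 := hQS _ (mul_mem (normalizes hQ hzZ hz1 hxz hq) (inv_mem hq))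
      (by simpa [mul_assoc] using mul_mem hx h1)
    rw [mul_inv_eq_one, mul_inv_eq_iff_eq_mul] at h2
    exact h2.symm
  rw [hQ.2.1] at hc
  rcases center_cases hQ hzZ hz1 hc with h | h
  · exact h
  · exact absurd (h ▸ hx) hzS

/-- An element of a moved factor commuting with `z` is a projection of an element of `Q ∩ N`. -/
theorem exists_lift {S : Subgroup G} (hS : IsFactor N S) {q : G} (hq : q ∈ Q) (hmove : cj q S ≠ S)
    {x : G} (hx : x ∈ S) (hxz : x * z = z * x) :
    x * q * x⁻¹ * q⁻¹ ∈ Q ∧ x * q * x⁻¹ * q⁻¹ ∈ N ∧ proj hmin hS (x * q * x⁻¹ * q⁻¹) = x := by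
  have hxN := hS.le hx
  have h2 : q * x⁻¹ * q⁻¹ ∈ N := hN.conj_mem _ (inv_mem hxN) q
  have e : x * q * x⁻¹ * q⁻¹ = x * (q * x⁻¹ * q⁻¹) := by group
  refine ⟨mul_mem (normalizes hQ hzZ hz1 hxz hq) (inv_mem hq), e ▸ mul_mem hxN h2, ?_⟩
  rw [e, proj_mul hmin hna hS hxN h2, proj_self hmin hna hS hx,
    proj_other hmin hna hS (hS.map q) hmove (conj_mem_cj (inv_mem hx)), mul_one]

theorem two_element_of_moved {S : Subgroup G} (hS : IsFactor N S) {q : G} (hq : q ∈ Q)
    (hmove : cj q S ≠ S) {x : G} (hx : x ∈ S) (hxz : x * z = z * x) :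
    ∃ k : ℕ, x ^ 2 ^ k = 1 := by
  obtain ⟨h1, h2, h3⟩ := exists_lift hQ hzZ hz1 hmin hna hzN hS hq hmove hx hxz
  obtain ⟨k, hk⟩ := hQ.1.1.1 ⟨_, h1⟩
  refine ⟨k, ?_⟩
  rw [← h3, ← proj_pow hmin hna hS h2, show (x * q * x⁻¹ * q⁻¹) ^ 2 ^ k = 1 from congrArg Subtype.val hk,
    proj_self hmin hna hS (one_mem S)]

theorem proj_z_ne {S : Subgroup G} (hS : IsFactor N S) : proj hmin hS z ≠ 1 := by
  intro h
  obtain ⟨c, hc, hce⟩ := proj_spec hmin hS hzN
  rw [h, one_mul] at hce
  have hcomm : ∀ x ∈ S, x * z = z * x := fun x hx => by rw [hce]; exact hc.1 x hx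
  by_cases hfix : ∀ q ∈ Q, cj q S = S
  · by_cases hzS : z ∈ S
    · exact hz1 (by rw [← proj_self hmin hna hS hzS, h])
    · exact hS.ne_bot ((eq_bot_iff_forall _).2 fun x hx =>
        eq_one_of_fixed hQ hzZ hz1 hmin hna hzN hS hzS hfix hx (hcomm x hx))
  · push Not at hfix
    obtain ⟨q, hq, hmove⟩ := hfix
    refine not_pGroup_factor hmin hna hS fun x => ?_
    obtain ⟨k, hk⟩ := two_element_of_moved hQ hzZ hz1 hmin hna hzN hS hq hmove x.2 (hcomm x x.2)
    exact ⟨k, Subtype.ext hk⟩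

theorem not_mem_factor {S T : Subgroup G} (hS : IsFactor N S) (hT : IsFactor N T) (hne : T ≠ S) :
    z ∉ S := fun h =>
  proj_z_ne hQ hzZ hz1 hmin hna hzN hT (proj_other hmin hna hT hS hne.symm h)

theorem commute_proj_z_iff {S : Subgroup G} (hS : IsFactor N S) {x : G} (hx : x ∈ S) :
    x * proj hmin hS z = proj hmin hS z * x ↔ x * z = z * x := by
  obtain ⟨c, hc, hce⟩ := proj_spec hmin hS hzN
  have h1 : x * c = c * x := hc.1 x hx
  constructor
  · intro h
    calc x * z = x * proj hmin hS z * c := by conv_lhs => rw [hce, ← mul_assoc]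
      _ = proj hmin hS z * (x * c) := by rw [h, mul_assoc]
      _ = proj hmin hS z * c * x := by rw [h1, mul_assoc]
      _ = z * x := by rw [← hce]
  · intro h
    have := proj_commute hmin hna hS (hS.le hx) hzN h
    rwa [proj_self hmin hna hS hx] at this

theorem exists_moved {S T : Subgroup G} (hS : IsFactor N S) (hT : IsFactor N T) (hne : T ≠ S) :
    ∃ q ∈ Q, cj q S ≠ S := by
  by_contra h
  push Not at h
  refine proj_z_ne hQ hzZ hz1 hmin hna hzN hS
    (eq_one_of_fixed hQ hzZ hz1 hmin hna hzN hS (not_mem_factor hQ hzZ hz1 hmin hna hzN hS hT hne) h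
      (proj_mem hmin hS z) ?_)
  exact (commute_proj_z_iff hQ hzZ hz1 hmin hna hzN hS (proj_mem hmin hS z)).1 rfl

variable {S : Subgroup G} (hS : IsFactor N S) {q : G} (hq : q ∈ Q) (hmove : cj q S ≠ S)
include hS hq hmove

theorem proj_z_conj : proj hmin (hS.map q) z = q * proj hmin hS z * q⁻¹ := by
  have h := proj_conj hmin hna hS (hS.map q) q rfl hzN
  rwa [← z_comm hQ hzZ hz1 hq, mul_inv_cancel_right] at h

theorem proj_z_sq : proj hmin hS z * proj hmin hS z = 1 := by
  rw [← proj_mul hmin hna hS hzN hzN, z_sq hQ hzZ hz1, proj_self hmin hna hS (one_mem S)]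

theorem exists_extra :
    ∃ x ∈ S, x * z = z * x ∧ x ≠ 1 ∧ x ≠ proj hmin hS z := by
  by_contra h
  push Not at h
  haveI : Fact (Nat.Prime 2) := ⟨Nat.prime_two⟩
  haveI := hS.isSimpleGroup hmin
  set z₁ : S := ⟨proj hmin hS z, proj_mem hmin hS z⟩ with hz₁
  have hz₁o : orderOf z₁ = 2 := orderOf_eq_prime_iff.2
    ⟨Subtype.ext (by rw [pow_two]; exact proj_z_sq hQ hzZ hz1 hmin hna hzN hS hq hmove),
      fun e => proj_z_ne hQ hzZ hz1 hmin hna hzN hS (congrArg Subtype.val e)⟩
  have hC : Subgroup.centralizer ({z₁} : Set S) = Subgroup.zpowers z₁ := by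
    refine le_antisymm (fun x hx => ?_) (Subgroup.zpowers_le.2 (mem_centralizer_singleton_iff.2 rfl))
    have hx' := congrArg Subtype.val (mem_centralizer_singleton_iff.1 hx)
    simp only [Subgroup.coe_mul] at hx'
    by_cases h1 : (x : G) = 1
    · rw [show x = 1 from Subtype.ext h1]; exact one_mem _
    · have := h x x.2 ((commute_proj_z_iff hQ hzZ hz1 hmin hna hzN hS x.2).1 hx') h1
      rw [show x = z₁ from Subtype.ext this]; exact Subgroup.mem_zpowers _
  obtain ⟨R⟩ := (inferInstance : Nonempty (Sylow 2 ↥(Subgroup.centralizer ({z₁} : Set S))))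
  haveI : IsCyclic ↥(Subgroup.centralizer ({z₁} : Set S)) := by rw [hC]; infer_instance
  obtain ⟨T, hT⟩ := CfsgLib.Involutions.exists_cyclic_sylow_of_centralizer hz₁o R inferInstance
  have heven : Even (Nat.card S) :=
    even_iff_two_dvd.2 (hz₁o ▸ orderOf_dvd_natCard z₁)
  obtain ⟨K, hK⟩ := CfsgLib.Involutions.exists_index_two_of_cyclic_sylow heven T hT
  haveI : K.Normal := Subgroup.normal_of_index_eq_two hK
  rcases (inferInstance : K.Normal).eq_bot_or_eq_top with hb | hb
  · rw [hb, Subgroup.index_bot] at hK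
    haveI := isCyclic_of_prime_card hK
    exact not_commutative_factor hmin hna hS ⟨⟨IsCyclic.commGroup.mul_comm⟩⟩
  · rw [hb, Subgroup.index_top] at hK
    norm_num at hK

theorem proj_lift_other {x : G} (hx : x ∈ S) {V : Subgroup G} (hV : IsFactor N V) (h1 : S ≠ V)
    (h2 : cj q S ≠ V) : proj hmin hV (x * q * x⁻¹ * q⁻¹) = 1 := by
  rw [show x * q * x⁻¹ * q⁻¹ = x * (q * x⁻¹ * q⁻¹) by group,
    proj_mul hmin hna hV (hS.le hx) (hN.conj_mem _ (inv_mem (hS.le hx)) q),
    proj_other hmin hna hV hS h1 hx,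
    proj_other hmin hna hV (hS.map q) h2 (conj_mem_cj (inv_mem hx)), mul_one]

/-- There are no further factors. -/
theorem factor_cases {U : Subgroup G} (hU : IsFactor N U) : U = S ∨ U = cj q S := by
  by_contra hcon
  push Not at hcon
  obtain ⟨hUS, hUT⟩ := hcon
  obtain ⟨x, hx, hxz, hx1, hxz1⟩ := exists_extra hQ hzZ hz1 hmin hna hzN hS hq hmove
  obtain ⟨haQ, haN, hpa⟩ := exists_lift hQ hzZ hz1 hmin hna hzN hS hq hmove hx hxz
  set a := x * q * x⁻¹ * q⁻¹ with ha
  have hac : a ∉ (Subgroup.center Q).map Q.subtype := fun hh => by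
    rcases center_cases hQ hzZ hz1 hh with e | e
    · rw [e, proj_self hmin hna hS (one_mem S)] at hpa; exact hx1 hpa.symm
    · rw [e] at hpa; exact hxz1 hpa.symm
  obtain ⟨q', hq', he⟩ := IsExtraspecial.exists_conj_eq_mul hQ.1 hzZ hz1 haQ hac
  have hsupp : ∀ (V : Subgroup G) (hV : IsFactor N V), proj hmin hV (z * a) ≠ 1 →
      V = cj q' S ∨ V = cj q' (cj q S) := by
    intro V hV hne
    have hV' : cj q' (cj q'⁻¹ V) = V := by
      have := cj_inv_of_eq (g := q'⁻¹) (S := V) rfl
      rwa [inv_inv] at this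
    by_contra hh
    push Not at hh
    apply hne
    rw [← he, proj_conj hmin hna (hV.map q'⁻¹) hV q' hV' haN,
      proj_lift_other hQ hzZ hz1 hmin hna hzN hS hq hmove hx (hV.map q'⁻¹)
        (fun e => hh.1 (by rw [e, hV'])) (fun e => hh.2 (by rw [e, hV']))]
    group
  have hzz := proj_z_sq hQ hzZ hz1 hmin hna hzN hS hq hmove
  have n1 : proj hmin hS (z * a) ≠ 1 := by
    rw [proj_mul hmin hna hS hzN haN, hpa]
    exact fun e => hxz1 ((eq_inv_of_mul_eq_one_right e).trans (inv_eq_of_mul_eq_one_right hzz))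
  have n2 : proj hmin (hS.map q) (z * a) ≠ 1 := by
    rw [proj_mul hmin hna (hS.map q) hzN haN, proj_z_conj hQ hzZ hz1 hmin hna hzN hS hq hmove, ha,
      show x * q * x⁻¹ * q⁻¹ = x * (q * x⁻¹ * q⁻¹) by group,
      proj_mul hmin hna (hS.map q) (hS.le hx) (hN.conj_mem _ (inv_mem (hS.le hx)) q),
      proj_other hmin hna (hS.map q) hS (Ne.symm hmove) hx,
      proj_self hmin hna (hS.map q) (conj_mem_cj (inv_mem hx)), one_mul,
      show q * proj hmin hS z * q⁻¹ * (q * x⁻¹ * q⁻¹) = q * (proj hmin hS z * x⁻¹) * q⁻¹ by group]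
    exact fun e => hxz1 (mul_inv_eq_one.1 (conj_eq_one_iff.1 e)).symm
  have n3 : proj hmin hU (z * a) ≠ 1 := by
    rw [proj_mul hmin hna hU hzN haN,
      proj_lift_other hQ hzZ hz1 hmin hna hzN hS hq hmove hx hU (Ne.symm hUS) (Ne.symm hUT), mul_one]
    exact proj_z_ne hQ hzZ hz1 hmin hna hzN hU
  rcases hsupp S hS n1 with a1 | a1 <;> rcases hsupp _ (hS.map q) n2 with a2 | a2 <;>
    rcases hsupp U hU n3 with a3 | a3
  all_goals first
    | exact hmove (a2.trans a1.symm)
    | exact hUS (a3.trans a1.symm)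
    | exact hUT (a3.trans a2.symm)

theorem eq_mul_proj {n : G} (hn : n ∈ N) :
    n = proj hmin hS n * proj hmin (hS.map q) n := by
  set p := proj hmin hS n with hp
  set r := proj hmin (hS.map q) n with hr
  have hpS : p ∈ S := proj_mem hmin hS n
  have hrT : r ∈ cj q S := proj_mem hmin (hS.map q) n
  have hpr : p * r ∈ N := mul_mem (hS.le hpS) ((hS.map q).le hrT)
  have key : n⁻¹ * (p * r) = 1 := by
    refine eq_one_of_proj hmin hna (mul_mem (inv_mem hn) hpr) fun V hV => ?_
    have hinv : proj hmin hV n⁻¹ = (proj hmin hV n)⁻¹ := by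
      refine eq_inv_of_mul_eq_one_left ?_
      rw [← proj_mul hmin hna hV (inv_mem hn) hn, inv_mul_cancel, proj_self hmin hna hV (one_mem V)]
    rw [proj_mul hmin hna hV (inv_mem hn) hpr,
      proj_mul hmin hna hV (hS.le hpS) ((hS.map q).le hrT), hinv]
    rcases factor_cases hQ hzZ hz1 hmin hna hzN hS hq hmove hV with rfl | rfl
    · rw [proj_self hmin hna hV hpS, proj_other hmin hna hV (hV.map q) hmove hrT, mul_one, hp,
        inv_mul_cancel]
    · rw [proj_other hmin hna hV hS (Ne.symm hmove) hpS, proj_self hmin hna hV hrT, one_mul, hr,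
        inv_mul_cancel]
  exact (inv_mul_eq_one.1 key)

theorem centralizer_inf_isPGroup : IsPGroup 2 (centralizer ({z} : Set G) ⊓ N : Subgroup G) := by
  intro y
  obtain ⟨y, hyC, hyN⟩ := y
  have hyz : y * z = z * y := mem_centralizer_singleton_iff.1 hyC
  have hcomm : ∀ (V : Subgroup G) (hV : IsFactor N V), proj hmin hV y * z = z * proj hmin hV y := by
    intro V hV
    rw [← commute_proj_z_iff hQ hzZ hz1 hmin hna hzN hV (proj_mem hmin hV y)]
    exact proj_commute hmin hna hV hyN hzN hyz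
  have hmove' : cj q⁻¹ (cj q S) ≠ cj q S := by
    rw [cj_inv_of_eq rfl]; exact fun e => hmove e.symm
  obtain ⟨k, hk⟩ := two_element_of_moved hQ hzZ hz1 hmin hna hzN hS hq hmove (proj_mem hmin hS y)
    (hcomm S hS)
  obtain ⟨l, hl⟩ := two_element_of_moved hQ hzZ hz1 hmin hna hzN (hS.map q) (inv_mem hq) hmove'
    (proj_mem hmin (hS.map q) y) (hcomm _ (hS.map q))
  refine ⟨k + l, Subtype.ext ?_⟩
  show y ^ 2 ^ (k + l) = 1
  rw [eq_mul_proj hQ hzZ hz1 hmin hna hzN hS hq hmove (pow_mem hyN _), proj_pow hmin hna hS hyN,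
    proj_pow hmin hna (hS.map q) hyN, pow_add, pow_mul, hk, one_pow, one_mul, mul_comm (2 ^ k),
    pow_mul, hl, one_pow]

theorem ne_pCore :
    Q ≠ (pCore 2 ↥(centralizer ({z} : Set G))).map (centralizer ({z} : Set G)).subtype := by
  intro hQeq
  obtain ⟨x, hx, hxz, hx1, hxz1⟩ := exists_extra hQ hzZ hz1 hmin hna hzN hS hq hmove
  set C := centralizer ({z} : Set G) with hC
  have hxC : x ∈ C := mem_centralizer_singleton_iff.2 hxz
  haveI : (N.subgroupOf C).Normal := Subgroup.normal_subgroupOf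
  have hp : IsPGroup 2 (N.subgroupOf C) := by
    have h := centralizer_inf_isPGroup hQ hzZ hz1 hmin hna hzN hS hq hmove
    intro y
    obtain ⟨k, hk⟩ := h ⟨_, (y : C).2, y.2⟩
    exact ⟨k, Subtype.ext (Subtype.ext (congrArg Subtype.val hk : _))⟩
  have hxQ : x ∈ Q := by
    rw [hQeq]
    exact ⟨⟨x, hxC⟩, (le_sSup ⟨inferInstance, hp⟩ : N.subgroupOf C ≤ pCore 2 C) (hS.le hx), rfl⟩
  have hzS := not_mem_factor hQ hzZ hz1 hmin hna hzN hS (hS.map q) hmove
  have hxc : x ∉ (Subgroup.center Q).map Q.subtype := fun hh => by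
    rcases center_cases hQ hzZ hz1 hh with e | e
    · exact hx1 e
    · exact hzS (e ▸ hx)
  obtain ⟨q', hq', he⟩ := IsExtraspecial.exists_conj_eq_mul hQ.1 hzZ hz1 hxQ hxc
  have hmem : z * x ∈ cj q' S := he ▸ conj_mem_cj hx
  have n1 : proj hmin hS (z * x) ≠ 1 := by
    rw [proj_mul hmin hna hS hzN (hS.le hx), proj_self hmin hna hS hx]
    exact fun e => hxz1 ((eq_inv_of_mul_eq_one_right e).trans
      (inv_eq_of_mul_eq_one_right (proj_z_sq hQ hzZ hz1 hmin hna hzN hS hq hmove)))
  have n2 : proj hmin (hS.map q) (z * x) ≠ 1 := by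
    rw [proj_mul hmin hna (hS.map q) hzN (hS.le hx),
      proj_other hmin hna (hS.map q) hS (Ne.symm hmove) hx, mul_one]
    exact proj_z_ne hQ hzZ hz1 hmin hna hzN (hS.map q)
  by_cases h : cj q' S = S
  · exact n2 (proj_other hmin hna (hS.map q) (hS.map q') (fun e => hmove (e.symm.trans h)) hmem)
  · exact n1 (proj_other hmin hna hS (hS.map q') h hmem)

theorem exists_sylow :
    ∃ R : Sylow 2 S, (R : Subgroup S) = (centralizer ({proj hmin hS z} : Set G)).subgroupOf S ∧
      (frattini ↥(R : Subgroup S)).map (S.subtype.comp (R : Subgroup S).subtype) ≤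
        zpowers (proj hmin hS z) := by
  haveI : Fact (Nat.Prime 2) := ⟨Nat.prime_two⟩
  set z₁ := proj hmin hS z with hz₁
  set C' := (centralizer ({z₁} : Set G)).subgroupOf S with hC'
  have hmemC : ∀ x : S, x ∈ C' ↔ (x : G) * z = z * x := fun x => by
    rw [hC', Subgroup.mem_subgroupOf, mem_centralizer_singleton_iff,
      commute_proj_z_iff hQ hzZ hz1 hmin hna hzN hS x.2]
  have hC'p : IsPGroup 2 C' := fun x => by
    obtain ⟨k, hk⟩ := two_element_of_moved hQ hzZ hz1 hmin hna hzN hS hq hmove (x : S).2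
      ((hmemC x).1 x.2)
    exact ⟨k, Subtype.ext (Subtype.ext hk)⟩
  obtain ⟨T, hT⟩ := (IsExtraspecial.isPGroup hQ.1).exists_le_sylow
  have hTz : ∀ t ∈ (T : Subgroup G), t * z = z * t := by
    haveI : Nontrivial (T : Subgroup G) :=
      ⟨⟨⟨z, hT (z_mem hQ hzZ hz1)⟩, 1, fun e => hz1 (congrArg Subtype.val e)⟩⟩
    haveI := IsPGroup.center_nontrivial T.isPGroup'
    obtain ⟨w, hw⟩ := exists_ne (1 : Subgroup.center (T : Subgroup G))
    have hwc : ((w : (T : Subgroup G)) : G) ∈ (Subgroup.center Q).map Q.subtype := by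
      rw [← hQ.2.1, mem_centralizer_iff]
      intro a ha
      exact congrArg Subtype.val (Subgroup.mem_center_iff.1 w.2 ⟨a, hT ha⟩)
    have hwz := (center_cases hQ hzZ hz1 hwc).resolve_left fun e => hw (Subtype.ext (Subtype.ext e))
    intro t ht
    rw [← hwz]
    exact congrArg Subtype.val (Subgroup.mem_center_iff.1 w.2 ⟨t, ht⟩)
  obtain ⟨R₀, hR₀⟩ := CfsgLib.Alperin.exists_sylow_inf_normal T N
  let R := R₀.mapSurjective (projHom_surjective hmin hna hS)
  have hRle : (R : Subgroup S) ≤ C' := by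
    rw [Sylow.coe_mapSurjective]
    rintro _ ⟨n, hn, rfl⟩
    rw [SetLike.mem_coe, hR₀, Subgroup.mem_subgroupOf] at hn
    rw [hmemC, ← commute_proj_z_iff hQ hzZ hz1 hmin hna hzN hS (projHom hmin hna hS n).2]
    exact proj_commute hmin hna hS n.2 hzN (hTz n hn.1)
  have hReq : (R : Subgroup S) = C' := (R.is_maximal' hC'p hRle).symm
  refine ⟨R, hReq, ?_⟩
  let K : Subgroup (R : Subgroup S) :=
    (zpowers z₁).comap (S.subtype.comp (R : Subgroup S).subtype)
  have hlift : ∀ x : (R : Subgroup S),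
      ∃ w ∈ Q, w ∈ N ∧ proj hmin hS w = ((x : S) : G) := fun x => by
    obtain ⟨h1, h2, h3⟩ := exists_lift hQ hzZ hz1 hmin hna hzN hS hq hmove (x : S).2
      ((hmemC x).1 (hReq ▸ x.2))
    exact ⟨_, h1, h2, h3⟩
  have hproj : ∀ c ∈ (Subgroup.center Q).map Q.subtype, proj hmin hS c ∈ zpowers z₁ := fun c hc => by
    rcases center_cases hQ hzZ hz1 hc with rfl | rfl
    · rw [proj_self hmin hna hS (one_mem S)]; exact one_mem _
    · exact mem_zpowers _
  have hle : frattini ↥(R : Subgroup S) ≤ K := by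
    refine CfsgLib.PGroups.frattini_le_of (p := 2) ?_ fun x => ?_
    · rw [_root_.commutator_def, Subgroup.commutator_le]
      rintro x - y -
      obtain ⟨v, hvQ, hvN, hv⟩ := hlift x
      obtain ⟨w, hwQ, hwN, hw⟩ := hlift y
      have h := hproj _ (IsExtraspecial.commutator_mem hQ.1 hvQ hwQ)
      have hinv : ∀ n ∈ N, proj hmin hS n⁻¹ = (proj hmin hS n)⁻¹ := fun n hn =>
        eq_inv_of_mul_eq_one_left (by
          rw [← proj_mul hmin hna hS (inv_mem hn) hn, inv_mul_cancel,
            proj_self hmin hna hS (one_mem S)])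
      rw [proj_mul hmin hna hS (mul_mem (mul_mem hvN hwN) (inv_mem hvN)) (inv_mem hwN),
        proj_mul hmin hna hS (mul_mem hvN hwN) (inv_mem hvN), proj_mul hmin hna hS hvN hwN,
        hinv v hvN, hinv w hwN, hv, hw] at h
      simpa [K, commutatorElement_def] using h
    · obtain ⟨v, hvQ, hvN, hv⟩ := hlift x
      have h := hproj _ (IsExtraspecial.sq_mem hQ.1 hvQ)
      rw [proj_pow hmin hna hS hvN, hv] at h
      simpa [K] using h
  rintro _ ⟨x, hx, rfl⟩
  exact hle hx

end Main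

end CfsgLib.Fischer2.LargeStructure
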