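import Cfsg.Agent.Lib.Fischer2.LeechStdForm
import Cfsg.Agent.Lib.Fischer2.LeechFrameNormal

/-!
A subgroup of the lattice modulo two that is stable under the monomial group and orthogonal to the
class of `(8, 0²³)` contains a short vector, unless it consists of two classes only.
-/

set_option autoImplicit false

namespace CfsgLib.Fischer2

open Cfsg Finset CfsgLib.Leech

/-- The parities of a vector divisible by four. -/
def parityWord (f : leechLattice) : GolayPt → ZMod 2 := fun p => ((coordVec f p / 4 : ℤ) : ZMod 2)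

theorem parityWord_add {f g : leechLattice} (hf : ∀ p, coordVec f p % 4 = 0) :
    parityWord (f + g) = parityWord f + parityWord g := by
  funext p
  show (((coordVec f p + coordVec g p) / 4 : ℤ) : ZMod 2) = parityWord f p + parityWord g p
  rw [Int.add_ediv_of_dvd_left (Int.dvd_of_emod_eq_zero (hf p)), Int.cast_add]
  rfl

theorem sum_parityWord {f : leechLattice} (hf : ∀ p, coordVec f p % 4 = 0) : ∑ p, parityWord f p = 0 := by
  have h8 := sum_mod_eight f fun p => by have := hf p; omega
  have h4 : ∑ p, coordVec f p = 4 * ∑ p, coordVec f p / 4 := by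
    rw [Finset.mul_sum]; exact Finset.sum_congr rfl fun p _ => by have := hf p; omega
  simp only [parityWord, ← Int.cast_sum]
  exact (ZMod.intCast_zmod_eq_zero_iff_dvd _ 2).2 (by push_cast; omega)

theorem shiftPerm_symm_apply (t : ZMod 23) (p : GolayPt) : (shiftPerm t).symm p = shiftPerm (-t) p := by
  rw [Equiv.symm_apply_eq]
  rcases p with _ | x <;> simp [shiftPerm]

/-- A code word other than the constants has a product with a code word outside the code. -/
theorem exists_mul_notMem {c : GolayPt → ZMod 2} (hc : c ∈ golayCode) (h0 : c ≠ 0) (h1 : c ≠ 1) :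
    ∃ d ∈ golayCode, c * d ∉ golayCode := by
  classical
  by_contra hall
  push Not at hall
  let U : AddSubgroup (GolayPt → ZMod 2) :=
    { carrier := {w | w ∈ golayCode ∧ ∀ d ∈ golayCode, w * d ∈ golayCode}
      zero_mem' := ⟨golayCode.zero_mem, fun d _ => by rw [zero_mul]; exact golayCode.zero_mem⟩
      add_mem' := fun {a b} ha hb => ⟨golayCode.add_mem ha.1 hb.1,
        fun d hd => by rw [add_mul]; exact golayCode.add_mem (ha.2 d hd) (hb.2 d hd)⟩
      neg_mem' := fun {a} ha => ⟨golayCode.neg_mem ha.1,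
        fun d hd => by rw [neg_mul]; exact golayCode.neg_mem (ha.2 d hd)⟩ }
  have hU := code_invariant_eq_top U (fun w hw => hw.1) ⟨one_mem_golayCode, fun d hd => by rwa [one_mul]⟩
    (fun t w hw => ⟨shift_mem_golayCode t hw.1, fun d hd => by
      have h2 := shift_mem_golayCode t (hw.2 _ (shift_mem_golayCode (-t) hd))
      convert h2 using 1
      funext p
      simp only [Pi.mul_apply, Function.comp]
      rw [← shiftPerm_symm_apply, Equiv.symm_apply_apply]⟩)
    (d := c) ⟨hc, hall⟩ h0 h1
  obtain ⟨O, hO, -⟩ := exists_octad_superset (s := (∅ : Finset GolayPt)) (by simp)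
  have hw : indWord O ∈ golayCode := CfsgLib.Leech.mem_supports_iff.1 hO.1
  have h8 := CfsgLib.Golay.card_eq_of_mem_octads hO
  obtain ⟨o, ho⟩ := Finset.card_pos.1 (by rw [h8]; norm_num : 0 < O.card)
  obtain ⟨x, hx⟩ := Finset.card_pos.1 (by rw [Finset.card_erase_of_mem ho, h8]; norm_num : 0 < (O.erase o).card)
  obtain ⟨d, hd, hdi⟩ := exists_code_on (T := O.erase o) (by rw [Finset.card_erase_of_mem ho, h8])
    (fun i => if i = x then 1 else 0)
  have hprod : indWord O * d = indWord (O.filter fun i => d i = 1) := by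
    funext i
    rcases zmod2_cases (d i) with e | e <;> by_cases hi : i ∈ O <;> simp [indWord, Finset.mem_filter, hi, e]
  refine indWord_notMem (U := O.filter fun i => d i = 1) ⟨x, ?_⟩ ?_ (hprod ▸ (hU _ hw).2 d hd)
  · exact Finset.mem_filter.2 ⟨Finset.mem_of_mem_erase hx, by rw [hdi x hx, if_pos rfl]⟩
  · refine lt_of_le_of_lt (Finset.card_le_card (t := {x, o}) fun i hi => ?_)
      (lt_of_le_of_lt Finset.card_le_two (by norm_num))
    obtain ⟨hiO, hdi1⟩ := Finset.mem_filter.1 hi
    by_cases hio : i = o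
    · simp [hio]
    · by_cases hix : i = x
      · simp [hix]
      · rw [hdi i (Finset.mem_erase.2 ⟨hio, hiO⟩), if_neg hix] at hdi1
        exact absurd hdi1 zero_ne_one

variable {W : AddSubgroup leechLattice}

theorem exists_parity_notMem (hinv : ∀ (d : golayCode) (σ : M24), ∀ f ∈ W, (signAut d * permAut σ) • f ∈ W)
    (h2 : ∀ u : leechLattice, u + u ∈ W) (hperp : ∀ f ∈ W, betaStd f vecA = 0) {f₀ : leechLattice}
    (hf₀ : f₀ ∈ W) (hn0 : ¬ ∃ w : leechLattice, f₀ = w + w) (hnA : ¬ CongTwo f₀ vecA) :
    ∃ f ∈ W, (∀ p, coordVec f p % 4 = 0) ∧ parityWord f ∉ golayCode := by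
  classical
  have heven : ∀ f ∈ W, ∀ p, coordVec f p % 2 = 0 := by
    intro f hf p
    have h16 := (betaStd_eq_zero_iff _ _).1 (hperp f hf)
    have : dotInt (coordVec f) (coordVec vecA) = 8 * coordVec f none := dot_axisVec f none
    rw [this] at h16
    rcases even_or_odd_coords f with h | h
    · exact h p
    · have := h none; omega
  -- avoid the all-one pattern
  obtain ⟨f, hf, hn0, hnA, huniv⟩ : ∃ f ∈ W, (¬ ∃ w : leechLattice, f = w + w) ∧ ¬ CongTwo f vecA ∧
      (twoSet f ≠ Finset.univ) := by
    by_cases hu : twoSet f₀ = Finset.univ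
    · refine ⟨f₀ + (oddVec none + oddVec none), W.add_mem hf₀ (h2 _), ?_, ?_, ?_⟩
      · rintro ⟨w, hw⟩
        exact hn0 ⟨w + -oddVec none, by rw [← add_right_cancel_iff (a := oddVec none + oddVec none), hw]; abel⟩
      · intro hc
        exact hnA (CongTwo.trans (CongTwo.symm ⟨oddVec none, rfl⟩) hc)
      · intro h
        have h1 : coordVec f₀ (some 0) % 4 = 2 := mem_twoSet.1 (hu ▸ Finset.mem_univ _)
        have h3 : coordVec (f₀ + (oddVec none + oddVec none)) (some 0) % 4 = 2 :=
          mem_twoSet.1 (h ▸ Finset.mem_univ _)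
        change (coordVec f₀ (some 0) + (coordVec (oddVec none) (some 0) + coordVec (oddVec none) (some 0))) % 4 = 2 at h3
        rw [coordVec_oddVec, if_neg (by simp)] at h3
        omega
    · exact ⟨f₀, hf₀, hn0, hnA, hu⟩
  by_cases he : twoSet f = ∅
  · have h4 : ∀ p, coordVec f p % 4 = 0 := fun p => by
      have := heven f hf p
      have : ¬ coordVec f p % 4 = 2 := fun h => by simpa [he] using mem_twoSet.2 h
      omega
    refine ⟨f, hf, h4, fun hc => ?_⟩
    rcases congTwo_of_parity h4 hc with h | h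
    · exact hn0 h
    · exact hnA h
  have hc : indWord (twoSet f) ∈ golayCode := CfsgLib.Leech.mem_supports_iff.1 (twoSet_mem f)
  obtain ⟨d, hd, hcd⟩ := exists_mul_notMem hc
    (fun h => he (Finset.eq_empty_of_forall_notMem fun i hi => by simpa [indWord, hi] using congrFun h i))
    (fun h => huniv (Finset.eq_univ_of_forall fun i => by
      by_contra hi; simpa [indWord, hi] using congrFun h i))
  have hd' : d + 1 ∈ golayCode := golayCode.add_mem hd one_mem_golayCode
  set s : golayCode := ⟨d + 1, hd'⟩ with hs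
  have hsf : signAut s • f ∈ W := by
    have := hinv s 1 f hf
    rwa [← permHom_apply, map_one, mul_one] at this
  have hcoord : ∀ p, coordVec (signAut s • f + f) p = if d p = 1 then 2 * coordVec f p else 0 := by
    intro p
    show coordVec (signAut s • f) p + coordVec f p = _
    rw [coordVec_signAut]
    show (if d p + 1 = 0 then _ else _) + _ = _
    rcases zmod2_cases (d p) with e | e <;> simp [e, show (1 : ZMod 2) + 1 = 0 by decide, two_mul]
  have h4 : ∀ p, coordVec (signAut s • f + f) p % 4 = 0 := fun p => by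
    rw [hcoord]; have := heven f hf p; split_ifs <;> omega
  refine ⟨_, W.add_mem hsf hf, h4, fun hpar => hcd ?_⟩
  convert hpar using 1
  funext p
  show indWord (twoSet f) p * d p = ((coordVec (signAut s • f + f) p / 4 : ℤ) : ZMod 2)
  rw [hcoord]
  rcases zmod2_cases (d p) with e | e
  · simp [e]
  · rw [e, mul_one, if_pos rfl]
    have := heven f hf p
    by_cases hp : p ∈ twoSet f
    · rw [indWord, if_pos hp]
      have := mem_twoSet.1 hp
      symm
      rw [← Int.cast_one]
      exact ((ZMod.intCast_eq_intCast_iff' _ _ 2).2 (by push_cast; omega))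
    · rw [indWord, if_neg hp]
      have : ¬ coordVec f p % 4 = 2 := fun h => hp (mem_twoSet.2 h)
      symm
      exact (ZMod.intCast_zmod_eq_zero_iff_dvd _ 2).2 (by push_cast; omega)

/-- Such a subgroup contains a short vector. -/
theorem pairVec_mem_of_monomial
    (hinv : ∀ (d : golayCode) (σ : M24), ∀ f ∈ W, (signAut d * permAut σ) • f ∈ W)
    (h2 : ∀ u : leechLattice, u + u ∈ W) (ha : vecA ∈ W) (hperp : ∀ f ∈ W, betaStd f vecA = 0)
    {f₀ : leechLattice} (hf₀ : f₀ ∈ W) (hn0 : ¬ ∃ w : leechLattice, f₀ = w + w) (hnA : ¬ CongTwo f₀ vecA) :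
    pairVec none (some 0) ∈ W := by
  classical
  obtain ⟨h, hh, hh4, hhC⟩ := exists_parity_notMem hinv h2 hperp hf₀ hn0 hnA
  let P : Submodule (ZMod 2) (GolayPt → ZMod 2) := AddSubgroup.toZModSubmodule 2
    { carrier := {η | ∃ f ∈ W, (∀ p, coordVec f p % 4 = 0) ∧ parityWord f = η}
      zero_mem' := ⟨0, W.zero_mem, fun p => rfl, rfl⟩
      add_mem' := by
        rintro a b ⟨f, hf, hf4, rfl⟩ ⟨g, hg, hg4, rfl⟩
        refine ⟨f + g, W.add_mem hf hg, fun p => ?_, parityWord_add hf4⟩
        show (coordVec f p + coordVec g p) % 4 = 0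
        have := hf4 p; have := hg4 p; omega
      neg_mem' := fun {a} ha => by rwa [show -a = a from funext fun p => ZMod.neg_eq_self_mod_two (a p)] }
  have hPmem : ∀ {η}, η ∈ P ↔ ∃ f ∈ W, (∀ p, coordVec f p % 4 = 0) ∧ parityWord f = η := Iff.rfl
  have hPshift : ∀ t : ZMod 23, ∀ η ∈ P, η ∘ shiftPerm t ∈ P := by
    intro t η hη
    obtain ⟨f, hf, hf4, rfl⟩ := hPmem.1 hη
    let σ : M24 := ⟨shiftPerm (-t), shiftPerm_mem_M24 _⟩
    have hval : ∀ p, coordVec (permAut σ • f) p = coordVec f (shiftPerm t p) := fun p => by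
      rw [coordVec_permAut]
      show coordVec f ((shiftPerm (-t)).symm p) = _
      rw [shiftPerm_symm_apply, neg_neg]
    refine hPmem.2 ⟨permAut σ • f, ?_, fun p => by rw [hval]; exact hf4 _, funext fun p => ?_⟩
    · have := hinv 0 σ f hf
      rwa [signAut_zero, one_mul] at this
    · show ((coordVec (permAut σ • f) p / 4 : ℤ) : ZMod 2) = _
      rw [hval]; rfl
  have hPC : ∀ c ∈ golayCode, c ∈ P := by
    intro c hc
    let w : leechLattice := ⟨mkVec 0 c 0, mkVec_mem hc (by simp)⟩
    have hval : ∀ p, coordVec (w + w) p = 4 * bitVec c p := fun p => by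
      show mkVec 0 c 0 p + mkVec 0 c 0 p = _
      simp [mkVec]; ring
    refine hPmem.2 ⟨w + w, h2 w, fun p => by rw [hval]; omega, funext fun p => ?_⟩
    show ((coordVec (w + w) p / 4 : ℤ) : ZMod 2) = _
    rw [hval, Int.mul_ediv_cancel_left _ (by norm_num : (4 : ℤ) ≠ 0)]
    rcases zmod2_cases (c p) with e | e <;> simp [bitVec, e]
  -- the pair word is a parity
  obtain ⟨f, hf, hf4, hfp⟩ : indWord {none, some 0} ∈ P := by
    by_contra hδ
    obtain ⟨φ, hφδ, hφP⟩ := Submodule.exists_dual_map_eq_bot_of_notMem hδ inferInstance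
    let u : GolayPt → ZMod 2 := fun p => φ (Pi.single p 1)
    have hφ : ∀ η, φ η = ∑ p, u p * η p := fun η => by
      conv_lhs => rw [pi_eq_sum_univ' η, map_sum]
      exact Finset.sum_congr rfl fun p _ => by rw [map_smul, smul_eq_mul, mul_comm]
    have hzero : ∀ η ∈ P, φ η = 0 := fun η hη => by
      have : φ η ∈ P.map φ := ⟨η, hη, rfl⟩
      rwa [hφP, Submodule.mem_bot] at this
    have huC : u ∈ golayCode := mem_golayCode_of_orth fun d hd => by rw [← hφ]; exact hzero d (hPC d hd)
    let W2 : AddSubgroup (GolayPt → ZMod 2) :=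
      { carrier := {w | w ∈ golayCode ∧ ∀ η ∈ P, ∑ p, w p * η p = 0}
        zero_mem' := ⟨golayCode.zero_mem, fun η _ => by simp⟩
        add_mem' := fun {a b} ha hb => ⟨golayCode.add_mem ha.1 hb.1, fun η hη => by
          simp only [Pi.add_apply, add_mul, Finset.sum_add_distrib, ha.2 η hη, hb.2 η hη, add_zero]⟩
        neg_mem' := fun {a} ha => ⟨golayCode.neg_mem ha.1, fun η hη => by
          simp only [Pi.neg_apply, neg_mul, Finset.sum_neg_distrib, ha.2 η hη, neg_zero]⟩ }
    have hδ0 : φ (indWord {none, some 0}) ≠ 0 := hφδ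
    have hW2 := code_invariant_eq_top W2 (fun w hw => hw.1)
      ⟨one_mem_golayCode, fun η hη => by
        obtain ⟨g, -, hg4, rfl⟩ := hPmem.1 hη
        simpa using sum_parityWord hg4⟩
      (fun t w hw => ⟨shift_mem_golayCode t hw.1, fun η hη => by
        rw [← Equiv.sum_comp (shiftPerm t).symm]
        simp only [Function.comp, Equiv.apply_symm_apply]
        have := hw.2 _ (hPshift (-t) η hη)
        simpa only [Function.comp, ← shiftPerm_symm_apply] using this⟩)
      (d := u) ⟨huC, fun η hη => by rw [← hφ]; exact hzero η hη⟩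
      (fun e => hδ0 (by rw [hφ, e]; simp))
      (fun e => hδ0 (by
        rw [hφ, e]
        simp only [Pi.one_apply, one_mul, indWord, Finset.sum_boole, Finset.filter_mem_eq_inter,
          Finset.univ_inter, Finset.card_pair (show (none : GolayPt) ≠ some 0 by simp)]
        decide))
    refine hhC (mem_golayCode_of_orth fun d hd => ?_)
    rw [← (hW2 d hd).2 _ (hPmem.2 ⟨h, hh, hh4, rfl⟩)]
    exact Finset.sum_congr rfl fun p _ => mul_comm _ _
  have hpv : ∀ p, coordVec (pairVec none (some 0)) p = 4 * if p = none ∨ p = some 0 then 1 else 0 := by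
    intro p
    rw [coordVec_pairVec]
    by_cases h1 : p = none
    · subst h1; simp
    · by_cases h3 : p = some 0 <;> simp [h1, h3]
  have hp4 : ∀ p, coordVec (pairVec none (some 0)) p % 4 = 0 := fun p => by rw [hpv]; omega
  have hsum4 : ∀ p, coordVec (f + pairVec none (some 0)) p % 4 = 0 := fun p => by
    show (coordVec f p + coordVec (pairVec none (some 0)) p) % 4 = 0
    have := hf4 p; have := hp4 p; omega
  have hpar : parityWord (f + pairVec none (some 0)) = 0 := by
    rw [parityWord_add hf4, hfp]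
    funext p
    show indWord {none, some 0} p + ((coordVec (pairVec none (some 0)) p / 4 : ℤ) : ZMod 2) = 0
    rw [hpv, Int.mul_ediv_cancel_left _ (by norm_num : (4 : ℤ) ≠ 0)]
    simp only [indWord, Finset.mem_insert, Finset.mem_singleton]
    split_ifs <;> decide
  have hmem : f + pairVec none (some 0) ∈ W := by
    rcases congTwo_of_parity hsum4 (show parityWord _ ∈ golayCode by rw [hpar]; exact golayCode.zero_mem) with
      ⟨w, hw⟩ | ⟨w, hw⟩ <;> rw [hw]
    · exact h2 w
    · exact W.add_mem ha (h2 w)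
  exact (W.add_mem_cancel_left hf).1 hmem

end CfsgLib.Fischer2
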