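import Cfsg.Prelude.Def_MonsterType
import Cfsg.Agent.Lib.Fischer2.LargeExtraspecial
import Cfsg.Agent.Lib.Fischer2.LeechForm

/-!
The quadratic map that an identification of `Q / Z(Q)` with the Leech lattice modulo two induces on
the lattice: squaring.
-/

set_option autoImplicit false

namespace CfsgLib.Fischer2

open Cfsg

section

variable {P : Type*} [Group P]

theorem center_eq_or (hc : Nat.card (Subgroup.center P) = 2) {a b : P} (ha : a ∈ Subgroup.center P)
    (hb : b ∈ Subgroup.center P) (ha1 : a ≠ 1) : b = 1 ∨ b = a :=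
  eq_one_or_eq_of_card_two hc ha ha1 hb

/-- The character of the centre of order two. -/
noncomputable def centerChar (a : P) : ZMod 2 := by
  classical exact if a = 1 then 0 else 1

theorem centerChar_eq_zero_iff (a : P) : centerChar a = 0 ↔ a = 1 := by
  unfold centerChar; split <;> simp [*]

theorem centerChar_one : centerChar (1 : P) = 0 := (centerChar_eq_zero_iff 1).2 rfl

theorem centerChar_mul (hc : Nat.card (Subgroup.center P) = 2) {a b : P} (ha : a ∈ Subgroup.center P)
    (hb : b ∈ Subgroup.center P) : centerChar (a * b) = centerChar a + centerChar b := by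
  by_cases ha1 : a = 1
  · subst ha1; rw [one_mul, centerChar_one, zero_add]
  · rcases center_eq_or hc ha hb ha1 with rfl | hba
    · rw [mul_one, centerChar_one, add_zero]
    · have h2 : a * b = 1 := by
        rcases center_eq_or hc ha ((Subgroup.center P).mul_mem ha hb) ha1 with h | h
        · exact h
        · exact absurd (mul_eq_left.1 h) (hba ▸ ha1)
      rw [h2, centerChar_one, hba, zmod2_add_self]

end

variable {G : Type*} [Group G] {z : G} {Q : Subgroup (Subgroup.centralizer ({z} : Set G))} [Q.Normal]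
  {e : (Subgroup.centralizer ({z} : Set G)) ⧸ Q ≃* Spor.Co1} {ψ : leechLattice → Q ⧸ Subgroup.center Q}

/-- A chosen lift of `ψ v`. -/
noncomputable def liftVec (ψ : leechLattice → Q ⧸ Subgroup.center Q) (v : leechLattice) : Q :=
  (ψ v).out

theorem mk_liftVec (v : leechLattice) : (QuotientGroup.mk (liftVec ψ v) : Q ⧸ Subgroup.center Q) = ψ v :=
  QuotientGroup.out_eq' _

/-- Squaring as a map on the lattice. -/
noncomputable def sqForm (ψ : leechLattice → Q ⧸ Subgroup.center Q) (v : leechLattice) : ZMod 2 :=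
  centerChar (liftVec ψ v * liftVec ψ v)

/-- Commutators as a pairing on the lattice. -/
noncomputable def commForm (ψ : leechLattice → Q ⧸ Subgroup.center Q) (v w : leechLattice) : ZMod 2 :=
  centerChar (liftVec ψ v * liftVec ψ w * (liftVec ψ v)⁻¹ * (liftVec ψ w)⁻¹)

variable [Finite G]

theorem sq_mem_center (hQ : IsExtraspecial 2 Q) (x : Q) : x * x ∈ Subgroup.center Q := by
  rw [← hQ.1.2.1, ← pow_two]; exact sq_mem_frattini hQ.1.1 x

theorem comm_mem_center (hQ : IsExtraspecial 2 Q) (x y : Q) :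
    x * y * x⁻¹ * y⁻¹ ∈ Subgroup.center Q := by
  rw [← hQ.1.2.2, ← commutatorElement_def, commutator_def]
  exact Subgroup.commutator_mem_commutator (Subgroup.mem_top _) (Subgroup.mem_top _)

theorem centerChar_sq_eq (hQ : IsExtraspecial 2 Q) (v : leechLattice) (x : Q)
    (hx : ψ v = QuotientGroup.mk x) : centerChar (x * x) = sqForm ψ v := by
  have hw : x⁻¹ * liftVec ψ v ∈ Subgroup.center Q := QuotientGroup.eq.1 (hx ▸ (mk_liftVec v).symm)
  set w := x⁻¹ * liftVec ψ v with hwdef
  have h1 : liftVec ψ v = x * w := by rw [hwdef]; group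
  have hw2 : w * w = 1 := by
    rcases eq_or_ne w 1 with h | h
    · rw [h, one_mul]
    · rcases center_eq_or hQ.2 hw (Subgroup.mul_mem _ hw hw) h with h' | h'
      · exact h'
      · exact absurd (mul_eq_left.1 h') h
  rw [sqForm, h1]
  congr 1
  calc x * x = x * x * (w * w) := by rw [hw2, mul_one]
    _ = x * (x * w) * w := by group
    _ = x * (w * x) * w := by rw [Subgroup.mem_center_iff.1 hw x]
    _ = _ := by group

theorem commForm_eq (hQ : IsExtraspecial 2 Q) (v w : leechLattice) (x y : Q)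
    (hx : ψ v = QuotientGroup.mk x) (hy : ψ w = QuotientGroup.mk y) :
    centerChar (x * y * x⁻¹ * y⁻¹) = commForm ψ v w := by
  have ha : x⁻¹ * liftVec ψ v ∈ Subgroup.center Q := QuotientGroup.eq.1 (hx ▸ (mk_liftVec v).symm)
  have hb : y⁻¹ * liftVec ψ w ∈ Subgroup.center Q := QuotientGroup.eq.1 (hy ▸ (mk_liftVec w).symm)
  set a := x⁻¹ * liftVec ψ v with hadef
  set b := y⁻¹ * liftVec ψ w with hbdef
  have h1 : liftVec ψ v = x * a := by rw [hadef]; group
  have h2 : liftVec ψ w = y * b := by rw [hbdef]; group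
  rw [commForm, h1, h2]
  congr 1
  have hca : ∀ g : Q, g * a = a * g := fun g => Subgroup.mem_center_iff.1 ha g
  have hcb : ∀ g : Q, g * b = b * g := fun g => Subgroup.mem_center_iff.1 hb g
  calc x * y * x⁻¹ * y⁻¹ = x * (y * b) * x⁻¹ * b⁻¹ * y⁻¹ := by
        rw [show x * (y * b) * x⁻¹ * b⁻¹ * y⁻¹ = x * y * (b * x⁻¹) * b⁻¹ * y⁻¹ by group, ← hcb]; group
    _ = x * (a * (y * b)) * a⁻¹ * x⁻¹ * b⁻¹ * y⁻¹ := by rw [← hca]; group
    _ = _ := by group

theorem isInvariantForm (hQ : IsExtraspecial 2 Q) (hψ : IsLeechModTwoIso Q e ψ) :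
    IsInvariantForm (sqForm ψ) (commForm ψ) := by
  obtain ⟨hadd, hsurj, hker, hequiv⟩ := hψ
  have hcm : ∀ a b : Q, centerChar (a * b * a⁻¹ * b⁻¹) = centerChar (b * a * b⁻¹ * a⁻¹) := by
    intro a b
    have h1 := comm_mem_center hQ a b
    have h2 : b * a * b⁻¹ * a⁻¹ = (a * b * a⁻¹ * b⁻¹)⁻¹ := by group
    have h3 := centerChar_mul hQ.2 h1 ((Subgroup.center Q).inv_mem h1)
    rw [mul_inv_cancel, centerChar_one] at h3
    rw [h2]
    revert h3
    generalize centerChar (a * b * a⁻¹ * b⁻¹) = s
    generalize centerChar (a * b * a⁻¹ * b⁻¹)⁻¹ = t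
    revert s t; decide
  constructor
  · intro v w
    set x := liftVec ψ v with hx
    set y := liftVec ψ w with hy
    have hxy : ψ (v + w) = QuotientGroup.mk (x * y) := by
      rw [hadd, QuotientGroup.mk_mul, mk_liftVec, mk_liftVec]
    rw [← centerChar_sq_eq hQ (v + w) (x * y) hxy]
    have e1 : x * y * (x * y) = (x * x) * (y * x * y⁻¹ * x⁻¹)⁻¹⁻¹ * (y * y) →
        centerChar (x * y * (x * y)) = sqForm ψ v + sqForm ψ w + commForm ψ v w := by
      intro h
      rw [inv_inv] at h
      rw [h, centerChar_mul hQ.2 (Subgroup.mul_mem _ (sq_mem_center hQ x) (comm_mem_center hQ y x))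
        (sq_mem_center hQ y), centerChar_mul hQ.2 (sq_mem_center hQ x) (comm_mem_center hQ y x), hcm y x]
      show sqForm ψ v + commForm ψ v w + sqForm ψ w = _
      abel
    apply e1
    rw [inv_inv]
    have hc := Subgroup.mem_center_iff.1 (comm_mem_center hQ y x) x
    calc x * y * (x * y) = x * ((y * x * y⁻¹ * x⁻¹) * x * y) * y := by group
      _ = x * (x * (y * x * y⁻¹ * x⁻¹) * y) * y := by rw [hc]
      _ = _ := by group
  · intro u v w
    set x := liftVec ψ u with hx
    set y := liftVec ψ v with hy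
    set r := liftVec ψ w with hr
    have hxy : ψ (u + v) = QuotientGroup.mk (x * y) := by
      rw [hadd, QuotientGroup.mk_mul, mk_liftVec, mk_liftVec]
    rw [← commForm_eq hQ (u + v) w (x * y) r hxy (mk_liftVec w).symm]
    have hc := Subgroup.mem_center_iff.1 (comm_mem_center hQ y r)
    have : x * y * r * (x * y)⁻¹ * r⁻¹ = (y * r * y⁻¹ * r⁻¹) * (x * r * x⁻¹ * r⁻¹) := by
      calc x * y * r * (x * y)⁻¹ * r⁻¹ = (x * (y * r * y⁻¹ * r⁻¹)) * (r * x⁻¹ * r⁻¹) := by group
        _ = ((y * r * y⁻¹ * r⁻¹) * x) * (r * x⁻¹ * r⁻¹) := by rw [hc x]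
        _ = _ := by group
    rw [this, centerChar_mul hQ.2 (comm_mem_center hQ y r) (comm_mem_center hQ x r), add_comm]
    rfl
  · intro v w; exact hcm _ _
  · intro v
    rw [commForm]
    simp [centerChar_one]
  · intro v
    have : ψ (v + v) = QuotientGroup.mk (1 : Q) := (hker _).2 ⟨v, rfl⟩
    rw [← centerChar_sq_eq hQ (v + v) 1 this, one_mul, centerChar_one]
  · intro g v
    obtain ⟨h, hh⟩ := QuotientGroup.mk_surjective (e.symm (QuotientGroup.mk g))
    have hgh : (QuotientGroup.mk g : Spor.Co1) = e (QuotientGroup.mk h) := by rw [hh, e.apply_symm_apply]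
    set x := liftVec ψ v with hx
    have hgv := hequiv h g hgh v x (mk_liftVec v).symm
    rw [← centerChar_sq_eq hQ (g • v) _ hgv]
    show _ = centerChar (x * x)
    -- conjugation fixes the centre
    set φ : Q → Q := fun y => ⟨h * y * h⁻¹,
      (inferInstance : Q.Normal).conj_mem (y : Subgroup.centralizer ({z} : Set G)) y.2 h⟩ with hφ
    have hmul : φ x * φ x = φ (x * x) := Subtype.ext (by simp [φ, mul_assoc])
    show centerChar (φ x * φ x) = _
    rw [hmul]
    by_cases h1 : x * x = 1
    · rw [h1]; congr 1; exact Subtype.ext (by simp [φ])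
    · have hinj : φ (x * x) ≠ 1 := fun h2 => h1 (Subtype.ext (conj_eq_one_iff.1 (congrArg Subtype.val h2)))
      unfold centerChar
      rw [if_neg hinj, if_neg h1]

end CfsgLib.Fischer2
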