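import Cfsg.Agent.Lib.Fischer2.FittingSetting
import Cfsg.Agent.Lib.Fischer2.MonsterModule
import Cfsg.Agent.Lib.Fischer2.LeechShortStab
import Cfsg.Prelude.Def_Spor_Conway

/-!
The involutions of `Q` in a group of Monster type: conjugates of the central involution other than
itself are exactly the elements over classes of squared length 64.
-/

set_option autoImplicit false

namespace CfsgLib.Fischer2

open Cfsg CfsgLib.Leech

section Isotropic

variable {q : leechLattice → ZMod 2} {β : leechLattice → leechLattice → ZMod 2}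

/-- A totally isotropic set of classes closed under addition has at most `2¹²` members. -/
theorem card_isotropic_le (h : IsInvariantForm q β)
    (hnd : ∀ v, (∀ w, β v w = 0) → ∃ u : leechLattice, v = u + u)
    (hcard : Nat.card LeechMod = 2 ^ 24) (W : AddSubgroup LeechMod)
    (hW : ∀ x ∈ W, ∀ y ∈ W, β x.out y.out = 0) : Nat.card W ≤ 2 ^ 12 := by
  classical
  have := finite_leechMod
  have := Fintype.ofFinite LeechMod
  have hbeta : ∀ v v' w : leechLattice, CongTwo v v' → β v w = β v' w := by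
    rintro v v' w ⟨u, rfl⟩
    rw [h.add_left, h.add_left, zmod2_add_self, add_zero]
  have hadd : ∀ (x a : LeechMod) (v : leechLattice), β (x + a).out v = β x.out v + β a.out v := fun x a v => by
    rw [hbeta _ (x.out + a.out) _ (mk_eq_iff_congTwo.1 (by
      rw [QuotientAddGroup.out_eq', QuotientAddGroup.mk_add, QuotientAddGroup.out_eq',
        QuotientAddGroup.out_eq'])), h.add_left]
  let χ : ZMod 2 → ℤ := fun a => if a = 0 then 1 else -1
  set Wf : Finset LeechMod := Finset.univ.filter fun x => x ∈ W with hWf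
  have hflip : ∀ b c : ZMod 2, c = 1 → χ (b + c) = -χ b := by decide
  have hinner : ∀ x : LeechMod, 0 ≤ ∑ w ∈ Wf, χ (β w.out x.out) := by
    intro x
    by_cases hall : ∀ w ∈ Wf, β w.out x.out = 0
    · rw [Finset.sum_congr rfl (g := fun _ => (1 : ℤ)) (fun w hw => by simp [χ, hall w hw])]
      simp
    · push Not at hall
      obtain ⟨a, ha, hax⟩ := hall
      have h1 : β a.out x.out = 1 := (zmod2_cases _).resolve_left hax
      have h2 : ∑ w ∈ Wf, χ (β w.out x.out) = -∑ w ∈ Wf, χ (β w.out x.out) := by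
        conv_lhs => rw [← Finset.sum_equiv (Equiv.addRight a) (s := Wf) (t := Wf)
          (f := fun w => χ (β (w + a).out x.out)) (g := fun w => χ (β w.out x.out))
          (fun w => by
            simp only [hWf, Finset.mem_filter, Finset.mem_univ, true_and, Equiv.coe_addRight] at ha ⊢
            exact (W.add_mem_cancel_right ha).symm)
          (fun w _ => rfl)]
        rw [← Finset.sum_neg_distrib]
        exact Finset.sum_congr rfl fun w _ => by rw [hadd, hflip _ _ h1]
      omega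
  have hlow : (Wf.card : ℤ) * Wf.card ≤ ∑ x : LeechMod, ∑ w ∈ Wf, χ (β w.out x.out) := by
    refine le_trans ?_ (Finset.sum_le_sum_of_subset_of_nonneg (Finset.subset_univ Wf)
      (fun x _ _ => hinner x))
    rw [Finset.sum_congr rfl (g := fun _ => (Wf.card : ℤ)) (fun x hx => by
      rw [Finset.sum_congr rfl (g := fun _ => (1 : ℤ)) (fun w hw => by
        simp only [hWf, Finset.mem_filter, Finset.mem_univ, true_and] at hx hw
        simp [χ, hW w hw x hx])]
      simp)]
    simp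
  have htot : ∑ x : LeechMod, ∑ w ∈ Wf, χ (β w.out x.out) = (2 : ℤ) ^ 24 := by
    rw [Finset.sum_comm, Finset.sum_eq_single (0 : LeechMod)]
    · have h0 : ∀ v, β (0 : LeechMod).out v = 0 := fun v => by
        rw [hbeta _ 0 v (mk_eq_iff_congTwo.1 (by rw [QuotientAddGroup.out_eq']; rfl)), h.zero_left]
      have hc' : (Fintype.card LeechMod : ℤ) = 2 ^ 24 := by
        rw [← Nat.card_eq_fintype_card, hcard]; norm_num
      simp [χ, h0, hc']
    · intro w _ hw
      obtain ⟨a, ha⟩ : ∃ a : leechLattice, β w.out a ≠ 0 := by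
        by_contra hall
        push Not at hall
        exact hw (by rw [← QuotientAddGroup.out_eq' w]; exact mk_eq_zero_iff.2 (hnd _ hall))
      have h1 : β w.out (QuotientAddGroup.mk a : LeechMod).out = 1 := by
        rw [h.symm, hbeta _ a _ (mk_eq_iff_congTwo.1 (by rw [QuotientAddGroup.out_eq'])), h.symm]
        exact (zmod2_cases _).resolve_left ha
      have h2 : ∑ x : LeechMod, χ (β w.out x.out) = -∑ x : LeechMod, χ (β w.out x.out) := by
        conv_lhs => rw [← Equiv.sum_comp (Equiv.addRight (QuotientAddGroup.mk a : LeechMod))]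
        rw [← Finset.sum_neg_distrib]
        refine Finset.sum_congr rfl fun x _ => ?_
        show χ (β w.out (x + QuotientAddGroup.mk a).out) = _
        rw [h.symm, hadd, h.symm x.out, h.symm (QuotientAddGroup.mk a : LeechMod).out, hflip _ _ h1]
      omega
    · intro h0; exact absurd (by simp [hWf]) h0
  have hW' : Nat.card W = Wf.card := by
    rw [Nat.card_eq_fintype_card, Fintype.card_subtype]
  rw [htot] at hlow
  rw [hW']
  by_contra hlt
  have : (4097 : ℤ) * 4097 ≤ (Wf.card : ℤ) * Wf.card := by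
    have : (4097 : ℤ) ≤ Wf.card := by push Not at hlt; exact_mod_cast hlt
    nlinarith
  norm_num at hlow this ⊢
  omega

end Isotropic

variable {G : Type*} [Group G] [Finite G] {z : G} {Q : Subgroup (Subgroup.centralizer ({z} : Set G))}

/-- `Q` as a subgroup of `G`. -/
abbrev qSub (Q : Subgroup (Subgroup.centralizer ({z} : Set G))) : Subgroup G :=
  Q.map (Subgroup.centralizer ({z} : Set G)).subtype

/-- The basic facts of the setting of width 12. -/
structure SettingFacts (Q : Subgroup (Subgroup.centralizer ({z} : Set G))) : Prop where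
  extra : IsExtraspecial 2 (qSub Q)
  mem_center : z ∈ (Subgroup.center (qSub Q)).map (qSub Q).subtype
  ne_one : z ≠ 1
  center_eq : (Subgroup.center (qSub Q)).map (qSub Q).subtype = Subgroup.zpowers z
  centralizer_eq : Subgroup.centralizer (qSub Q : Set G) = (Subgroup.center (qSub Q)).map (qSub Q).subtype
  normalizes : Subgroup.centralizer (((Subgroup.center (qSub Q)).map (qSub Q).subtype : Subgroup G) : Set G) ≤
    Subgroup.normalizer (qSub Q : Set G)
  card_eq : Nat.card (qSub Q) = 2 ^ 25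
  sq : z * z = 1

theorem SettingFacts.mem (F : SettingFacts Q) : z ∈ qSub Q := centerImage_le _ F.mem_center

theorem SettingFacts.eq_or (F : SettingFacts Q) {a : G}
    (ha : a ∈ (Subgroup.center (qSub Q)).map (qSub Q).subtype) : a = 1 ∨ a = z :=
  eq_one_or_eq_of_card_two (IsExtraspecial.card_centerImage F.extra) F.mem_center F.ne_one ha

theorem settingFacts (hS : IsExtraspecialCentralizerSetting z Q 12) : SettingFacts Q := by
  obtain ⟨hz, hF, hQ, hcard, -⟩ := hS
  have hQe : IsExtraspecial 2 (qSub Q) := by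
    have e : ↥Q ≃* ↥(qSub Q) :=
      Subgroup.equivMapOfInjective _ _ (Subgroup.centralizer ({z} : Set G)).subtype_injective
    refine ⟨⟨hQ.1.1.map _, ?_, ?_⟩, ?_⟩
    · have := congrArg (Subgroup.map e.toMonoidHom) hQ.1.2.1
      rw [map_frattini_equiv, map_center_equiv] at this
      exact this
    · have := congrArg (Subgroup.map e.toMonoidHom) hQ.1.2.2
      rw [map_commutator_equiv, map_center_equiv] at this
      exact this
    · have hc : (Subgroup.center ↥Q).map e.toMonoidHom = Subgroup.center ↥(qSub Q) := map_center_equiv e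
      rw [← hc, Subgroup.card_map_of_injective e.injective]
      exact hQ.2
  obtain ⟨hzZ, hz1, hZz, hC, hN, -⟩ := setting_facts hz (Q := qSub Q) (by rw [hF]) hQe
  refine ⟨hQe, hzZ, hz1, hZz, hC, hN, ?_, ?_⟩
  · rw [Subgroup.card_map_of_injective (Subgroup.centralizer ({z} : Set G)).subtype_injective, hcard]
  · rw [← pow_two, ← hz]; exact pow_orderOf_eq_one z

/-- An element of `Q` in `G`. -/
abbrev qVal (x : Q) : G := ((x : Subgroup.centralizer ({z} : Set G)) : G)

theorem qVal_mem (x : Q) : qVal x ∈ qSub Q := ⟨x, x.2, rfl⟩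

theorem qVal_injective {x y : Q} (h : qVal x = qVal y) : x = y := Subtype.ext (Subtype.ext h)

theorem SettingFacts.mem_center_iff (F : SettingFacts Q) (x : Q) :
    x ∈ Subgroup.center Q ↔ qVal x = 1 ∨ qVal x = z := by
  have hiff : x ∈ Subgroup.center Q ↔ qVal x ∈ (Subgroup.center (qSub Q)).map (qSub Q).subtype := by
    rw [mem_centerImage_iff, Subgroup.mem_center_iff]
    constructor
    · intro h
      refine ⟨qVal_mem x, ?_⟩
      rintro _ ⟨y, hy, rfl⟩
      exact congrArg (fun a : Q => qVal a) (h ⟨y, hy⟩).symm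
    · rintro ⟨-, h⟩ y
      exact qVal_injective (h (qVal y) (qVal_mem y)).symm
  rw [hiff]
  refine ⟨F.eq_or, fun h => ?_⟩
  rcases h with h | h <;> rw [h]
  · exact Subgroup.one_mem _
  · exact F.mem_center

variable [Q.Normal] {e : (Subgroup.centralizer ({z} : Set G)) ⧸ Q ≃* Spor.Co1}
  {ψ : leechLattice → Q ⧸ Subgroup.center Q}

theorem psi_eq_iff (hψ : IsLeechModTwoIso Q e ψ) {v w : leechLattice} : ψ v = ψ w ↔ CongTwo v w := by
  obtain ⟨hadd, -, hker, -⟩ := hψ
  have hsub : ψ (v - w) * ψ w = ψ v := by rw [← hadd, sub_add_cancel]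
  constructor
  · intro h
    rw [h] at hsub
    obtain ⟨u, hu⟩ := (hker _).1 (mul_eq_right.1 hsub)
    exact ⟨u, by rw [← hu]; abel⟩
  · rintro ⟨u, rfl⟩
    rw [hadd, (hker (u + u)).2 ⟨u, rfl⟩, mul_one]

theorem psi_zero (hψ : IsLeechModTwoIso Q e ψ) : ψ 0 = 1 := (hψ.2.2.1 0).2 ⟨0, (add_zero 0).symm⟩

theorem card_leechMod (F : SettingFacts Q) (hQ : IsExtraspecial 2 Q) (hψ : IsLeechModTwoIso Q e ψ) :
    Nat.card LeechMod = 2 ^ 24 := by
  have h1 : Nat.card LeechMod = Nat.card (Q ⧸ Subgroup.center Q) := by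
    refine Nat.card_eq_of_bijective (fun m : LeechMod => ψ m.out) ⟨fun a b h => ?_, fun y => ?_⟩
    · rw [← QuotientAddGroup.out_eq' a, ← QuotientAddGroup.out_eq' b, mk_eq_iff_congTwo]
      exact (psi_eq_iff hψ).1 h
    · obtain ⟨v, rfl⟩ := hψ.2.1 y
      exact ⟨QuotientAddGroup.mk v, (psi_eq_iff hψ).2 (mk_eq_iff_congTwo.1 (QuotientAddGroup.out_eq' _))⟩
  have h2 := Subgroup.card_eq_card_quotient_mul_card_subgroup (Subgroup.center Q)
  have h3 : Nat.card Q = 2 ^ 25 := by
    rw [← F.card_eq, Subgroup.card_map_of_injective (Subgroup.centralizer ({z} : Set G)).subtype_injective]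
  rw [h3, hQ.2] at h2
  rw [h1]
  omega

theorem commForm_nondeg (hQ : IsExtraspecial 2 Q) (hψ : IsLeechModTwoIso Q e ψ) (v : leechLattice)
    (h : ∀ w, commForm ψ v w = 0) : ∃ u : leechLattice, v = u + u := by
  refine (hψ.2.2.1 v).1 ?_
  rw [← mk_liftVec (ψ := ψ) v, QuotientGroup.eq_one_iff, Subgroup.mem_center_iff]
  intro y
  obtain ⟨w, hw⟩ := hψ.2.1 (QuotientGroup.mk y)
  have h1 := commForm_eq hQ v w _ y (mk_liftVec (ψ := ψ) v).symm hw
  rw [h w, centerChar_eq_zero_iff, mul_inv_eq_one, mul_inv_eq_iff_eq_mul] at h1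
  exact h1.symm

/-- Elements over congruent images of classes are conjugate in the centraliser. -/
theorem exists_conj_of_class (F : SettingFacts Q) (hψ : IsLeechModTwoIso Q e ψ) {x y : Q} {v w : leechLattice}
    (g : Co0) (hv : ψ v = QuotientGroup.mk x) (hw : ψ w = QuotientGroup.mk y)
    (hy : y ∉ Subgroup.center Q) (hg : CongTwo (g • v) w) :
    ∃ h ∈ Subgroup.centralizer ({z} : Set G), h * qVal x * h⁻¹ = qVal y := by
  obtain ⟨h, hh⟩ := QuotientGroup.mk_surjective (e.symm (QuotientGroup.mk g))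
  have hgv := hψ.2.2.2 h g (by rw [hh, e.apply_symm_apply]) v x hv
  rw [(psi_eq_iff hψ).2 hg, hw, QuotientGroup.eq] at hgv
  rcases (F.mem_center_iff _).1 hgv with h1 | h1
  · refine ⟨h, h.2, ?_⟩
    simp only [qVal, Subgroup.coe_mul, InvMemClass.coe_inv] at h1
    exact (inv_mul_eq_one.1 h1).symm
  · have hyZ : qVal y ∉ (Subgroup.center (qSub Q)).map (qSub Q).subtype := fun hm =>
      hy ((F.mem_center_iff y).2 (F.eq_or hm))
    obtain ⟨q, hq, hqy⟩ := IsExtraspecial.exists_conj_eq_mul F.extra F.mem_center F.ne_one (qVal_mem y) hyZ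
    obtain ⟨q', -, rfl⟩ := hq
    refine ⟨((q' : Subgroup.centralizer ({z} : Set G)) : G) * (h : G),
      Subgroup.mul_mem _ q'.2 h.2, ?_⟩
    simp only [qVal, Subgroup.coe_mul, InvMemClass.coe_inv] at h1
    have h2 : (h : G) * qVal x * (h : G)⁻¹ = qVal y * z := inv_mul_eq_iff_eq_mul.1 h1
    have hzy : qVal y * z = z * qVal y :=
      (((mem_centerImage_iff _ z).1 F.mem_center).2 _ (qVal_mem y)).symm
    have hzq : (Subgroup.centralizer ({z} : Set G)).subtype q' * z =
        z * (Subgroup.centralizer ({z} : Set G)).subtype q' :=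
      Subgroup.mem_centralizer_singleton_iff.1 q'.2
    calc (q' : G) * h * qVal x * ((q' : G) * h)⁻¹ = (q' : G) * ((h : G) * qVal x * (h : G)⁻¹) * (q' : G)⁻¹ := by
          group
      _ = ((q' : G) * z) * qVal y * (q' : G)⁻¹ := by rw [h2, hzy]; group
      _ = (z * (q' : G)) * qVal y * (q' : G)⁻¹ := by rw [show (q' : G) * z = z * (q' : G) from hzq]
      _ = z * ((q' : G) * qVal y * (q' : G)⁻¹) := by group
      _ = z * (z * qVal y) := by rw [show (q' : G) * qVal y * (q' : G)⁻¹ = z * qVal y from hqy]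
      _ = qVal y := by rw [← mul_assoc, F.sq, one_mul]

theorem not_mem_center_of_class (hψ : IsLeechModTwoIso Q e ψ) {x : Q} {v : leechLattice}
    (hv : ψ v = QuotientGroup.mk x) (hn : sqNorm (coordVec v) = 32 ∨ sqNorm (coordVec v) = 64) :
    x ∉ Subgroup.center Q := by
  intro hx
  rw [(QuotientGroup.eq_one_iff x).2 hx, ← psi_zero hψ, psi_eq_iff hψ] at hv
  have h0 : sqNorm (coordVec (0 : leechLattice)) = 0 := by simp [coordVec, sqNorm]
  rcases congTwo_cases hv (by omega) (by omega) with r | r | ⟨-, r, -⟩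
  · rw [r, h0] at hn; omega
  · rw [r, neg_zero, h0] at hn; omega
  · omega

/-- A non-central involution of `Q` lies over a class of squared length 32 or 64. -/
theorem exists_class (F : SettingFacts Q) (hQ : IsExtraspecial 2 Q) (hψ : IsLeechModTwoIso Q e ψ) {x : Q}
    (hx2 : x * x = 1) (hxc : x ∉ Subgroup.center Q) :
    ∃ w : leechLattice, (sqNorm (coordVec w) = 32 ∨ sqNorm (coordVec w) = 64) ∧
      ψ w = QuotientGroup.mk x := by
  obtain ⟨v, hv⟩ := hψ.2.1 (QuotientGroup.mk x)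
  have hq : sqForm ψ v = 0 := by
    rw [← centerChar_sq_eq hQ v x hv, hx2, centerChar_one]
  rcases class_of_singular (isInvariantForm hQ hψ) (commForm_nondeg hQ hψ) (card_leechMod F hQ hψ) hq with
    ⟨u, hu⟩ | ⟨w, hw, hc⟩
  · exfalso
    apply hxc
    rw [← QuotientGroup.eq_one_iff, ← hv]
    exact (hψ.2.2.1 v).2 ⟨u, hu⟩
  · exact ⟨w, hw, by rw [← (psi_eq_iff hψ).2 hc, hv]⟩

/-- The data attached to a conjugate `s = g z g⁻¹` of `z` in `Q`, other than `z`. -/
structure ConjData (Q : Subgroup (Subgroup.centralizer ({z} : Set G))) (g : G) (x : Q) : Prop where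
  eq : qVal x = g * z * g⁻¹
  ne : qVal x ≠ z

theorem ConjData.notMem_center (F : SettingFacts Q) {g : G} {x : Q} (D : ConjData Q g x) :
    x ∉ Subgroup.center Q := by
  intro h
  rcases (F.mem_center_iff x).1 h with h | h
  · exact F.ne_one (conj_eq_one_iff.1 (D.eq.symm.trans h))
  · exact D.ne h

theorem ConjData.sq_eq_one (F : SettingFacts Q) {g : G} {x : Q} (D : ConjData Q g x) : x * x = 1 := by
  apply qVal_injective
  show qVal x * qVal x = 1
  rw [D.eq, show g * z * g⁻¹ * (g * z * g⁻¹) = g * (z * z) * g⁻¹ by group, F.sq]; group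

/-- The image in `C/Q` of the centraliser of `x`. -/
abbrev xImage (x : Q) : Subgroup ((Subgroup.centralizer ({z} : Set G)) ⧸ Q) :=
  ((Subgroup.centralizer ({z} : Set G) ⊓ Subgroup.centralizer ({qVal x} : Set G)).subgroupOf
    (Subgroup.centralizer ({z} : Set G))).map (QuotientGroup.mk' Q)

/-- The image in `C/Q` of the part of the conjugate of `Q` in `C`. -/
abbrev eImage (Q : Subgroup (Subgroup.centralizer ({z} : Set G))) [Q.Normal] (g : G) :
    Subgroup ((Subgroup.centralizer ({z} : Set G)) ⧸ Q) :=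
  (((qSub Q).map (MulAut.conj g).toMonoidHom ⊓ Subgroup.centralizer ({z} : Set G)).subgroupOf
    (Subgroup.centralizer ({z} : Set G))).map (QuotientGroup.mk' Q)

theorem commute_qVal_of_mem_conj (F : SettingFacts Q) {g a : G} {x : Q} (D : ConjData Q g x)
    (ha : a ∈ (qSub Q).map (MulAut.conj g).toMonoidHom) : a * qVal x = qVal x * a := by
  obtain ⟨b, hb, rfl⟩ := ha
  have hbz := ((mem_centerImage_iff _ z).1 F.mem_center).2 b hb
  show g * b * g⁻¹ * qVal x = qVal x * (g * b * g⁻¹)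
  rw [D.eq]
  calc g * b * g⁻¹ * (g * z * g⁻¹) = g * (b * z) * g⁻¹ := by group
    _ = g * (z * b) * g⁻¹ := by rw [hbz]
    _ = _ := by group

theorem eImage_le_xImage (F : SettingFacts Q) {g : G} {x : Q} (D : ConjData Q g x) :
    eImage Q g ≤ xImage x := by
  refine Subgroup.map_mono fun a ha => ?_
  obtain ⟨ha1, ha2⟩ := Subgroup.mem_subgroupOf.1 ha
  exact Subgroup.mem_subgroupOf.2 ⟨ha2,
    Subgroup.mem_centralizer_singleton_iff.2 (commute_qVal_of_mem_conj F D ha1)⟩

theorem eImage_normal (F : SettingFacts Q) {g : G} {x : Q} (D : ConjData Q g x) :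
    ∀ a ∈ xImage x, ∀ b ∈ eImage Q g, a * b * a⁻¹ ∈ eImage Q g := by
  rintro _ ⟨c, hc, rfl⟩ _ ⟨b, hb, rfl⟩
  obtain ⟨hb1, hb2⟩ := Subgroup.mem_subgroupOf.1 hb
  obtain ⟨hc1, hc2⟩ := Subgroup.mem_subgroupOf.1 hc
  refine ⟨c * b * c⁻¹, Subgroup.mem_subgroupOf.2 ⟨?_, Subgroup.mul_mem _ (Subgroup.mul_mem _ hc1 hb2)
    (Subgroup.inv_mem _ hc1)⟩, by simp⟩
  have hcs : (c : G) * qVal x = qVal x * c := Subgroup.mem_centralizer_singleton_iff.1 hc2
  have h1 : g⁻¹ * (c : G) * g ∈ Subgroup.centralizer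
      (((Subgroup.center (qSub Q)).map (qSub Q).subtype : Subgroup G) : Set G) := by
    rw [Subgroup.mem_centralizer_iff]
    intro y hy
    rcases F.eq_or hy with rfl | rfl
    · simp
    · rw [D.eq] at hcs
      calc y * (g⁻¹ * c * g) = g⁻¹ * ((g * y * g⁻¹) * c) * g := by group
        _ = g⁻¹ * (c * (g * y * g⁻¹)) * g := by rw [hcs]
        _ = _ := by group
  obtain ⟨b0, hb0, hb0e⟩ := hb1
  refine ⟨g⁻¹ * c * g * b0 * (g⁻¹ * c * g)⁻¹,
    ((Subgroup.mem_normalizer_iff.1 (F.normalizes h1)) b0).1 hb0, ?_⟩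
  simp only [MulEquiv.toMonoidHom_eq_coe, MonoidHom.coe_coe, MulAut.conj_apply,
    Subgroup.coe_subtype] at hb0e ⊢
  simp only [Subgroup.coe_mul, InvMemClass.coe_inv]
  rw [← hb0e]; group

theorem eImage_mul_self_comm (F : SettingFacts Q) {g : G} {x : Q} (D : ConjData Q g x) :
    (∀ a ∈ eImage Q g, ∀ b ∈ eImage Q g, a * b = b * a) ∧ ∀ a ∈ eImage Q g, a * a = 1 := by
  have key : ∀ c : Subgroup.centralizer ({z} : Set G), ((c : G) = 1 ∨ (c : G) = g * z * g⁻¹) →
      QuotientGroup.mk' Q c = 1 := by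
    intro c hc
    rw [QuotientGroup.mk'_apply, QuotientGroup.eq_one_iff]
    rcases hc with h | h
    · rw [show c = 1 from Subtype.ext h]; exact Q.one_mem
    · rw [show c = (x : Subgroup.centralizer ({z} : Set G)) from Subtype.ext (h.trans D.eq.symm)]
      exact x.2
  have hpre : ∀ a : Subgroup.centralizer ({z} : Set G),
      a ∈ (((qSub Q).map (MulAut.conj g).toMonoidHom ⊓ Subgroup.centralizer ({z} : Set G)).subgroupOf
        (Subgroup.centralizer ({z} : Set G))) → ∃ a₀ ∈ qSub Q, (a : G) = g * a₀ * g⁻¹ := by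
    intro a ha
    obtain ⟨⟨a₀, ha₀, e⟩, -⟩ := Subgroup.mem_subgroupOf.1 ha
    exact ⟨a₀, ha₀, e.symm⟩
  constructor
  · rintro _ ⟨a, ha, rfl⟩ _ ⟨b, hb, rfl⟩
    obtain ⟨a₀, ha₀, ea⟩ := hpre a ha
    obtain ⟨b₀, hb₀, eb⟩ := hpre b hb
    have h : QuotientGroup.mk' Q (a * b * a⁻¹ * b⁻¹) = 1 := key _ (by
      simp only [Subgroup.coe_mul, InvMemClass.coe_inv, ea, eb]
      rcases F.eq_or (IsExtraspecial.commutator_mem F.extra ha₀ hb₀) with h | h
      · left
        calc _ = g * (a₀ * b₀ * a₀⁻¹ * b₀⁻¹) * g⁻¹ := by group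
          _ = 1 := by rw [h]; group
      · right
        calc _ = g * (a₀ * b₀ * a₀⁻¹ * b₀⁻¹) * g⁻¹ := by group
          _ = _ := by rw [h])
    rwa [map_mul, map_mul, map_mul, map_inv, map_inv, mul_inv_eq_one, mul_inv_eq_iff_eq_mul] at h
  · rintro _ ⟨a, ha, rfl⟩
    obtain ⟨a₀, ha₀, ea⟩ := hpre a ha
    rw [← map_mul]
    refine key _ ?_
    simp only [Subgroup.coe_mul, ea]
    have h2 := IsExtraspecial.sq_mem F.extra ha₀
    rw [pow_two] at h2
    rcases F.eq_or h2 with h | h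
    · left; rw [show g * a₀ * g⁻¹ * (g * a₀ * g⁻¹) = g * (a₀ * a₀) * g⁻¹ by group, h]; group
    · right; rw [show g * a₀ * g⁻¹ * (g * a₀ * g⁻¹) = g * (a₀ * a₀) * g⁻¹ by group, h]

theorem card_conj_inf_centralizer (F : SettingFacts Q) {g : G} {x : Q} (D : ConjData Q g x) :
    Nat.card ((qSub Q).map (MulAut.conj g).toMonoidHom ⊓ Subgroup.centralizer ({z} : Set G) : Subgroup G) =
      2 ^ 24 := by
  have hzmem : z ∈ (qSub Q).map (MulAut.conj g).toMonoidHom :=
    mem_conj_of_conj_mem F.extra F.centralizer_eq F.normalizes (by rw [F.card_eq]; norm_num) F.mem_center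
      F.ne_one (D.eq ▸ qVal_mem x) (fun h => D.ne (D.eq.trans h))
  obtain ⟨z₀, hz₀, hz₀e⟩ := hzmem
  have hz₀' : g * z₀ * g⁻¹ = z := hz₀e
  have hz₀Z : z₀ ∉ (Subgroup.center (qSub Q)).map (qSub Q).subtype := by
    intro h
    rcases F.eq_or h with rfl | rfl
    · exact F.ne_one (by rw [← hz₀']; group)
    · exact D.ne (D.eq.trans hz₀')
  obtain ⟨f, hf⟩ := exists_commHom F.extra hz₀
  have hker : ∀ y : qSub Q, y ∈ f.ker ↔ (y : G) * z₀ = z₀ * y := fun y => by
    rw [MonoidHom.mem_ker, Subtype.ext_iff, hf, Subgroup.coe_one, mul_inv_eq_one, mul_inv_eq_iff_eq_mul]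
  have hidx : f.ker.index = 2 := by
    have h2 := f.ker.index_ne_zero_of_finite
    rw [Subgroup.index_ker] at h2 ⊢
    have hd : Nat.card f.range ∣ 2 := by
      rw [← IsExtraspecial.card_centerImage F.extra]; exact Subgroup.card_subgroup_dvd_card _
    rcases (Nat.dvd_prime Nat.prime_two).1 hd with h | h
    · exfalso
      apply hz₀Z
      refine (mem_centerImage_iff _ _).2 ⟨hz₀, fun y hy => ?_⟩
      have hm : f ⟨y, hy⟩ ∈ f.range := ⟨_, rfl⟩
      rw [Subgroup.card_eq_one.1 h, Subgroup.mem_bot] at hm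
      exact ((hker ⟨y, hy⟩).1 (MonoidHom.mem_ker.2 hm)).symm
    · exact h
  have hk24 : Nat.card f.ker = 2 ^ 24 := by
    have := Subgroup.card_mul_index f.ker
    rw [hidx, F.card_eq] at this
    omega
  rw [← hk24, ← Subgroup.card_map_of_injective (qSub Q).subtype_injective,
    ← Subgroup.card_map_of_injective (MulAut.conj g).injective (f := (MulAut.conj g).toMonoidHom)
      (K := f.ker.map (qSub Q).subtype)]
  congr 2
  ext a
  constructor
  · rintro ⟨⟨b, hb, rfl⟩, hac⟩
    refine ⟨b, ⟨⟨b, hb⟩, (hker _).2 ?_, rfl⟩, rfl⟩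
    have := Subgroup.mem_centralizer_singleton_iff.1 hac
    change g * b * g⁻¹ * z = z * (g * b * g⁻¹) at this
    rw [← hz₀'] at this
    have h3 : g * (b * z₀) * g⁻¹ = g * (z₀ * b) * g⁻¹ := by
      calc g * (b * z₀) * g⁻¹ = g * b * g⁻¹ * (g * z₀ * g⁻¹) := by group
        _ = g * z₀ * g⁻¹ * (g * b * g⁻¹) := this
        _ = _ := by group
    exact mul_left_cancel (mul_right_cancel h3)
  · rintro ⟨b, ⟨⟨b', hb'⟩, hbk, rfl⟩, rfl⟩
    refine ⟨⟨b', hb', rfl⟩, Subgroup.mem_centralizer_singleton_iff.2 ?_⟩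
    have h := (hker _).1 hbk
    show g * b' * g⁻¹ * z = z * (g * b' * g⁻¹)
    rw [← hz₀']
    calc g * b' * g⁻¹ * (g * z₀ * g⁻¹) = g * (b' * z₀) * g⁻¹ := by group
      _ = g * (z₀ * b') * g⁻¹ := by rw [show b' * z₀ = z₀ * b' from h]
      _ = _ := by group

theorem card_eImage_mul (F : SettingFacts Q) {g : G} {x : Q} (D : ConjData Q g x) :
    Nat.card (eImage Q g) * Nat.card (qSub Q ⊓ (qSub Q).map (MulAut.conj g).toMonoidHom : Subgroup G) =
      2 ^ 24 := by
  set A := (qSub Q).map (MulAut.conj g).toMonoidHom ⊓ Subgroup.centralizer ({z} : Set G) with hA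
  set A' := A.subgroupOf (Subgroup.centralizer ({z} : Set G)) with hA'
  set φ := (QuotientGroup.mk' Q).domRestrict A' with hφ
  have hrange : φ.range = eImage Q g := MonoidHom.domRestrict_range A' (QuotientGroup.mk' Q)
  have hAcard : Nat.card A' = 2 ^ 24 := by
    rw [← card_conj_inf_centralizer F D, hA']
    exact Nat.card_congr (Subgroup.subgroupOfEquivOfLe inf_le_right).toEquiv
  have hk : Nat.card φ.ker =
      Nat.card (qSub Q ⊓ (qSub Q).map (MulAut.conj g).toMonoidHom : Subgroup G) := by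
    refine Nat.card_eq_of_bijective (fun a => ⟨((a : A') : Subgroup.centralizer ({z} : Set G)), ?_⟩) ⟨?_, ?_⟩
    · have h1 : ((a : A') : Subgroup.centralizer ({z} : Set G)) ∈ Q :=
        (QuotientGroup.eq_one_iff _).1 (MonoidHom.mem_ker.1 a.2)
      exact ⟨⟨_, h1, rfl⟩, (Subgroup.mem_subgroupOf.1 (a : A').2).1⟩
    · intro a b h
      exact Subtype.ext (Subtype.ext (Subtype.ext (congrArg Subtype.val h :)))
    · rintro ⟨a, ⟨a', ha', rfl⟩, hag⟩
      refine ⟨⟨⟨a', Subgroup.mem_subgroupOf.2 ⟨hag, a'.2⟩⟩, ?_⟩, rfl⟩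
      exact MonoidHom.mem_ker.2 ((QuotientGroup.eq_one_iff a').2 ha')
  rw [← hrange, ← Subgroup.index_ker, ← hk, mul_comm, Subgroup.card_mul_index, hAcard]

theorem card_inf_conj_le (F : SettingFacts Q) (hQ : IsExtraspecial 2 Q) (hψ : IsLeechModTwoIso Q e ψ)
    {g : G} {x : Q} (D : ConjData Q g x) :
    Nat.card (qSub Q ⊓ (qSub Q).map (MulAut.conj g).toMonoidHom : Subgroup G) ≤ 2 ^ 13 := by
  classical
  set D' := qSub Q ⊓ (qSub Q).map (MulAut.conj g).toMonoidHom with hD'
  have hcomm : ∀ a ∈ D', ∀ b ∈ D', a * b = b * a := by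
    rintro a ⟨ha, a₀, ha₀, rfl⟩ b ⟨hb, b₀, hb₀, rfl⟩
    rcases F.eq_or (IsExtraspecial.commutator_mem F.extra ha hb) with h | h
    · exact mul_inv_eq_iff_eq_mul.1 (mul_inv_eq_one.1 h)
    · exfalso
      change g * a₀ * g⁻¹ * (g * b₀ * g⁻¹) * (g * a₀ * g⁻¹)⁻¹ * (g * b₀ * g⁻¹)⁻¹ = z at h
      rw [show g * a₀ * g⁻¹ * (g * b₀ * g⁻¹) * (g * a₀ * g⁻¹)⁻¹ * (g * b₀ * g⁻¹)⁻¹ =
        g * (a₀ * b₀ * a₀⁻¹ * b₀⁻¹) * g⁻¹ by group] at h
      rcases F.eq_or (IsExtraspecial.commutator_mem F.extra ha₀ hb₀) with h' | h' <;> rw [h'] at h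
      · exact F.ne_one (by rw [← h]; group)
      · exact D.ne (D.eq.trans h)
  let D0 : Subgroup Q := (D'.subgroupOf (Subgroup.centralizer ({z} : Set G))).subgroupOf Q
  have hD0 : Nat.card D0 = Nat.card D' := by
    refine Nat.card_eq_of_bijective (fun a => ⟨qVal (a : Q), a.2⟩) ⟨fun a b h => ?_, ?_⟩
    · exact Subtype.ext (qVal_injective (congrArg Subtype.val h :))
    · rintro ⟨a, ha⟩
      obtain ⟨a', ha', rfl⟩ := ha.1
      exact ⟨⟨⟨a', ha'⟩, ha⟩, rfl⟩
  let W : AddSubgroup LeechMod :=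
    { carrier := {m | ψ m.out ∈ D0.map (QuotientGroup.mk' (Subgroup.center Q))}
      zero_mem' := by
        show ψ (0 : LeechMod).out ∈ D0.map (QuotientGroup.mk' (Subgroup.center Q))
        rw [(psi_eq_iff hψ).2 (mk_eq_iff_congTwo.1 (QuotientAddGroup.out_eq' (0 : LeechMod)) :
          CongTwo (0 : LeechMod).out 0), psi_zero hψ]
        exact Subgroup.one_mem _
      add_mem' := fun {a b} ha hb => by
        show ψ (a + b).out ∈ D0.map (QuotientGroup.mk' (Subgroup.center Q))
        rw [(psi_eq_iff hψ).2 (mk_eq_iff_congTwo.1 (by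
          rw [QuotientAddGroup.out_eq', QuotientAddGroup.mk_add, QuotientAddGroup.out_eq',
            QuotientAddGroup.out_eq']) : CongTwo (a + b).out (a.out + b.out)), hψ.1]
        exact mul_mem ha hb
      neg_mem' := fun {a} ha => by
        rw [show -a = a from neg_eq_of_add_eq_zero_left (leechMod_add_self a)]; exact ha }
  have hWle : Nat.card W ≤ 2 ^ 12 := by
    refine card_isotropic_le (isInvariantForm hQ hψ) (commForm_nondeg hQ hψ) (card_leechMod F hQ hψ) W ?_
    rintro a ⟨a', ha', hae⟩ b ⟨b', hb', hbe⟩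
    rw [← commForm_eq hQ _ _ a' b' hae.symm hbe.symm, centerChar_eq_zero_iff]
    apply qVal_injective
    show qVal a' * qVal b' * (qVal a')⁻¹ * (qVal b')⁻¹ = 1
    rw [show qVal a' * qVal b' = qVal b' * qVal a' from hcomm _ ha' _ hb']; group
  have hmap : Nat.card W = Nat.card (D0.map (QuotientGroup.mk' (Subgroup.center Q))) := by
    refine Nat.card_eq_of_bijective (fun m => ⟨ψ (m : LeechMod).out, m.2⟩) ⟨fun a b h => ?_, ?_⟩
    · apply Subtype.ext
      rw [← QuotientAddGroup.out_eq' (a : LeechMod), ← QuotientAddGroup.out_eq' (b : LeechMod),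
        mk_eq_iff_congTwo]
      exact (psi_eq_iff hψ).1 (congrArg Subtype.val h :)
    · rintro ⟨y, hy⟩
      obtain ⟨v, rfl⟩ := hψ.2.1 y
      have hv : ψ (QuotientAddGroup.mk v : LeechMod).out = ψ v :=
        (psi_eq_iff hψ).2 (mk_eq_iff_congTwo.1 (QuotientAddGroup.out_eq' _))
      exact ⟨⟨QuotientAddGroup.mk v, show ψ _ ∈ _ by rw [hv]; exact hy⟩, Subtype.ext hv⟩
  have hkr : Nat.card D0 ≤ 2 * Nat.card (D0.map (QuotientGroup.mk' (Subgroup.center Q))) := by
    set φ := (QuotientGroup.mk' (Subgroup.center Q)).domRestrict D0 with hφ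
    have h1 := Subgroup.card_mul_index φ.ker
    rw [Subgroup.index_ker, MonoidHom.domRestrict_range] at h1
    have h2 : Nat.card φ.ker ≤ 2 := by
      rw [← hQ.2]
      refine Nat.card_le_card_of_injective
        (fun a => (⟨((a : D0) : Q), (QuotientGroup.eq_one_iff _).1 (MonoidHom.mem_ker.1 a.2)⟩ :
          Subgroup.center Q)) fun a b h => Subtype.ext (Subtype.ext (congrArg Subtype.val h :))
    rw [← h1]
    exact Nat.mul_le_mul_right _ h2
  omega

theorem eImage_ne_bot (F : SettingFacts Q) (hQ : IsExtraspecial 2 Q) (hψ : IsLeechModTwoIso Q e ψ)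
    {g : G} {x : Q} (D : ConjData Q g x) : eImage Q g ≠ ⊥ := by
  intro h
  have h1 := card_eImage_mul F D
  have h2 := card_inf_conj_le F hQ hψ D
  rw [h, Subgroup.card_bot, one_mul] at h1
  omega

/-- An automorphism over the image of a centralising element fixes the class. -/
theorem congTwo_of_mem_xImage (hψ : IsLeechModTwoIso Q e ψ) {x : Q} {v : leechLattice}
    (hv : ψ v = QuotientGroup.mk x) {g : Co0} {a : (Subgroup.centralizer ({z} : Set G)) ⧸ Q}
    (ha : a ∈ xImage x) (hg : (QuotientGroup.mk g : Spor.Co1) = e a) : CongTwo (g • v) v := by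
  obtain ⟨c, hc, rfl⟩ := ha
  have h := hψ.2.2.2 c g hg v x hv
  rw [← psi_eq_iff hψ, h, hv]
  congr 1
  apply qVal_injective
  show (c : G) * qVal x * (c : G)⁻¹ = qVal x
  have := Subgroup.mem_centralizer_singleton_iff.1 (Subgroup.mem_subgroupOf.1 hc).2
  rw [this, mul_inv_cancel_right]

/-- Conversely an automorphism fixing the class lies over the image of the centraliser. -/
theorem mem_xImage_of_congTwo (F : SettingFacts Q) (hψ : IsLeechModTwoIso Q e ψ) {x : Q}
    (hx : x ∉ Subgroup.center Q) {v : leechLattice} (hv : ψ v = QuotientGroup.mk x) {g : Co0}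
    (hg : CongTwo (g • v) v) : e.symm (QuotientGroup.mk g) ∈ xImage x := by
  obtain ⟨c, hc⟩ := QuotientGroup.mk_surjective (e.symm (QuotientGroup.mk g))
  have h := hψ.2.2.2 c g (by rw [hc, e.apply_symm_apply]) v x hv
  rw [(psi_eq_iff hψ).2 hg, hv, QuotientGroup.eq] at h
  rcases (F.mem_center_iff _).1 h with h1 | h1 <;>
    simp only [qVal, Subgroup.coe_mul, InvMemClass.coe_inv] at h1
  · refine ⟨c, Subgroup.mem_subgroupOf.2 ⟨c.2, Subgroup.mem_centralizer_singleton_iff.2
      (mul_inv_eq_iff_eq_mul.1 (inv_mul_eq_one.1 h1).symm)⟩, hc⟩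
  · obtain ⟨q, ⟨q', hq', rfl⟩, hqx⟩ := IsExtraspecial.exists_conj_eq_mul F.extra F.mem_center F.ne_one
      (qVal_mem x) (fun hm => hx ((F.mem_center_iff x).2 (F.eq_or hm)))
    refine ⟨q' * c, Subgroup.mem_subgroupOf.2 ⟨(q' * c).2, ?_⟩, ?_⟩
    · refine Subgroup.mem_centralizer_singleton_iff.2 (mul_inv_eq_iff_eq_mul.1 ?_)
      have h2 : (c : G) * qVal x * (c : G)⁻¹ = qVal x * z := inv_mul_eq_iff_eq_mul.1 h1
      have hzx : qVal x * z = z * qVal x :=
        (((mem_centerImage_iff _ z).1 F.mem_center).2 _ (qVal_mem x)).symm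
      have hzq : (q' : G) * z = z * (q' : G) := Subgroup.mem_centralizer_singleton_iff.1 q'.2
      rw [Subgroup.coe_mul]
      calc (q' : G) * c * qVal x * ((q' : G) * c)⁻¹ = (q' : G) * ((c : G) * qVal x * (c : G)⁻¹) * (q' : G)⁻¹ := by
            group
        _ = ((q' : G) * z) * qVal x * (q' : G)⁻¹ := by rw [h2, hzx]; group
        _ = (z * (q' : G)) * qVal x * (q' : G)⁻¹ := by rw [hzq]
        _ = z * ((q' : G) * qVal x * (q' : G)⁻¹) := by group
        _ = z * (z * qVal x) := by rw [show (q' : G) * qVal x * (q' : G)⁻¹ = z * qVal x from hqx]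
        _ = qVal x := by rw [← mul_assoc, F.sq, one_mul]
    · rw [QuotientGroup.mk'_apply, QuotientGroup.mk_mul, (QuotientGroup.eq_one_iff q').2 hq', one_mul, hc]

theorem isPGroup_center_co0 : IsPGroup 2 (Subgroup.center Co0) := fun g => ⟨1, by
  apply Subtype.ext
  show (g : Co0) ^ (2 ^ 1) = 1
  rcases center_co0 g.2 with e | e <;> rw [e]
  · exact one_pow _
  · rw [pow_one, pow_two]
    exact co0_ext fun v p => by rw [mul_smul, coordVec_negAut, coordVec_negAut, neg_neg, one_smul]⟩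

theorem isPGroup_eImage (F : SettingFacts Q) (g : G) : IsPGroup 2 (eImage Q g) := by
  refine IsPGroup.map (IsPGroup.of_equiv ?_ (Subgroup.subgroupOfEquivOfLe inf_le_right).symm) _
  exact ((IsExtraspecial.isPGroup F.extra).map _).to_le inf_le_left

/-- A conjugate of `z` in `Q` other than `z` does not lie over a short class. -/
theorem sqNorm_ne_of_conj (F : SettingFacts Q) (hQ : IsExtraspecial 2 Q) (hψ : IsLeechModTwoIso Q e ψ)
    {g : G} {x : Q} (D : ConjData Q g x) {v : leechLattice} (hv : ψ v = QuotientGroup.mk x) :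
    sqNorm (coordVec v) ≠ 32 := by
  intro hn
  obtain ⟨g₀, hg₀⟩ : SameOrbit v Spor.leechU' :=
    (sameOrbit_norm32 hn (show (none : GolayPt) ≠ some 0 by simp)).trans
      (sameOrbit_norm32 sqNorm_uu (show (none : GolayPt) ≠ some 0 by simp)).symm
  set π := QuotientGroup.mk' (Subgroup.center Co0) with hπ
  set N : Subgroup Co0 := (((eImage Q g).map e.toMonoidHom).comap π).map (MulAut.conj g₀).toMonoidHom with hN
  have hN2 : IsPGroup 2 N := by
    refine IsPGroup.map ?_ _
    refine IsPGroup.comap_of_ker_isPGroup ((isPGroup_eImage F g).map _) π ?_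
    rw [QuotientGroup.ker_mk']; exact isPGroup_center_co0
  have hcl : ∀ h : Co0, InStab (g₀ * h * g₀⁻¹) ↔ CongTwo (h • v) v := by
    intro h
    have e1 : (g₀ * h * g₀⁻¹) • Spor.leechU' = g₀ • h • v := by
      rw [← hg₀, mul_smul, mul_smul, inv_smul_smul]
    constructor
    · intro hh
      have h2 : CongTwo (g₀ • h • v) (g₀ • v) := by
        rw [hg₀, ← e1]
        rcases hh with r | r <;> rw [r]
        · exact CongTwo.refl _
        · exact congTwo_neg _
      simpa using h2.smul g₀⁻¹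
    · intro hc
      show _ = _ ∨ _ = _
      rw [e1]
      have h2 := hc.smul g₀
      rw [hg₀] at h2
      rcases congTwo_cases h2 (by rw [sqNorm_smul', sqNorm_smul', hn]; norm_num) (by rw [sqNorm_uu]; norm_num)
        with r | r | ⟨-, r, -⟩
      · exact Or.inl r
      · exact Or.inr r
      · rw [sqNorm_uu] at r; norm_num at r
  have hstab : ∀ n ∈ N, InStab n := by
    rintro _ ⟨h, hh, rfl⟩
    obtain ⟨a, ha, hae⟩ := hh
    exact (hcl h).2 (congTwo_of_mem_xImage hψ hv (eImage_le_xImage F D ha) hae.symm)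
  have hnorm : ∀ k : Co0, InStab k → ∀ n ∈ N, k * n * k⁻¹ ∈ N := by
    rintro k hk _ ⟨h, ⟨a, ha, hae⟩, rfl⟩
    set k₀ := g₀⁻¹ * k * g₀ with hk₀
    have hk0 : CongTwo (k₀ • v) v := (hcl k₀).1 (by rw [hk₀]; simpa [mul_assoc] using hk)
    have hb := mem_xImage_of_congTwo F hψ (D.notMem_center F) hv hk0
    refine ⟨k₀ * h * k₀⁻¹, ⟨_, eImage_normal F D _ hb _ ha, ?_⟩, ?_⟩
    · change e a = _ at hae
      show e (_ * a * _⁻¹) = _
      rw [map_mul, map_mul, map_inv, e.apply_symm_apply, hae]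
      rfl
    · show g₀ * (k₀ * h * k₀⁻¹) * g₀⁻¹ = k * (g₀ * h * g₀⁻¹) * k⁻¹
      rw [hk₀]; group
  refine eImage_ne_bot F hQ hψ D ((Subgroup.eq_bot_iff_forall _).2 fun a ha => ?_)
  obtain ⟨h, hh⟩ := QuotientGroup.mk_surjective (e a)
  have hmem : g₀ * h * g₀⁻¹ ∈ N := ⟨h, ⟨a, ha, hh.symm⟩, rfl⟩
  have hc : g₀ * h * g₀⁻¹ ∈ Subgroup.center Co0 := by
    rcases stab_short_no_normal hN2 hstab hnorm hmem with r | r <;> rw [r]
    · exact Subgroup.one_mem _
    · exact negAut_mem_center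
  have hc' : h ∈ Subgroup.center Co0 := by
    have := (inferInstance : (Subgroup.center Co0).Normal).conj_mem _ hc g₀⁻¹
    simpa [mul_assoc] using this
  apply e.injective
  rw [map_one, ← hh]
  exact (QuotientGroup.eq_one_iff h).2 hc'

/-- A conjugate of `z` in `Q` other than `z` lies over a class of squared length 64. -/
theorem exists_class_of_conj (F : SettingFacts Q) (hQ : IsExtraspecial 2 Q) (hψ : IsLeechModTwoIso Q e ψ)
    {g : G} {x : Q} (D : ConjData Q g x) :
    ∃ v : leechLattice, sqNorm (coordVec v) = 64 ∧ ψ v = QuotientGroup.mk x := by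
  obtain ⟨w, hw | hw, hwx⟩ := exists_class F hQ hψ (D.sq_eq_one F) (D.notMem_center F)
  · exact absurd hw (sqNorm_ne_of_conj F hQ hψ D hwx)
  · exact ⟨w, hw, hwx⟩

/-- Any two elements over classes of squared length 64 are conjugate in the centraliser. -/
theorem exists_conj_of_norm64 (F : SettingFacts Q) (hψ : IsLeechModTwoIso Q e ψ) {x y : Q}
    {v w : leechLattice} (hv : sqNorm (coordVec v) = 64) (hw : sqNorm (coordVec w) = 64)
    (hvx : ψ v = QuotientGroup.mk x) (hwy : ψ w = QuotientGroup.mk y) :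
    ∃ h ∈ Subgroup.centralizer ({z} : Set G), h * qVal x * h⁻¹ = qVal y := by
  obtain ⟨g₁, h₁⟩ := isAxisClass_norm64 v hv
  obtain ⟨g₂, h₂⟩ := isAxisClass_norm64 w hw
  refine exists_conj_of_class F hψ (g₂⁻¹ * g₁) hvx hwy (not_mem_center_of_class hψ hwy (Or.inr hw)) ?_
  have := (h₁.trans h₂.symm).smul g₂⁻¹
  rwa [inv_smul_smul, ← mul_smul] at this

/-- In `Q` the conjugates of `z` other than `z` are exactly the elements over classes of squared length 64. -/
theorem conj_iff_class (hS : IsExtraspecialCentralizerSetting z Q 12) (hψ : IsLeechModTwoIso Q e ψ) (x : Q) :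
    (IsConj z (qVal x) ∧ qVal x ≠ z) ↔
      ∃ v : leechLattice, sqNorm (coordVec v) = 64 ∧ ψ v = QuotientGroup.mk x := by
  have F := settingFacts hS
  obtain ⟨-, -, hQ, -, g, ⟨hq, hgQ⟩, hgne⟩ := hS
  constructor
  · rintro ⟨hc, hne⟩
    obtain ⟨g', hg'⟩ := isConj_iff.1 hc
    exact exists_class_of_conj F hQ hψ ⟨hg'.symm, hne⟩
  · rintro ⟨v, hv, hvx⟩
    let y : Q := ⟨⟨g * z * g⁻¹, hq⟩, hgQ⟩
    obtain ⟨w, hw, hwy⟩ := exists_class_of_conj F hQ hψ (g := g) (x := y) ⟨rfl, hgne⟩
    obtain ⟨h, hh, hxy⟩ := exists_conj_of_norm64 F hψ hw hv hwy hvx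
    refine ⟨isConj_iff.2 ⟨h * g, ?_⟩, fun e => ?_⟩
    · rw [← hxy]; show _ = h * (g * z * g⁻¹) * h⁻¹; group
    · exact not_mem_center_of_class hψ hvx (Or.inr hv) ((F.mem_center_iff x).2 (Or.inr e))

end CfsgLib.Fischer2
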