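import Cfsg.Agent.Lib.Fischer2.MonsterClasses
import Cfsg.Agent.Lib.Fischer2.LeechFrameNormal

/-!
In a group of Monster type the centraliser in `C/Q` of a second conjugate of the central involution
in `Q` is `2¹¹` extended by the Mathieu group of degree 24.
-/

set_option autoImplicit false

namespace CfsgLib.Fischer2

open Cfsg CfsgLib.Leech

variable {G : Type*} [Group G] [Finite G] {z : G} {Q : Subgroup (Subgroup.centralizer ({z} : Set G))}
  [Q.Normal] {e : (Subgroup.centralizer ({z} : Set G)) ⧸ Q ≃* Spor.Co1}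
  {ψ : leechLattice → Q ⧸ Subgroup.center Q}

/-- The structure of the two subgroups attached to a conjugate of `z` in `Q`. -/
theorem frame_structure (F : SettingFacts Q) (hQ : IsExtraspecial 2 Q) (hψ : IsLeechModTwoIso Q e ψ)
    {g : G} {x : Q} (D : ConjData Q g x) :
    eImage Q g ≤ xImage x ∧ (∀ a ∈ xImage x, ∀ b ∈ eImage Q g, a * b * a⁻¹ ∈ eImage Q g) ∧
      IsElementaryAbelian 2 (eImage Q g) ∧ Nat.card (eImage Q g) = 2 ^ 11 ∧
      ∃ K : Subgroup ((Subgroup.centralizer ({z} : Set G)) ⧸ Q),
        K ≤ xImage x ∧ eImage Q g ⊓ K = ⊥ ∧ eImage Q g ⊔ K = xImage x ∧ Nonempty (K ≃* M24) := by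
  obtain ⟨v, hvn, hv⟩ := exists_class_of_conj F hQ hψ D
  obtain ⟨g₁, hg₁⟩ := isAxisClass_norm64 v hvn
  have hxc := D.notMem_center F
  obtain ⟨hEab, hEsq⟩ := eImage_mul_self_comm F D
  let θ : Co0 →* (Subgroup.centralizer ({z} : Set G)) ⧸ Q :=
    (e.symm.toMonoidHom.comp (QuotientGroup.mk' (Subgroup.center Co0))).comp
      (MulAut.conj g₁⁻¹).toMonoidHom
  have hθ : ∀ h, θ h = e.symm (QuotientGroup.mk (g₁⁻¹ * h * g₁⁻¹⁻¹)) := fun h => rfl
  have hsurj : Function.Surjective θ := fun a => by
    obtain ⟨h, hh⟩ := QuotientGroup.mk_surjective (e a)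
    refine ⟨g₁ * h * g₁⁻¹, ?_⟩
    rw [hθ, show g₁⁻¹ * (g₁ * h * g₁⁻¹) * g₁⁻¹⁻¹ = h by group, hh, e.symm_apply_apply]
  have hker : ∀ h, θ h = 1 ↔ h ∈ Subgroup.center Co0 := fun h => by
    rw [hθ, MulEquiv.map_eq_one_iff, QuotientGroup.eq_one_iff]
    constructor
    · intro hc
      have := (inferInstance : (Subgroup.center Co0).Normal).conj_mem _ hc g₁
      simpa [mul_assoc] using this
    · exact fun hc => (inferInstance : (Subgroup.center Co0).Normal).conj_mem _ hc g₁⁻¹
  have hcl : ∀ h, θ h ∈ xImage x ↔ CongTwo (h • vecA) vecA := by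
    intro h
    have key : CongTwo ((g₁⁻¹ * h * g₁⁻¹⁻¹) • v) v ↔ CongTwo (h • vecA) vecA := by
      rw [inv_inv, mul_smul, mul_smul]
      constructor
      · intro hc
        have h1 := (hc.smul g₁).trans hg₁
        rw [smul_inv_smul] at h1
        exact (hg₁.smul h).symm.trans h1
      · intro hc
        have h1 := ((hg₁.smul h).trans hc).trans hg₁.symm
        simpa using h1.smul g₁⁻¹
    rw [← key]
    constructor
    · exact fun ha => congTwo_of_mem_xImage hψ hv ha (by rw [hθ, e.apply_symm_apply])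
    · exact fun hc => mem_xImage_of_congTwo F hψ hxc hv hc
  have hmonoX : ∀ (d : golayCode) (σ : M24), θ (signAut d * permAut σ) ∈ xImage x := fun d σ =>
    (hcl _).2 (smul_vecA_monomial d σ)
  have hsignX : ∀ d : golayCode, θ (signAut d) ∈ xImage x := fun d => by
    have := hmonoX d 1
    rwa [← permHom_apply, map_one, mul_one] at this
  have hpermX : ∀ σ : M24, θ (permAut σ) ∈ xImage x := fun σ => by
    have := hmonoX 0 σ
    rwa [signAut_zero, one_mul] at this
  set N := (eImage Q g).comap θ with hN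
  have hNeq : N = signHom.range := by
    refine eq_range_signHom (fun n hn => exists_monomial ((hcl n).1 (eImage_le_xImage F D hn))) ?_
      (fun d n hn => ?_) (fun σ n hn => ?_) (fun a ha b hb => ?_) ?_
    · show θ negAut ∈ eImage Q g
      rw [(hker _).2 negAut_mem_center]; exact Subgroup.one_mem _
    · show θ _ ∈ eImage Q g
      rw [map_mul, map_mul, map_inv]
      exact eImage_normal F D _ (hsignX d) _ hn
    · show θ _ ∈ eImage Q g
      rw [map_mul, map_mul, map_inv]
      exact eImage_normal F D _ (hpermX σ) _ hn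
    · rw [← hker, map_mul, map_mul, map_mul, map_inv, map_inv, hEab _ ha _ hb]; group
    · by_contra hall
      push Not at hall
      refine eImage_ne_bot F hQ hψ D ((Subgroup.eq_bot_iff_forall _).2 fun a ha => ?_)
      obtain ⟨n, rfl⟩ := hsurj a
      exact (hker n).2 (hall n ha)
  set φE := θ.comp signHom with hφE
  have hE : eImage Q g = φE.range := by
    rw [← Subgroup.map_comap_eq_self_of_surjective hsurj (eImage Q g), ← hN, hNeq, MonoidHom.map_range]
  set φK := θ.comp permHom with hφK
  have hunit : ∀ (d : golayCode) (σ : M24), θ (signAut d) = θ (permAut σ) → σ = 1 := by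
    intro d σ h
    have hc : (signAut d)⁻¹ * permAut σ ∈ Subgroup.center Co0 := by
      rw [← hker, map_mul, map_inv, h, inv_mul_cancel]
    obtain ⟨c, hc'⟩ : ∃ c, (signAut d)⁻¹ * permAut σ = signAut c := by
      rcases center_co0 hc with r | r
      · exact ⟨0, r.trans signAut_zero.symm⟩
      · exact ⟨oneWord, r.trans signAut_oneWord.symm⟩
    have h1 : signAut 0 * permAut σ = signAut (d + c) * permAut 1 := by
      rw [signAut_zero, one_mul, ← permHom_apply 1, map_one, mul_one, ← signAut_mul, ← hc', mul_inv_cancel_left]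
    exact (monomial_unique h1).2
  refine ⟨eImage_le_xImage F D, eImage_normal F D, ⟨⟨⟨fun a b => Subtype.ext (hEab _ a.2 _ b.2)⟩⟩,
    fun a ha => by rw [pow_two]; exact hEsq a ha⟩, ?_, φK.range, ?_, ?_, ?_, ?_⟩
  · rw [hE]
    have h1 := Subgroup.card_mul_index φE.ker
    rw [Subgroup.index_ker] at h1
    have hk : Nat.card φE.ker = 2 := by
      have hset : ((φE.ker : Subgroup (Multiplicative golayCode)) : Set (Multiplicative golayCode)) =
          {Multiplicative.ofAdd 0, Multiplicative.ofAdd oneWord} := by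
        ext d
        simp only [SetLike.mem_coe, MonoidHom.mem_ker, hφE, MonoidHom.comp_apply, hker,
          Set.mem_insert_iff, Set.mem_singleton_iff]
        rw [show signHom d = signAut d.toAdd from rfl, signAut_mem_center_iff]
        constructor
        · rintro (h | h)
          · exact Or.inl (Subtype.ext h : d.toAdd = (0 : golayCode))
          · exact Or.inr (Subtype.ext h : d.toAdd = oneWord)
        · rintro (rfl | rfl)
          · exact Or.inl rfl
          · exact Or.inr rfl
      rw [← SetLike.coe_sort_coe, Nat.card_coe_set_eq, hset, Set.ncard_pair]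
      intro h
      exact zero_ne_one (congrFun (congrArg Subtype.val (Multiplicative.ofAdd.injective h)) none)
    have hC : Nat.card (Multiplicative golayCode) = 4096 := CfsgLib.Golay.natCard_golayCode
    rw [hk, hC] at h1
    omega
  · rintro _ ⟨σ, rfl⟩
    exact hpermX σ
  · rw [Subgroup.eq_bot_iff_forall]
    rintro a ⟨ha, σ, rfl⟩
    rw [SetLike.mem_coe, hE] at ha
    obtain ⟨d, hd⟩ := ha
    rw [hunit d.toAdd σ hd, map_one]
  · refine le_antisymm (sup_le (eImage_le_xImage F D) (by rintro _ ⟨σ, rfl⟩; exact hpermX σ)) fun a ha => ?_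
    obtain ⟨h, rfl⟩ := hsurj a
    obtain ⟨d, σ, rfl⟩ := exists_monomial ((hcl h).1 ha)
    rw [map_mul]
    refine Subgroup.mul_mem _ (Subgroup.mem_sup_left ?_) (Subgroup.mem_sup_right ⟨σ, rfl⟩)
    rw [hE]; exact ⟨Multiplicative.ofAdd d, rfl⟩
  · refine ⟨(MonoidHom.ofInjective ((injective_iff_map_eq_one φK).2 fun σ hσ => ?_)).symm⟩
    exact hunit 0 σ (by rw [signAut_zero, map_one]; exact hσ.symm)

end CfsgLib.Fischer2
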