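import Cfsg.Agent.Lib.Fischer2.MonsterFrame
import Cfsg.Agent.Lib.Fischer2.LeechMonomialSub

/-!
An involution of `Q` not conjugate to `z` lies in the conjugate of `Q` at a second conjugate of `z`
in `Q`; equivalently its centraliser moves `z` to another element of `Q`.
-/

set_option autoImplicit false

namespace CfsgLib.Fischer2

open Cfsg CfsgLib.Leech

variable {G : Type*} [Group G] [Finite G] {z : G} {Q : Subgroup (Subgroup.centralizer ({z} : Set G))}
  [Q.Normal] {e : (Subgroup.centralizer ({z} : Set G)) ⧸ Q ≃* Spor.Co1}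
  {ψ : leechLattice → Q ⧸ Subgroup.center Q}

/-- An involution of `Q` not conjugate to `z` lies over a short class. -/
theorem exists_class32 (hS : IsExtraspecialCentralizerSetting z Q 12) (hψ : IsLeechModTwoIso Q e ψ) {x : Q}
    (hx2 : x * x = 1) (hxc : x ∉ Subgroup.center Q) (hnc : ¬ IsConj z (qVal x)) :
    ∃ w : leechLattice, sqNorm (coordVec w) = 32 ∧ ψ w = QuotientGroup.mk x := by
  obtain ⟨w, hw | hw, hwx⟩ := exists_class (settingFacts hS) hS.2.2.1 hψ hx2 hxc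
  · exact ⟨w, hw, hwx⟩
  · exact absurd ((conj_iff_class hS hψ x).2 ⟨w, hw, hwx⟩).1 hnc

/-- Elements over short classes are conjugate in the centraliser. -/
theorem exists_conj_of_norm32 (F : SettingFacts Q) (hψ : IsLeechModTwoIso Q e ψ) {x y : Q}
    {v w : leechLattice} (hv : sqNorm (coordVec v) = 32) (hw : sqNorm (coordVec w) = 32)
    (hvx : ψ v = QuotientGroup.mk x) (hwy : ψ w = QuotientGroup.mk y) :
    ∃ h ∈ Subgroup.centralizer ({z} : Set G), h * qVal x * h⁻¹ = qVal y := by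
  obtain ⟨g₀, hg₀⟩ := (sameOrbit_norm32 hv (show (none : GolayPt) ≠ some 0 by simp)).trans
    (sameOrbit_norm32 hw (show (none : GolayPt) ≠ some 0 by simp)).symm
  exact exists_conj_of_class F hψ g₀ hvx hwy (not_mem_center_of_class hψ hwy (Or.inl hw))
    (by rw [hg₀]; exact CongTwo.refl _)

theorem conj_mem_conjQ (F : SettingFacts Q) {g c a : G} (hc : c ∈ Subgroup.centralizer ({g * z * g⁻¹} : Set G))
    (ha : a ∈ (qSub Q).map (MulAut.conj g).toMonoidHom) :
    c * a * c⁻¹ ∈ (qSub Q).map (MulAut.conj g).toMonoidHom := by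
  have hcs := Subgroup.mem_centralizer_singleton_iff.1 hc
  have h1 : g⁻¹ * c * g ∈ Subgroup.centralizer
      (((Subgroup.center (qSub Q)).map (qSub Q).subtype : Subgroup G) : Set G) := by
    rw [Subgroup.mem_centralizer_iff]
    intro y hy
    rcases F.eq_or hy with rfl | rfl
    · simp
    · calc y * (g⁻¹ * c * g) = g⁻¹ * ((g * y * g⁻¹) * c) * g := by group
        _ = g⁻¹ * (c * (g * y * g⁻¹)) * g := by rw [hcs]
        _ = _ := by group
  obtain ⟨b, hb, rfl⟩ := ha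
  refine ⟨g⁻¹ * c * g * b * (g⁻¹ * c * g)⁻¹, ((Subgroup.mem_normalizer_iff.1 (F.normalizes h1)) b).1 hb, ?_⟩
  simp only [MulEquiv.toMonoidHom_eq_coe, MonoidHom.coe_coe, MulAut.conj_apply]
  group

/-- Some element of `Q ∩ gQg⁻¹` lies over a short class. -/
theorem exists_short_in_meet (F : SettingFacts Q) (hQ : IsExtraspecial 2 Q) (hψ : IsLeechModTwoIso Q e ψ)
    {g : G} {x : Q} (D : ConjData Q g x) :
    ∃ (y : Q) (v : leechLattice), sqNorm (coordVec v) = 32 ∧ ψ v = QuotientGroup.mk y ∧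
      qVal y ∈ (qSub Q).map (MulAut.conj g).toMonoidHom := by
  classical
  obtain ⟨v, hvn, hv⟩ := exists_class_of_conj F hQ hψ D
  obtain ⟨k, hk⟩ := isAxisClass_norm64 v hvn
  have hxc := D.notMem_center F
  set E := (qSub Q).map (MulAut.conj g).toMonoidHom with hE
  have hxE : qVal x ∈ E := ⟨z, F.mem, D.eq.symm⟩
  have hka : CongTwo (k⁻¹ • vecA) v := by
    have := hk.smul k⁻¹
    rw [inv_smul_smul] at this
    exact this.symm
  have hz0 : ∀ u : leechLattice, ψ (k⁻¹ • (u + u)) = QuotientGroup.mk (1 : Q) := fun u =>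
    (hψ.2.2.1 _).2 ⟨k⁻¹ • u, smul_add_co0 _ _ _⟩
  let W : AddSubgroup leechLattice :=
    { carrier := {f | ∃ y : Q, qVal y ∈ E ∧ ψ (k⁻¹ • f) = QuotientGroup.mk y}
      zero_mem' := ⟨1, E.one_mem, by rw [show (0 : leechLattice) = 0 + 0 from (add_zero 0).symm]; exact hz0 0⟩
      add_mem' := by
        rintro a b ⟨y, hy, hay⟩ ⟨y', hy', hby⟩
        exact ⟨y * y', E.mul_mem hy hy', by rw [smul_add_co0, hψ.1, hay, hby, QuotientGroup.mk_mul]⟩
      neg_mem' := by
        rintro a ⟨y, hy, hay⟩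
        exact ⟨y, hy, by rw [smul_neg_co0, (psi_eq_iff hψ).2 (congTwo_neg _), hay]⟩ }
  have hmono : ∀ (d : golayCode) (σ : M24), ∀ f ∈ W, (signAut d * permAut σ) • f ∈ W := by
    rintro d σ f ⟨y, hy, hfy⟩
    set M := signAut d * permAut σ with hM
    have hfix : CongTwo ((k⁻¹ * M * k) • v) v := by
      rw [mul_smul, mul_smul]
      exact (((hk.smul M).trans (smul_vecA_monomial d σ)).smul k⁻¹).trans hka
    obtain ⟨c, hc, hce⟩ := mem_xImage_of_congTwo F hψ hxc hv hfix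
    have hc2 := (Subgroup.mem_subgroupOf.1 hc).2
    rw [D.eq] at hc2
    refine ⟨⟨c * y * c⁻¹, (inferInstance : Q.Normal).conj_mem _ y.2 c⟩, ?_, ?_⟩
    · show (c : G) * qVal y * (c : G)⁻¹ ∈ E
      exact conj_mem_conjQ F hc2 hy
    · have := hψ.2.2.2 c (k⁻¹ * M * k) (by
        rw [show (QuotientGroup.mk c : _ ⧸ Q) = QuotientGroup.mk' Q c from rfl, hce, e.apply_symm_apply])
        (k⁻¹ • f) y hfy
      rw [mul_smul, mul_smul, smul_inv_smul] at this
      exact this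
  have hperp : ∀ f ∈ W, betaStd f vecA = 0 := by
    rintro f ⟨y, hy, hfy⟩
    have hI := isInvariantForm hQ hψ
    rw [← eq_betaStd hI (commForm_nondeg hQ hψ) (card_leechMod F hQ hψ), ← hI.polar_inv k⁻¹]
    obtain ⟨u, hu⟩ := hka
    rw [hu, hI.add_right, hI.add_right, zmod2_add_self, add_zero, ← commForm_eq hQ _ _ y x hfy hv,
      centerChar_eq_zero_iff]
    apply qVal_injective
    show qVal y * qVal x * (qVal y)⁻¹ * (qVal x)⁻¹ = 1
    rw [commute_qVal_of_mem_conj F D hy]; group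
  -- an element of the meet away from the four trivial ones
  obtain ⟨a, haD, ha4⟩ : ∃ a ∈ qSub Q ⊓ E, a ∉ ({1, z, qVal x, qVal x * z} : Finset G) := by
    by_contra hall
    push Not at hall
    have hle : Nat.card (qSub Q ⊓ E : Subgroup G) ≤ 4 := by
      rw [← SetLike.coe_sort_coe, Nat.card_coe_set_eq]
      refine (Set.ncard_le_ncard (t := (({1, z, qVal x, qVal x * z} : Finset G) : Set G)) hall
        (Finset.finite_toSet _)).trans ?_
      rw [Set.ncard_coe_finset]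
      exact (Finset.card_insert_le _ _).trans (by
        have := Finset.card_insert_le z ({qVal x, qVal x * z} : Finset G)
        have : ({qVal x, qVal x * z} : Finset G).card ≤ 2 := Finset.card_le_two
        omega)
    have h1 := card_eImage_mul F D
    rw [(frame_structure F hQ hψ D).2.2.2.1] at h1
    rw [← hE] at h1
    omega
  simp only [Finset.mem_insert, Finset.mem_singleton, not_or] at ha4
  obtain ⟨⟨a', ha', rfl⟩, haE⟩ := haD
  set y : Q := ⟨a', ha'⟩ with hy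
  obtain ⟨v', hv'⟩ := hψ.2.1 (QuotientGroup.mk y)
  have hmem : pairVec none (some 0) ∈ W := by
    refine pairVec_mem_of_monomial hmono (fun u => ⟨1, E.one_mem, hz0 u⟩)
      ⟨x, hxE, by rw [(psi_eq_iff hψ).2 hka, hv]⟩ hperp (f₀ := k • v')
      ⟨y, haE, by rw [inv_smul_smul, hv']⟩ ?_ ?_
    · rintro ⟨w, hw⟩
      have h1 : ψ v' = 1 := (hψ.2.2.1 v').2 ⟨k⁻¹ • w, by rw [← smul_add_co0, ← hw, inv_smul_smul]⟩
      rw [hv', QuotientGroup.eq_one_iff, F.mem_center_iff] at h1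
      rcases h1 with h1 | h1
      · exact ha4.1 h1
      · exact ha4.2.1 h1
    · intro hc
      have h1 := ((psi_eq_iff hψ).2 ((hc.smul k⁻¹).trans hka) : ψ (k⁻¹ • k • v') = ψ v)
      rw [inv_smul_smul, hv', hv, eq_comm, QuotientGroup.eq, F.mem_center_iff] at h1
      simp only [qVal, Subgroup.coe_mul, InvMemClass.coe_inv] at h1
      rcases h1 with h1 | h1
      · exact ha4.2.2.1 (inv_mul_eq_one.1 h1).symm
      · exact ha4.2.2.2 (inv_mul_eq_iff_eq_mul.1 h1)
  obtain ⟨y₀, hy₀, hpy⟩ := hmem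
  exact ⟨y₀, k⁻¹ • pairVec none (some 0), by rw [sqNorm_smul']; exact sqNorm_uStar, hpy, hy₀⟩

/-- The centraliser of an involution of `Q` not conjugate to `z` moves `z` inside `Q`. -/
theorem exists_fixing_moves (hS : IsExtraspecialCentralizerSetting z Q 12) (hψ : IsLeechModTwoIso Q e ψ)
    {x : Q} (hx2 : x * x = 1) (hxc : x ∉ Subgroup.center Q) (hnc : ¬ IsConj z (qVal x)) :
    ∃ h : G, h * qVal x * h⁻¹ = qVal x ∧ ∃ y : Q, qVal y = h * z * h⁻¹ ∧ qVal y ≠ z := by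
  have F := settingFacts hS
  obtain ⟨g, ⟨hq, hgQ⟩, hgne⟩ := hS.2.2.2.2
  let s : Q := ⟨⟨g * z * g⁻¹, hq⟩, hgQ⟩
  obtain ⟨y₀, v₀, hv₀, hvy, hyE⟩ := exists_short_in_meet F hS.2.2.1 hψ (g := g) (x := s) ⟨rfl, hgne⟩
  obtain ⟨w, hw, hwx⟩ := exists_class32 hS hψ hx2 hxc hnc
  obtain ⟨c, hc, hcy⟩ := exists_conj_of_norm32 F hψ hv₀ hw hvy hwx
  obtain ⟨b, ⟨q, hq', rfl⟩, hbe⟩ := hyE
  change g * (q : G) * g⁻¹ = qVal y₀ at hbe
  set q₀ : Q := ⟨q, hq'⟩ with hq₀
  have hrel : (c * g) * qVal q₀ * (c * g)⁻¹ = qVal x := by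
    rw [← hcy, ← hbe]; show _ = c * (g * qVal q₀ * g⁻¹) * c⁻¹; group
  have hq2 : q₀ * q₀ = 1 := by
    apply qVal_injective
    have h1 : qVal x * qVal x = 1 := congrArg (fun a : Q => qVal a) hx2
    rw [← hrel] at h1
    show qVal q₀ * qVal q₀ = 1
    calc qVal q₀ * qVal q₀
        = (c * g)⁻¹ * ((c * g) * qVal q₀ * (c * g)⁻¹ * ((c * g) * qVal q₀ * (c * g)⁻¹)) * (c * g) := by group
      _ = 1 := by rw [h1]; group
  have hqnc : ¬ IsConj z (qVal q₀) := fun h => hnc (h.trans (isConj_iff.2 ⟨c * g, hrel⟩))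
  have hqc : q₀ ∉ Subgroup.center Q := fun h => by
    rcases (F.mem_center_iff _).1 h with h | h
    · rw [h, mul_one, mul_inv_cancel] at hrel
      exact hxc ((F.mem_center_iff x).2 (Or.inl hrel.symm))
    · exact hqnc (by rw [h])
  obtain ⟨w', hw', hwq⟩ := exists_class32 hS hψ hq2 hqc hqnc
  obtain ⟨c', hc', hcq⟩ := exists_conj_of_norm32 F hψ hw' hw hwq hwx
  refine ⟨c * g * c'⁻¹, ?_, ⟨(⟨c, hc⟩ : Subgroup.centralizer ({z} : Set G)) * s * (⟨c, hc⟩)⁻¹,
    (inferInstance : Q.Normal).conj_mem _ s.2 _⟩, ?_, ?_⟩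
  · calc c * g * c'⁻¹ * qVal x * (c * g * c'⁻¹)⁻¹
        = (c * g) * (c'⁻¹ * (c' * qVal q₀ * c'⁻¹) * c') * (c * g)⁻¹ := by rw [hcq]; group
      _ = (c * g) * qVal q₀ * (c * g)⁻¹ := by group
      _ = qVal x := hrel
  · show c * (g * z * g⁻¹) * c⁻¹ = c * g * c'⁻¹ * z * (c * g * c'⁻¹)⁻¹
    have hcz : c'⁻¹ * z = z * c'⁻¹ := Subgroup.mem_centralizer_singleton_iff.1 (Subgroup.inv_mem _ hc')
    calc c * (g * z * g⁻¹) * c⁻¹ = c * g * (z * c'⁻¹) * c' * (c * g)⁻¹ := by group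
      _ = _ := by rw [← hcz]; group
  · intro h
    apply hgne
    change c * (g * z * g⁻¹) * c⁻¹ = z at h
    have hcz : c * z = z * c := Subgroup.mem_centralizer_singleton_iff.1 hc
    refine mul_left_cancel (a := c) (mul_right_cancel (b := c⁻¹) (h.trans ?_))
    rw [hcz, mul_inv_cancel_right]

end CfsgLib.Fischer2
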