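import Cfsg.Agent.Lib.Fischer2.MonsterClasses

/-!
Moving the identification with the Leech lattice by an automorphism of the lattice.
-/

set_option autoImplicit false

namespace CfsgLib.Fischer2

open Cfsg CfsgLib.Leech

variable {G : Type*} [Group G] {z : G} {Q : Subgroup (Subgroup.centralizer ({z} : Set G))}
  [Q.Normal] {e : (Subgroup.centralizer ({z} : Set G)) ⧸ Q ≃* Spor.Co1}
  {ψ : leechLattice → Q ⧸ Subgroup.center Q}

theorem isLeechModTwoIso_twist (hψ : IsLeechModTwoIso Q e ψ) (g : Co0) :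
    IsLeechModTwoIso Q (e.trans (MulAut.conj (QuotientGroup.mk g : Spor.Co1))) (fun v => ψ (g⁻¹ • v)) := by
  obtain ⟨hadd, hsurj, hker, hequiv⟩ := hψ
  refine ⟨fun v w => ?_, fun q => ?_, fun v => ?_, fun h k hk v q hq => ?_⟩
  · show ψ (g⁻¹ • (v + w)) = _
    rw [smul_add_co0, hadd]
  · obtain ⟨v, hv⟩ := hsurj q
    exact ⟨g • v, by show ψ (g⁻¹ • g • v) = q; rw [inv_smul_smul, hv]⟩
  · show ψ (g⁻¹ • v) = 1 ↔ _
    rw [hker]
    constructor
    · rintro ⟨w, hw⟩
      exact ⟨g • w, by rw [← smul_add_co0, ← hw, smul_inv_smul]⟩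
    · rintro ⟨w, rfl⟩
      exact ⟨g⁻¹ • w, smul_add_co0 _ _ _⟩
  · have hk' : (QuotientGroup.mk (g⁻¹ * k * g) : Spor.Co1) = e (QuotientGroup.mk h) := by
      rw [QuotientGroup.mk_mul, QuotientGroup.mk_mul, hk, QuotientGroup.mk_inv]
      show _ * (_ * e (QuotientGroup.mk h) * _⁻¹) * _ = _
      group
    have := hequiv h (g⁻¹ * k * g) hk' (g⁻¹ • v) q hq
    rw [mul_smul, mul_smul, smul_inv_smul] at this
    exact this

end CfsgLib.Fischer2
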